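import Cfsg.Agent.Lib.ChevTori.CentL

/-!
A semilinear map permuting three commuting copies of `SL₂(K)`: an element of order dividing `q³ + 1` in the
fixed points which is conjugate in the product of the three copies to an element of the torus.
-/

set_option autoImplicit false
set_option linter.unusedSectionVars false

namespace Cfsg.Agent.Lib.ChevTori.Asm

open Matrix
open Cfsg Cfsg.Lie Cfsg.Agent.Lib.ChevBN.Elem Cfsg.Agent.Lib.ChevBN.Entries Cfsg.Agent.Lib.ChevBN.Table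
open Cfsg.Agent.Lib.ChevBN.Collect Cfsg.Agent.Lib.ChevBN.Rel Cfsg.Agent.Lib.ChevBN.Torus
open Cfsg.Agent.Lib.ChevBN.Monomial Cfsg.Agent.Lib.ChevBN.Core Cfsg.Agent.Lib.ChevBN.Pair
open Cfsg.Agent.Lib.ChevBN.Stmts Cfsg.Agent.Lib.ChevBN.BruhatForm Cfsg.Agent.Lib.ChevBN.Opp
open Cfsg.Agent.Lib.ChevTri.Level Cfsg.Agent.Lib.ChevTri.Datum
open Cfsg.Agent.Lib.BNPair.Basic Cfsg.Agent.Lib.BNPair.Parabolic
open Cfsg.Agent.Lib.ChevOrder.BNCount Cfsg.Agent.Lib.ChevOrder.Chev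
open Cfsg.Agent.Lib.ChevOrder.TorusCard Cfsg.Agent.Lib.ChevBN.Levi
open Cfsg.Agent.Lib.BNPair.CoxeterExchange Cfsg.Agent.Lib.StChar.Top
open Cfsg.Agent.Lib.ChevTori.Act Cfsg.Agent.Lib.ChevTori.LinAlg Cfsg.Agent.Lib.ChevTori.Lat
open Cfsg.Agent.Lib.ChevFix Cfsg.Agent.Lib.ChevTori.Core Cfsg.Agent.Lib.ChevTori.Gram
open Cfsg.Agent.Lib.ChevTori.Refl Cfsg.Agent.Lib.ChevTori.SL2Lang Cfsg.Agent.Lib.ChevBN.ConjH
open Cfsg.Agent.Lib.Chevalley Cfsg.Agent.Lib.ChevTori.RootSL2 Cfsg.Agent.Lib.ChevTori.CentL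

local notation "SL₂" K => SpecialLinearGroup (Fin 2) K

section Group

variable {G : Type*} [Group G]

theorem prod3 {a₀ a₁ a₂ b₀ b₁ b₂ : G} (c₁ : Commute a₁ b₀) (c₂ : Commute a₂ b₀) (c₃ : Commute a₂ b₁) :
    (a₀ * a₁ * a₂) * (b₀ * b₁ * b₂) = (a₀ * b₀) * (a₁ * b₁) * (a₂ * b₂) := by
  calc (a₀ * a₁ * a₂) * (b₀ * b₁ * b₂) = a₀ * a₁ * (a₂ * b₀) * b₁ * b₂ := by group
    _ = a₀ * a₁ * (b₀ * a₂) * b₁ * b₂ := by rw [c₂.eq]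
    _ = a₀ * (a₁ * b₀) * (a₂ * b₁) * b₂ := by group
    _ = a₀ * (b₀ * a₁) * (b₁ * a₂) * b₂ := by rw [c₁.eq, c₃.eq]
    _ = _ := by group

end Group

section Iter

variable {D : ChevalleyDatum} {K : Type*} [Field K]

theorem mp_iter (σ : K →+* K) (n : ℕ) (u : GL D.Idx K) :
    (((mp σ)^[n] u : GL D.Idx K) : Matrix D.Idx D.Idx K) = (u : Matrix D.Idx D.Idx K).map (σ^[n]) := by
  induction n generalizing u with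
  | zero =>
    simp
  | succ n ih =>
    rw [Function.iterate_succ_apply, ih, coe_mp, Matrix.map_map, Function.iterate_succ]

end Iter

noncomputable section

variable {D : ChevalleyDatum} {K : Type*} [Field K] {η : ℕ → ℕ → ℤ}
variable (hR : Sys D K η) (hT : Tbl D) (hc : ∀ i < D.rank, D.cartan i (D.simple i) = 2)
  (hη : ∀ i < D.rank, η i (D.simple i) = -1)

/-- The main construction. -/
theorem core_fix [Finite K] (hnb : ∀ s : Fin D.nroots, ∃ s' : Fin D.nroots, Ad D (cr D s) s' = 1)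
    (σ : K →+* K) {q : ℕ} (hσ : ∀ a, σ a = a ^ q) (hq : 2 ≤ q) (hK : Nat.card K = q ^ 12)
    {g₁ y : GL D.Idx K} (hy : y = g₁⁻¹ * mp σ g₁) (s₀ s₁ s₂ s₃ : Fin D.nroots)
    (hm₀ : Moves hR hT hc hη s₀ s₁ y) (hm₁ : Moves hR hT hc hη s₁ s₂ y)
    (hm₂ : Moves hR hT hc hη s₂ s₃ y) (hs₃ : s₃ = s₀ ∨ s₃ = negF hT s₀)
    (h01 : ∀ a b, Commute (psi hR hT hc hη s₀ a) (psi hR hT hc hη s₁ b))
    (h02 : ∀ a b, Commute (psi hR hT hc hη s₀ a) (psi hR hT hc hη s₂ b))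
    (h12 : ∀ a b, Commute (psi hR hT hc hη s₁ a) (psi hR hT hc hη s₂ b))
    (ξ : Kˣ) (hξ : ξ ^ (q ^ 3 + 1) = 1) (hξ2 : ξ ^ 2 ≠ 1) :
    ∃ z₀ z₁ z₂ : SL₂ K, ∀ z d : GL D.Idx K,
      z = psi hR hT hc hη s₀ z₀ * psi hR hT hc hη s₁ z₁ * psi hR hT hc hη s₂ z₂ →
      d = hG hR.toAddRel s₀ (ξ : K) * hG hR.toAddRel s₁ ((ξ ^ q : Kˣ) : K) *
        hG hR.toAddRel s₂ ((ξ ^ (q ^ 2) : Kˣ) : K) →
      mp σ (g₁ * (z * d * z⁻¹) * g₁⁻¹) = g₁ * (z * d * z⁻¹) * g₁⁻¹ := by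
  classical
  haveI := Fintype.ofFinite K
  set ψ₀ := psi hR hT hc hη s₀ with hψ₀
  set ψ₁ := psi hR hT hc hη s₁ with hψ₁
  set ψ₂ := psi hR hT hc hη s₂ with hψ₂
  obtain ⟨A₀, hA₀⟩ := hm₀
  obtain ⟨A₁, hA₁⟩ := hm₁
  obtain ⟨A₂, hA₂⟩ : ∃ A₂ : GL (Fin 2) K, ∀ a, y * ψ₂ a * y⁻¹ = ψ₀ (Cj A₂ a) := by
    obtain ⟨A, hA⟩ := hm₂
    rcases hs₃ with rfl | rfl
    · exact ⟨A, hA⟩
    · refine ⟨Pw * A, fun a => ?_⟩
      rw [hA, psi_neg, Cj_mul]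
  let Tm : GL D.Idx K →* GL D.Idx K := (MulAut.conj y).toMonoidHom.comp (mp σ)
  have hTm : ∀ a, Tm a = y * mp σ a * y⁻¹ := fun a => rfl
  have e₀ : ∀ a, Tm (ψ₀ a) = ψ₁ (Cj A₀ (Fr σ a)) := by
    intro a
    rw [hTm, psi_mp, hA₀]
  have e₁ : ∀ a, Tm (ψ₁ a) = ψ₂ (Cj A₁ (Fr σ a)) := by
    intro a
    rw [hTm, psi_mp, hA₁]
  have e₂ : ∀ a, Tm (ψ₂ a) = ψ₀ (Cj A₂ (Fr σ a)) := by
    intro a
    rw [hTm, psi_mp, hA₂]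
  have hΦ : ∀ a, g₁ * Tm a * g₁⁻¹ = mp σ (g₁ * a * g₁⁻¹) := by
    intro a
    rw [hTm, map_mul, map_mul, map_inv, hy]
    group
  have hσ12 : ∀ a : K, σ^[12] a = a := by
    intro a
    have h1 : ∀ (n : ℕ) (b : K), σ^[n] b = b ^ (q ^ n) := by
      intro n b
      induction n with
      | zero => simp
      | succ n ih =>
        rw [Function.iterate_succ_apply', ih, hσ, ← pow_mul, pow_succ]
    rw [h1, ← hK, Nat.card_eq_fintype_card, FiniteField.pow_card]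
  have hmp12 : ∀ u : GL D.Idx K, (mp σ)^[12] u = u := by
    intro u
    apply Units.ext
    rw [mp_iter]
    ext i j
    exact hσ12 _
  have hiter : ∀ (n : ℕ) (a : GL D.Idx K), g₁ * Tm^[n] a * g₁⁻¹ = (mp σ)^[n] (g₁ * a * g₁⁻¹) := by
    intro n a
    induction n with
    | zero => simp
    | succ n ih =>
      rw [Function.iterate_succ_apply', Function.iterate_succ_apply', hΦ, ih]
  have hT12 : ∀ a, Tm^[12] a = a := by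
    intro a
    have h1 := hiter 12 a
    rw [hmp12] at h1
    have h2 := mul_left_cancel (mul_right_cancel h1)
    exact h2
  have hinj : Function.Injective ψ₀ := psi_inj hR hT hc hη hnb s₀
  have hT3 : ∀ a, Tm (Tm (Tm (ψ₀ a))) = ψ₀ (rhoMap σ A₀ A₁ A₂ a) := by
    intro a
    rw [e₀, e₁, e₂]
    rfl
  have hρ : ∀ a : SL₂ K, rhoMap σ A₀ A₁ A₂ (rhoMap σ A₀ A₁ A₂ (rhoMap σ A₀ A₁ A₂ (rhoMap σ A₀ A₁ A₂ a))) = a := by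
    intro a
    apply hinj
    rw [← hT3, ← hT3, ← hT3, ← hT3]
    exact hT12 _
  obtain ⟨b₀, hb₀, hdg₀⟩ := sl2_fixed σ hσ hq hK A₀ A₁ A₂ hρ ξ hξ hξ2
  set b₁ := Cj A₀ (Fr σ b₀) with hb₁
  set b₂ := Cj A₁ (Fr σ b₁) with hb₂
  have hb₃ : Cj A₂ (Fr σ b₂) = b₀ := hb₀
  have hU : ∀ x : Kˣ, Units.map (σ : K →* K) x = x ^ q := by
    intro x
    apply Units.ext
    rw [Units.val_pow_eq_pow_val]
    exact hσ _
  have hdg₁ : IsDg b₁ (ξ ^ q) := by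
    have := hdg₀.step σ A₀
    rwa [hU] at this
  have hdg₂ : IsDg b₂ (ξ ^ (q ^ 2)) := by
    have := hdg₁.step σ A₁
    rw [hU, ← pow_mul, ← sq] at this
    exact this
  obtain ⟨z₀, hz₀⟩ := hdg₀.exists_sl
  obtain ⟨z₁, hz₁⟩ := hdg₁.exists_sl
  obtain ⟨z₂, hz₂⟩ := hdg₂.exists_sl
  refine ⟨z₀, z₁, z₂, ?_⟩
  rintro z d rfl rfl
  rw [← psi_dg hR hT hc hη, ← psi_dg hR hT hc hη, ← psi_dg hR hT hc hη, ← hψ₀, ← hψ₁, ← hψ₂]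
  set t₂ := ψ₀ b₀ * ψ₁ b₁ * ψ₂ b₂ with ht₂
  have hzd : (ψ₀ z₀ * ψ₁ z₁ * ψ₂ z₂) * (ψ₀ (dg ξ) * ψ₁ (dg (ξ ^ q)) * ψ₂ (dg (ξ ^ (q ^ 2)))) =
      t₂ * (ψ₀ z₀ * ψ₁ z₁ * ψ₂ z₂) := by
    rw [prod3 (h01 _ _).symm (h02 _ _).symm (h12 _ _).symm, ht₂,
      prod3 (h01 _ _).symm (h02 _ _).symm (h12 _ _).symm, ← map_mul, ← map_mul, ← map_mul, ← map_mul,
      ← map_mul, ← map_mul, hz₀, hz₁, hz₂]
  have hconj : (ψ₀ z₀ * ψ₁ z₁ * ψ₂ z₂) * (ψ₀ (dg ξ) * ψ₁ (dg (ξ ^ q)) * ψ₂ (dg (ξ ^ (q ^ 2)))) *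
      (ψ₀ z₀ * ψ₁ z₁ * ψ₂ z₂)⁻¹ = t₂ := by
    rw [hzd]
    group
  rw [hconj]
  have hfix : Tm t₂ = t₂ := by
    rw [ht₂, map_mul, map_mul, e₀, e₁, e₂, hb₃, ← hb₁, ← hb₂]
    calc ψ₁ b₁ * ψ₂ b₂ * ψ₀ b₀ = ψ₁ b₁ * (ψ₂ b₂ * ψ₀ b₀) := by group
      _ = ψ₁ b₁ * (ψ₀ b₀ * ψ₂ b₂) := by rw [(h02 b₀ b₂).eq]
      _ = (ψ₁ b₁ * ψ₀ b₀) * ψ₂ b₂ := by group
      _ = (ψ₀ b₀ * ψ₁ b₁) * ψ₂ b₂ := by rw [(h01 b₀ b₁).eq]
  rw [← hΦ, hfix]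

end

end Cfsg.Agent.Lib.ChevTori.Asm
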