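import Cfsg.Agent.Lib.ChevTori.RootSL2

/-!
Elements conjugating a torus element to another one: normal form, and their action on the homomorphisms
from `SL₂` attached to the roots on which the torus element acts trivially.
-/

set_option autoImplicit false
set_option linter.unusedSectionVars false

namespace Cfsg.Agent.Lib.ChevTori.CentL

open Matrix
open Cfsg Cfsg.Lie Cfsg.Agent.Lib.ChevBN.Elem Cfsg.Agent.Lib.ChevBN.Entries Cfsg.Agent.Lib.ChevBN.Table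
open Cfsg.Agent.Lib.ChevBN.Collect Cfsg.Agent.Lib.ChevBN.Rel Cfsg.Agent.Lib.ChevBN.Torus
open Cfsg.Agent.Lib.ChevBN.Monomial Cfsg.Agent.Lib.ChevBN.Core Cfsg.Agent.Lib.ChevBN.Pair
open Cfsg.Agent.Lib.ChevBN.Stmts Cfsg.Agent.Lib.ChevBN.BruhatForm Cfsg.Agent.Lib.ChevBN.Opp
open Cfsg.Agent.Lib.ChevTri.Level Cfsg.Agent.Lib.ChevTri.Datum
open Cfsg.Agent.Lib.BNPair.Basic Cfsg.Agent.Lib.BNPair.Parabolic
open Cfsg.Agent.Lib.ChevOrder.BNCount Cfsg.Agent.Lib.ChevOrder.Chev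
open Cfsg.Agent.Lib.ChevOrder.TorusCard Cfsg.Agent.Lib.ChevBN.Levi
open Cfsg.Agent.Lib.BNPair.CoxeterExchange Cfsg.Agent.Lib.StChar.Top
open Cfsg.Agent.Lib.ChevTori.Act Cfsg.Agent.Lib.ChevTori.LinAlg Cfsg.Agent.Lib.ChevTori.Lat
open Cfsg.Agent.Lib.ChevFix Cfsg.Agent.Lib.ChevTori.Core Cfsg.Agent.Lib.ChevTori.Gram
open Cfsg.Agent.Lib.ChevTori.Refl Cfsg.Agent.Lib.ChevTori.SL2Lang Cfsg.Agent.Lib.ChevBN.ConjH
open Cfsg.Agent.Lib.Chevalley Cfsg.Agent.Lib.ChevTori.RootSL2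

noncomputable section

variable {D : ChevalleyDatum} {K : Type*} [Field K] {η : ℕ → ℕ → ℤ}
variable (hR : Sys D K η) (hT : Tbl D)

/-- The unipotent elements fixed by a torus element. -/
theorem fixed_U_mem (c : Fin D.rank → Kˣ) {u : GL D.Idx K} (hu : u ∈ D.posUnipotent K)
    (hfix : (tmap hT hR c : GL D.Idx K) * u * (tmap hT hR c : GL D.Idx K)⁻¹ = u) :
    u ∈ gen hR.toAddRel {r | r ∈ D.posRoots ∧ chi D (ext c) r = 1} := by
  have hu' : u ∈ gen hR.toAddRel {r | r ∈ D.posRoots} := by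
    rwa [← posUnipotent_eq_list hR hT]
  have hpos : ∀ r ∈ D.posRoots, D.IsPosRoot r := fun r hr => mem_posRoots.mp hr
  obtain ⟨a, rfl⟩ := exists_ordered hT (commPos hR) _ posRoots_sorted hpos
    (posRoots_closed hR hT) u hu'
  have h1 : ∀ l : List ℕ, (∀ r ∈ l, r < D.nroots) →
      (tmap hT hR c : GL D.Idx K) * W hR.toAddRel (l.map fun r => (r, a r)) *
        (tmap hT hR c : GL D.Idx K)⁻¹ =
      W hR.toAddRel (l.map fun r => (r, chi D (ext c) r * a r)) := by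
    intro l
    induction l with
    | nil => intro _; simp
    | cons b l ih =>
      intro hl
      simp only [List.map_cons, W_cons]
      rw [← ih fun r hr => hl r (by simp [hr]), ← tmap_conj_X hR hT c (hl b (by simp))]
      group
  rw [h1 _ (fun r hr => (hpos r hr).1)] at hfix
  have h2 := ordered_unique (hA := hR.toAddRel) hT _ posRoots_sorted hpos _ _ hfix
  have h3 : ∀ l : List ℕ, (∀ r ∈ l, r ∈ D.posRoots) →
      W hR.toAddRel (l.map fun r => (r, a r)) ∈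
        gen hR.toAddRel {r | r ∈ D.posRoots ∧ chi D (ext c) r = 1} := by
    intro l
    induction l with
    | nil => intro _; simp [Subgroup.one_mem]
    | cons b l ih =>
      intro hl
      simp only [List.map_cons, W_cons]
      refine Subgroup.mul_mem _ ?_ (ih fun r hr => hl r (by simp [hr]))
      have hb := hl b (by simp)
      have h4 := h2 b hb
      by_cases h5 : a b = 0
      · show X hR.toAddRel b (a b) ∈ _
        rw [h5, X_zero]
        exact Subgroup.one_mem _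
      · have h6 : chi D (ext c) b = 1 := by
          have h7 : (chi D (ext c) b - 1) * a b = 0 := by
            rw [sub_mul, one_mul, h4, sub_self]
          exact sub_eq_zero.mp ((mul_eq_zero.mp h7).resolve_right h5)
        exact X_mem_gen hR.toAddRel (show b ∈ {r | r ∈ D.posRoots ∧ chi D (ext c) r = 1} from ⟨hb, h6⟩) _
  exact h3 _ fun r hr => hr

/-- The normal form of an element conjugating a torus element to another one. -/
theorem normal_form_cent (c c' : Fin D.rank → Kˣ) {y : GL D.Idx K} (hy : y ∈ D.group K)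
    (hc : (tmap hT hR c : GL D.Idx K) * y * (tmap hT hR c' : GL D.Idx K)⁻¹ = y) :
    ∃ u₁ ∈ gen hR.toAddRel {r | r ∈ D.posRoots ∧ chi D (ext c) r = 1},
      ∃ n ∈ D.monomialSubgroup K,
        ∃ u ∈ gen hR.toAddRel {r | r ∈ D.posRoots ∧ chi D (ext c') r = 1},
          y = u₁ * n * u ∧
            (tmap hT hR c : GL D.Idx K) * n * (tmap hT hR c' : GL D.Idx K)⁻¹ = n := by
  obtain ⟨b, hb, n, hn, u, hu, rfl⟩ := normal_form_exists hR hT hy
  set t : GL D.Idx K := (tmap hT hR c : GL D.Idx K) with ht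
  set t' : GL D.Idx K := (tmap hT hR c' : GL D.Idx K) with ht'
  have htH : t ∈ D.diagonalSubgroup K := (tmap hT hR c).2
  have ht'H : t' ∈ D.diagonalSubgroup K := (tmap hT hR c').2
  set h₁ : GL D.Idx K := t * (n * t'⁻¹ * n⁻¹) with hh₁
  have hh₁H : h₁ ∈ D.diagonalSubgroup K :=
    Subgroup.mul_mem _ htH (H_norm_N hR hT hn (Subgroup.inv_mem _ ht'H))
  have e1 : b * n * u = (t * b * t⁻¹ * h₁) * n * (t' * u * t'⁻¹) := by
    rw [← hc]
    rw [hh₁]
    group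
  have hb' : t * b * t⁻¹ * h₁ ∈ D.borelSubgroup K :=
    Subgroup.mul_mem _ (Subgroup.mul_mem _ (Subgroup.mul_mem _ (H_le_B hR hT htH) hb)
      (H_le_B hR hT (Subgroup.inv_mem _ htH))) (H_le_B hR hT hh₁H)
  have hu' : t' * u * t'⁻¹ ∈ Un D K n := tmap_norm_Un hR hT c' n hu
  obtain ⟨h2, h3⟩ := (normal_form_unique hR hT hb hb' hn hn hu hu' e1).2 rfl
  have hu1 := fixed_U_mem hR hT c' (Un_le_U hR hT n hu) h3.symm
  obtain ⟨u₁, hu₁, k₁, hk₁, rfl⟩ := (mem_B_iff hR hT).mp hb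
  have e2 : t * k₁ * t⁻¹ = k₁ := by
    rw [H_comm hR hT htH hk₁]
    group
  have e3 : (t * u₁ * t⁻¹) * k₁ * h₁ = u₁ * k₁ := by
    rw [h2]
    calc (t * u₁ * t⁻¹) * k₁ * h₁ = (t * u₁ * t⁻¹) * (t * k₁ * t⁻¹) * h₁ := by rw [e2]
      _ = t * (u₁ * k₁) * t⁻¹ * h₁ := by group
  have hu₁' : t * u₁ * t⁻¹ ∈ D.posUnipotent K := H_norm_U hR hT htH hu₁
  have e4 : u₁⁻¹ * (t * u₁ * t⁻¹) = k₁ * h₁⁻¹ * k₁⁻¹ := by
    have : (t * u₁ * t⁻¹) = u₁ * k₁ * h₁⁻¹ * k₁⁻¹ := by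
      rw [← e3]
      group
    rw [this]
    group
  have h5 : u₁⁻¹ * (t * u₁ * t⁻¹) ∈ D.posUnipotent K ⊓ D.diagonalSubgroup K := by
    refine ⟨Subgroup.mul_mem _ (Subgroup.inv_mem _ hu₁) hu₁', ?_⟩
    rw [e4]
    exact Subgroup.mul_mem _ (Subgroup.mul_mem _ hk₁ (Subgroup.inv_mem _ hh₁H))
      (Subgroup.inv_mem _ hk₁)
  rw [U_inf_H hR hT, Subgroup.mem_bot] at h5
  have h6 : t * u₁ * t⁻¹ = u₁ := (inv_mul_eq_one.mp h5).symm
  have hh₁1 : h₁ = 1 := by
    rw [h6] at e3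
    have e5 : u₁ * k₁ * h₁ = u₁ * k₁ * 1 := by rw [e3, mul_one]
    exact mul_left_cancel e5
  have hu₁1 := fixed_U_mem hR hT c hu₁ h6
  refine ⟨u₁, hu₁1, k₁ * n, Subgroup.mul_mem _ (H_le_N hR hk₁) hn, u, hu1, by group, ?_⟩
  have e6 : t * n * t'⁻¹ = n := by
    have e7 : t * (n * t'⁻¹ * n⁻¹) = 1 := hh₁1
    have e8 : t * n * t'⁻¹ = t * (n * t'⁻¹ * n⁻¹) * n := by group
    rw [e8, e7, one_mul]
  calc t * (k₁ * n) * t'⁻¹ = (t * k₁ * t⁻¹) * (t * n * t'⁻¹) := by group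
    _ = k₁ * n := by rw [e2, e6]

end

end Cfsg.Agent.Lib.ChevTori.CentL
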