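import Cfsg.Agent.Lib.ChevTori.Flow
import Cfsg.Agent.Lib.ChevTori.Final
import Cfsg.Agent.Lib.Steinberg.Gen.MultE67
import Cfsg.Agent.Lib.ChevOrder.Cert.E6

/-!
The data of type `E₆`: the form on the coroot lattice, the vector of the centre, the torus of the
presented group, the Weyl group elements with the eigenvalue of order `12`.
-/

set_option autoImplicit false
set_option linter.unusedSectionVars false

namespace Cfsg.Agent.Lib.ChevTori.E6

open Polynomial Matrix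
open Cfsg Cfsg.Lie Cfsg.Agent.Lib.ChevBN.Elem Cfsg.Agent.Lib.ChevBN.Entries Cfsg.Agent.Lib.ChevBN.Table
open Cfsg.Agent.Lib.ChevBN.Collect Cfsg.Agent.Lib.ChevBN.Rel Cfsg.Agent.Lib.ChevBN.Torus
open Cfsg.Agent.Lib.ChevBN.Monomial Cfsg.Agent.Lib.ChevBN.Core Cfsg.Agent.Lib.ChevBN.Pair
open Cfsg.Agent.Lib.ChevBN.Stmts Cfsg.Agent.Lib.ChevBN.BruhatForm Cfsg.Agent.Lib.ChevBN.Opp
open Cfsg.Agent.Lib.ChevTri.Level Cfsg.Agent.Lib.ChevTri.Datum
open Cfsg.Agent.Lib.BNPair.Basic Cfsg.Agent.Lib.BNPair.Parabolic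
open Cfsg.Agent.Lib.ChevOrder.BNCount Cfsg.Agent.Lib.ChevOrder.Chev
open Cfsg.Agent.Lib.ChevOrder.TorusCard Cfsg.Agent.Lib.ChevBN.Levi
open Cfsg.Agent.Lib.BNPair.CoxeterExchange Cfsg.Agent.Lib.StChar.Top
open Cfsg.Agent.Lib.ChevTori.Act Cfsg.Agent.Lib.ChevTori.LinAlg Cfsg.Agent.Lib.ChevTori.Lat
open Cfsg.Agent.Lib.ChevFix Cfsg.Agent.Lib.ChevTori.Core Cfsg.Agent.Lib.ChevTori.Gram
open Cfsg.Agent.Lib.Steinberg.Gen Cfsg.Agent.Lib.ChevTori.StLift

/-- The Gram matrix of `E₆`. -/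
def Gm : Matrix (Fin 6) (Fin 6) ℤ :=
  !![2, 0, -1, 0, 0, 0; 0, 2, 0, -1, 0, 0; -1, 0, 2, -1, 0, 0; 0, -1, -1, 2, -1, 0;
    0, 0, 0, -1, 2, -1; 0, 0, 0, 0, -1, 2]

theorem Gm_symm : ∀ i j : Fin 6, Gm i j = Gm j i := by
  intro i j
  fin_cases i <;> fin_cases j <;> rfl

theorem B_symm_of {l : ℕ} {G : Matrix (Fin l) (Fin l) ℤ} (h : ∀ i j, G i j = G j i)
    (x y : Fin l → ℤ) : B G x y = B G y x := by
  have hG : Gᵀ = G := by
    ext i j
    exact h j i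
  simp only [B]
  rw [Matrix.dotProduct_mulVec, ← Matrix.mulVec_transpose, hG, dotProduct_comm]

theorem Gm_form (x : Fin 6 → ℚ) : x ⬝ᵥ (toQ Gm *ᵥ x) =
    2 * (x 0 - x 2 / 2) ^ 2 + 3 / 2 * (x 2 - 2 * x 3 / 3) ^ 2 + 2 * (x 1 - x 3 / 2) ^ 2 +
      2 * (x 5 - x 4 / 2) ^ 2 + 3 / 2 * (x 4 - 2 * x 3 / 3) ^ 2 + x 3 ^ 2 / 6 := by
  simp [dotProduct, Matrix.mulVec, Fin.sum_univ_succ, Gm, toQ, Matrix.map_apply]
  ring

theorem Gm_even (x : Fin 6 → ℤ) : B Gm x x = 2 * (x 0 ^ 2 + x 1 ^ 2 + x 2 ^ 2 + x 3 ^ 2 + x 4 ^ 2 +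
    x 5 ^ 2 - x 0 * x 2 - x 1 * x 3 - x 2 * x 3 - x 3 * x 4 - x 4 * x 5) := by
  simp [B, dotProduct, Matrix.mulVec, Fin.sum_univ_succ, Gm]
  ring

theorem Gm_Lt : Lt Gm where
  symm := B_symm_of Gm_symm
  pos := by
    intro x hx
    rw [Gm_form]
    by_contra hcon
    push Not at hcon
    have h0 := sq_nonneg (x 0 - x 2 / 2)
    have h1 := sq_nonneg (x 2 - 2 * x 3 / 3)
    have h2 := sq_nonneg (x 1 - x 3 / 2)
    have h3 := sq_nonneg (x 5 - x 4 / 2)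
    have h4 := sq_nonneg (x 4 - 2 * x 3 / 3)
    have h5 := sq_nonneg (x 3)
    have e3 : x 3 = 0 := by
      have : x 3 ^ 2 ≤ 0 := by linarith
      exact pow_eq_zero_iff (two_ne_zero) |>.mp (le_antisymm this h5)
    have e2 : x 2 - 2 * x 3 / 3 = 0 := by
      have : (x 2 - 2 * x 3 / 3) ^ 2 ≤ 0 := by linarith
      exact pow_eq_zero_iff (two_ne_zero) |>.mp (le_antisymm this h1)
    have e1 : x 1 - x 3 / 2 = 0 := by
      have : (x 1 - x 3 / 2) ^ 2 ≤ 0 := by linarith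
      exact pow_eq_zero_iff (two_ne_zero) |>.mp (le_antisymm this h2)
    have e0 : x 0 - x 2 / 2 = 0 := by
      have : (x 0 - x 2 / 2) ^ 2 ≤ 0 := by linarith
      exact pow_eq_zero_iff (two_ne_zero) |>.mp (le_antisymm this h0)
    have e4 : x 4 - 2 * x 3 / 3 = 0 := by
      have : (x 4 - 2 * x 3 / 3) ^ 2 ≤ 0 := by linarith
      exact pow_eq_zero_iff (two_ne_zero) |>.mp (le_antisymm this h4)
    have e5 : x 5 - x 4 / 2 = 0 := by
      have : (x 5 - x 4 / 2) ^ 2 ≤ 0 := by linarith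
      exact pow_eq_zero_iff (two_ne_zero) |>.mp (le_antisymm this h3)
    apply hx
    funext i
    fin_cases i
    · show x 0 = 0
      linarith
    · show x 1 = 0
      linarith
    · show x 2 = 0
      linarith
    · show x 3 = 0
      linarith
    · show x 4 = 0
      linarith
    · show x 5 = 0
      linarith
  even := by
    intro x
    rw [Gm_even]
    exact dvd_mul_right _ _

theorem Gm_conn : Conn Gm := by
  intro p h ⟨i, hi⟩
  have e02 : p 0 ↔ p 2 := ⟨h 0 2 (by simp [Gm]), h 2 0 (by simp [Gm])⟩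
  have e23 : p 2 ↔ p 3 := ⟨h 2 3 (by simp [Gm]), h 3 2 (by simp [Gm])⟩
  have e13 : p 1 ↔ p 3 := ⟨h 1 3 (by simp [Gm]), h 3 1 (by simp [Gm])⟩
  have e34 : p 3 ↔ p 4 := ⟨h 3 4 (by simp [Gm]), h 4 3 (by simp [Gm])⟩
  have e45 : p 4 ↔ p 5 := ⟨h 4 5 (by simp [Gm]), h 5 4 (by simp [Gm])⟩
  have hp3 : p 3 := by
    fin_cases i
    · exact e23.mp (e02.mp hi)
    · exact e13.mp hi
    · exact e23.mp hi
    · exact hi
    · exact e34.mpr hi
    · exact e34.mpr (e45.mpr hi)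
  intro j
  fin_cases j
  · exact e02.mpr (e23.mpr hp3)
  · exact e13.mpr hp3
  · exact e23.mpr hp3
  · exact hp3
  · exact e34.mp hp3
  · exact e45.mp (e34.mp hp3)

theorem gram_eq : ∀ i j : Fin 6, Gram.gram chevE6 i j = Gm i j := by
  intro i j
  fin_cases i <;> fin_cases j <;> decide +kernel

theorem gram_E6 : Gram.gram chevE6 = Gm := Matrix.ext gram_eq

theorem hLt : Lt (Gram.gram chevE6) := by
  rw [gram_E6]
  exact Gm_Lt

theorem hConn : Conn (Gram.gram chevE6) := by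
  rw [gram_E6]
  exact Gm_conn

theorem hDiag : ∀ i, Gram.gram chevE6 i i = 2 := by
  intro i
  rw [gram_E6]
  fin_cases i <;> rfl

theorem hSL : SL chevE6 where
  hsl := by decide +kernel
  symm := by decide +kernel

/-- The vector of the centre. -/
def zV : Fin chevE6.rank → ℤ := fun j => RepData.E6.wL.getD j 0

theorem zV_dvd : ∀ i : Fin chevE6.rank,
    (((3 : ℕ) : ℤ)) ∣ ∑ k : Fin chevE6.rank, chevE6.cartan k (chevE6.simple i) * zV k := by
  decide +kernel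

theorem zV_norm : B (Gram.gram chevE6) zV zV % 18 = 12 := by
  decide +kernel

theorem zV_dvd_B (y : Fin chevE6.rank → ℤ) : (3 : ℤ) ∣ B (Gram.gram chevE6) zV y := by
  rw [B_symm_of (G := Gram.gram chevE6) (fun i j => hSL.symm i j) zV y]
  have : B (Gram.gram chevE6) y zV = ∑ i, y i * ∑ k : Fin chevE6.rank, chevE6.cartan k (chevE6.simple i) * zV k := by
    simp only [B, dotProduct, Matrix.mulVec, Gram.gram, Matrix.of_apply]
    apply Finset.sum_congr rfl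
    intro i _
    congr 1
    apply Finset.sum_congr rfl
    intro k _
    rw [hSL.symm i k]
  rw [this]
  apply Finset.dvd_sum
  intro i _
  exact Dvd.dvd.mul_left (zV_dvd i) _

theorem red_zV : red 3 zV ≠ 0 := by
  intro h
  have h1 := congrFun h (⟨0, by decide⟩ : Fin chevE6.rank)
  revert h1
  simp only [red, zV, Pi.zero_apply]
  decide +kernel

end Cfsg.Agent.Lib.ChevTori.E6
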