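import Cfsg.Agent.Lib.ChevTori.Final

/-!
The kernel of `M - q` on `(Kˣ)^l` when the characteristic polynomial of `M` divides `X^n - 1` and
`|K| = q^n`: its order and a criterion for it to be cyclic.
-/

set_option autoImplicit false
set_option linter.unusedSectionVars false

namespace Cfsg.Agent.Lib.ChevTori.TorA

open Polynomial Matrix
open Cfsg.Agent.Lib.ChevOrder.TorusCard
open Cfsg.Agent.Lib.ChevTori.LinAlg Cfsg.Agent.Lib.ChevTori.Core
open Cfsg.Agent.Lib.ChevTori.Main

variable {l n q : ℕ} {K : Type*} [Field K] [Finite K] {M : Matrix (Fin l) (Fin l) ℤ} {f : ℤ[X]}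

theorem det_natAbs' (hchar : M.charpoly = f) :
    (M - (q : ℤ) • 1).det.natAbs = (f.eval (q : ℤ)).natAbs := by
  have h1 : f.eval (q : ℤ) = ((q : ℤ) • (1 : Matrix (Fin l) (Fin l) ℤ) - M).det := by
    rw [← hchar, Matrix.eval_charpoly]
    congr 1
    ext i j
    simp [Matrix.scalar_apply, Matrix.one_apply, Matrix.diagonal_apply]
  have h2 : M - (q : ℤ) • 1 = -((q : ℤ) • (1 : Matrix (Fin l) (Fin l) ℤ) - M) := by
    rw [neg_sub]
  rw [h2, Matrix.det_neg, h1, Int.natAbs_mul]
  have h3 : (((-1 : ℤ) ^ Fintype.card (Fin l))).natAbs = 1 := by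
    rw [Int.natAbs_pow]
    simp
  rw [h3, one_mul]

theorem eval_dvd' (hf : f ∣ X ^ n - 1) (hq : 2 ≤ q) : (f.eval (q : ℤ)).natAbs ∣ q ^ n - 1 := by
  have h1 : f.eval (q : ℤ) ∣ (q : ℤ) ^ n - 1 := by
    have := Polynomial.eval_dvd (x := (q : ℤ)) hf
    simpa using this
  have h2 : (((q ^ n - 1 : ℕ)) : ℤ) = (q : ℤ) ^ n - 1 := by
    have : 1 ≤ q ^ n := Nat.one_le_pow _ _ (by omega)
    push_cast [this]
    ring
  rw [← h2] at h1
  have := Int.natAbs_dvd_natAbs.mpr h1
  simpa using this

theorem eval_ne' (hn : 0 < n) (hf : f ∣ X ^ n - 1) (hq : 2 ≤ q) : f.eval (q : ℤ) ≠ 0 := by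
  intro h0
  have h1 := eval_dvd' hf hq
  rw [h0] at h1
  simp only [Int.natAbs_zero, zero_dvd_iff] at h1
  have h2 : 2 ^ n ≤ q ^ n := Nat.pow_le_pow_left hq n
  have h3 : 2 ≤ 2 ^ n := by
    calc 2 = 2 ^ 1 := rfl
      _ ≤ 2 ^ n := Nat.pow_le_pow_right (by norm_num) hn
  omega

/-- The order of the kernel. -/
theorem card_A (hn : 0 < n) (hq : 2 ≤ q) (hK : Nat.card K = q ^ n) (hchar : M.charpoly = f)
    (hf : f ∣ X ^ n - 1) :
    Nat.card (actM (μ := Kˣ) (M - (q : ℤ) • 1)).ker = (f.eval (q : ℤ)).natAbs := by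
  have hdn := det_natAbs' (q := q) hchar
  have hdet : (M - (q : ℤ) • 1).det ≠ 0 := by
    intro h0
    rw [h0] at hdn
    have := eval_ne' hn hf hq
    simp only [Int.natAbs_zero] at hdn
    exact this (Int.natAbs_eq_zero.mp hdn.symm)
  rw [card_ker_eq hdet (by
    rw [hdn, Nat.card_units, hK]
    exact eval_dvd' hf hq), hdn]

/-- The eigenspaces modulo `s` have at most `s` elements when `s ∤ n`. -/
theorem card_eigen_le' {s : ℕ} [hs : Fact s.Prime] (hsd : ¬ s ∣ n) (h : M.charpoly ∣ X ^ n - 1)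
    (lam : ZMod s) :
    Nat.card {a : Fin l → ZMod s // (M.map (Int.castRingHom (ZMod s))) *ᵥ a = lam • a} ≤ s := by
  classical
  set Mb := M.map (Int.castRingHom (ZMod s)) with hMb
  have hc : Mb.charpoly ∣ X ^ n - 1 := by
    rw [hMb, Matrix.charpoly_map]
    have := Polynomial.map_dvd (Int.castRingHom (ZMod s)) h
    simpa using this
  have hne : ((n : ℕ) : ZMod s) ≠ 0 := by
    intro h0
    rw [ZMod.natCast_eq_zero_iff] at h0
    exact hsd h0
  have hsep0 : (X ^ n - C (1 : ZMod s)).Separable :=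
    Polynomial.separable_X_pow_sub_C (1 : ZMod s) hne one_ne_zero
  rw [map_one] at hsep0
  have hsep : Mb.charpoly.Separable := hsep0.of_dvd hc
  let φ : Module.End (ZMod s) (Fin l → ZMod s) := Matrix.toLin' Mb
  have h1 : Module.finrank (ZMod s) (φ.eigenspace lam) ≤ 1 := by
    refine (LinearMap.finrank_eigenspace_le φ lam).trans ?_
    have h2 : LinearMap.charpoly φ = Mb.charpoly := Matrix.charpoly_toLin' Mb
    rw [h2]
    exact rootMultiplicity_le_one_of_separable hsep lam
  have h3 : Nat.card (φ.eigenspace lam) ≤ s := by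
    rw [Module.natCard_eq_pow_finrank (K := ZMod s), Nat.card_zmod]
    calc s ^ Module.finrank (ZMod s) (φ.eigenspace lam) ≤ s ^ 1 :=
          Nat.pow_le_pow_right hs.out.pos h1
      _ = s := pow_one s
  refine le_trans (le_of_eq (Nat.card_congr ?_)) h3
  refine Equiv.subtypeEquivRight fun a => ?_
  rw [Module.End.mem_eigenspace_iff]
  rfl

/-- The kernel is cyclic. -/
theorem cyclic_A (hn : 0 < n) (hq : 2 ≤ q) (hK : Nat.card K = q ^ n) (hchar : M.charpoly = f)
    (hf : f ∣ X ^ n - 1)
    (hsq : ∀ s : ℕ, s.Prime → s ∣ n → ¬ s ^ 2 ∣ (f.eval (q : ℤ)).natAbs) :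
    IsCyclic (actM (μ := Kˣ) (M - (q : ℤ) • 1)).ker := by
  classical
  set A := (actM (μ := Kˣ) (M - (q : ℤ) • 1)).ker with hA
  haveI : Finite A := inferInstance
  apply isCyclic_of_prime_torsion
  intro s hs
  haveI hsf : Fact s.Prime := ⟨hs⟩
  set T := (powMonoidHom s : A →* A).ker with hT
  have hmemT : ∀ τ : T, ((τ : A) : Fin l → Kˣ) ^ s = 1 := by
    intro τ
    have h1 : (τ : A) ^ s = 1 := τ.2
    exact congrArg Subtype.val h1
  have hmemA : ∀ τ : T, actM M ((τ : A) : Fin l → Kˣ) = ((τ : A) : Fin l → Kˣ) ^ q :=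
    fun τ => (mem_ker_sub _ _ _).1 (τ : A).2
  by_cases hsd : s ∣ n
  · -- `s` divides `n`
    have hPT : IsPGroup s T := by
      intro τ
      refine ⟨1, ?_⟩
      apply Subtype.ext
      rw [pow_one]
      exact τ.2
    obtain ⟨k, hk⟩ := IsPGroup.iff_card.mp hPT
    have hdv : Nat.card T ∣ (f.eval (q : ℤ)).natAbs := by
      have h1 := Subgroup.card_subgroup_dvd_card T
      have h2 : Nat.card A = (f.eval (q : ℤ)).natAbs := card_A hn hq hK hchar hf
      rwa [h2] at h1
    rw [hk] at hdv ⊢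
    by_cases hk2 : 2 ≤ k
    · exfalso
      exact hsq s hs hsd ((pow_dvd_pow s hk2).trans hdv)
    · have hk1 : k ≤ 1 := by omega
      calc s ^ k ≤ s ^ 1 := Nat.pow_le_pow_right hs.pos hk1
        _ = s := pow_one s
  · -- `s` does not divide `n`
    by_cases hsK : s ∣ Nat.card Kˣ
    · obtain ⟨ξ, hξ⟩ := exists_prime_orderOf_dvd_card' s hsK
      have hlog : ∀ a : Kˣ, a ^ s = 1 → ∃ k : ℤ, ξ ^ k = a := by
        intro a ha
        have hprimξ : IsPrimitiveRoot ξ s := by
          rw [← hξ]
          exact IsPrimitiveRoot.orderOf ξ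
        haveI : NeZero s := ⟨hs.ne_zero⟩
        have h1 : a ∈ Subgroup.zpowers ξ := by
          rw [hprimξ.zpowers_eq, mem_rootsOfUnity]
          exact ha
        exact Subgroup.mem_zpowers_iff.mp h1
      have hlog2 : ∀ τ : T, ∃ k : Fin l → ℤ, ((τ : A) : Fin l → Kˣ) = fun j => ξ ^ k j := by
        intro τ
        have h1 : ∀ j, ∃ k : ℤ, ξ ^ k = ((τ : A) : Fin l → Kˣ) j := fun j =>
          hlog _ (by
            have := congrFun (hmemT τ) j
            simpa using this)
        choose k hk using h1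
        exact ⟨k, by funext j; exact (hk j).symm⟩
      choose k hk using hlog2
      let φ : T → {a : Fin l → ZMod s //
          (M.map (Int.castRingHom (ZMod s))) *ᵥ a = ((q : ℤ) : ZMod s) • a} := fun τ =>
        ⟨red s (k τ), by
          have h1 := hmemA τ
          rw [hk τ, actM_zpow, pow_fun_zpow, fun_zpow_eq_iff hξ, red_mulVec, red_smul_eq] at h1
          exact h1⟩
      have hφ : Function.Injective φ := by
        intro τ τ' h
        have h1 : red s (k τ) = red s (k τ') := congrArg Subtype.val h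
        apply Subtype.ext
        apply Subtype.ext
        rw [hk τ, hk τ', (fun_zpow_eq_iff hξ _ _).2 h1]
      exact (Nat.card_le_card_of_injective φ hφ).trans (card_eigen_le' hsd (hchar ▸ hf) _)
    · -- no torsion at all
      have hsub : Subsingleton T := by
        constructor
        intro τ τ'
        have hone : ∀ τ : T, τ = 1 := by
          intro τ
          apply Subtype.ext
          apply Subtype.ext
          funext j
          have h1 : (((τ : A) : Fin l → Kˣ) j) ^ s = 1 := by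
            have := congrFun (hmemT τ) j
            simpa using this
          have h2 := orderOf_dvd_of_pow_eq_one h1
          have h3 := orderOf_dvd_natCard (((τ : A) : Fin l → Kˣ) j)
          have h4 : orderOf (((τ : A) : Fin l → Kˣ) j) = 1 := by
            rcases (Nat.dvd_prime hs).mp h2 with h5 | h5
            · exact h5
            · rw [h5] at h3
              exact absurd h3 hsK
          exact orderOf_eq_one_iff.mp h4
        rw [hone τ, hone τ']
      calc Nat.card T = 1 := Nat.card_unique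
        _ ≤ s := hs.one_lt.le

end Cfsg.Agent.Lib.ChevTori.TorA
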