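import Cfsg.Agent.Lib.ChevTori.E6
import Cfsg.Agent.Lib.ChevTori.TorA

/-!
The torus of `E₆`: the kernel of the parametrization and the presented group; the Weyl group
elements with an eigenvalue of order `12`.
-/

set_option autoImplicit false
set_option linter.unusedSectionVars false

namespace Cfsg.Agent.Lib.ChevTori.E6

open Polynomial Matrix
open Cfsg Cfsg.Lie Cfsg.Agent.Lib.ChevBN.Elem Cfsg.Agent.Lib.ChevBN.Entries Cfsg.Agent.Lib.ChevBN.Table
open Cfsg.Agent.Lib.ChevBN.Collect Cfsg.Agent.Lib.ChevBN.Rel Cfsg.Agent.Lib.ChevBN.Torus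
open Cfsg.Agent.Lib.ChevBN.Monomial Cfsg.Agent.Lib.ChevBN.Core Cfsg.Agent.Lib.ChevBN.Pair
open Cfsg.Agent.Lib.ChevBN.Stmts Cfsg.Agent.Lib.ChevBN.BruhatForm Cfsg.Agent.Lib.ChevBN.Opp
open Cfsg.Agent.Lib.ChevTri.Level Cfsg.Agent.Lib.ChevTri.Datum
open Cfsg.Agent.Lib.BNPair.Basic Cfsg.Agent.Lib.BNPair.Parabolic
open Cfsg.Agent.Lib.ChevOrder.BNCount Cfsg.Agent.Lib.ChevOrder.Chev
open Cfsg.Agent.Lib.ChevOrder.TorusCard Cfsg.Agent.Lib.ChevBN.Levi
open Cfsg.Agent.Lib.BNPair.CoxeterExchange Cfsg.Agent.Lib.StChar.Top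
open Cfsg.Agent.Lib.ChevTori.Act Cfsg.Agent.Lib.ChevTori.LinAlg Cfsg.Agent.Lib.ChevTori.Lat
open Cfsg.Agent.Lib.ChevFix Cfsg.Agent.Lib.ChevTori.Core Cfsg.Agent.Lib.ChevTori.Gram
open Cfsg.Agent.Lib.Steinberg.Gen Cfsg.Agent.Lib.ChevTori.StLift
open Cfsg.Agent.Lib.ChevTori.Main Cfsg.Agent.Lib.ChevTori.TorA

/-- The structure constants. -/
noncomputable abbrev eta6 : ℕ → ℕ → ℤ := Cfsg.Agent.Lib.Chevalley.SysOf.etaOf Cfsg.Agent.Lib.Chevalley.Tbl.E6.wT

section Torus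

variable {K : Type*} [Field K] {η : ℕ → ℕ → ℤ}

/-- The first index. -/
def i0 : Fin chevE6.rank := ⟨0, by decide⟩

theorem zV_zero : zV i0 = 1 := by decide +kernel

/-- The kernel of the parametrization of the torus. -/
theorem tmap_eq_one_iff (hR : Sys chevE6 K η) (hT : Tbl chevE6) (c : Fin chevE6.rank → Kˣ) :
    tmap hT hR c = 1 ↔ ∃ ζ : Kˣ, ζ ^ 3 = 1 ∧ c = fun j => ζ ^ zV j := by
  constructor
  · intro h
    have h1 := (mem_ker_tmap hT hR c).mp h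
    have h2 : ∀ i < chevE6.rank, chi chevE6 (ext c) (chevE6.simple i) = 1 := by
      intro i hi
      rw [chi_ext]
      have h3 := congrFun h1 ⟨i, hi⟩
      simp only [actM_apply, cartM, Matrix.of_apply, Pi.one_apply] at h3
      rw [h3, Units.val_one]
    obtain ⟨h4, h5⟩ := Cfsg.Agent.Lib.Steinberg.Gen.chi_desc RepData.E6.c3 (by decide)
      (fun j _ => ext_ne c j) h2
    have he : ∀ j : Fin chevE6.rank, ext c j = (c j : K) := by
      intro j
      simp [Cfsg.Agent.Lib.ChevOrder.TorusCard.ext, j.2]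
    refine ⟨c ⟨0, by decide⟩, ?_, ?_⟩
    · apply Units.ext
      rw [Units.val_pow_eq_pow_val, Units.val_one, ← he]
      exact h5
    · funext j
      apply Units.ext
      have h6 := h4 j j.2
      rw [he j] at h6
      rw [h6, Units.val_zpow_eq_zpow_val]
      rw [← he ⟨0, by decide⟩]
      rfl
  · rintro ⟨ζ, h3, rfl⟩
    apply (mem_ker_tmap hT hR _).mpr
    rw [MonoidHom.mem_ker]
    funext i
    simp only [actM_apply, cartM, Matrix.of_apply, Pi.one_apply]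
    simp_rw [← _root_.zpow_mul]
    rw [← Cfsg.Agent.Lib.ChevOrder.TorusCard.zpow_sum_aux]
    obtain ⟨t, ht⟩ := zV_dvd i
    have e : ∑ x : Fin chevE6.rank, zV x * chevE6.cartan x (chevE6.simple i) = 3 * t := by
      have ht' : (3 : ℤ) * t = ((3 : ℕ) : ℤ) * t := rfl
      rw [ht', ← ht]
      apply Finset.sum_congr rfl
      intro x _
      ring
    rw [e, _root_.zpow_mul]
    have : ζ ^ (3 : ℤ) = 1 := by
      rw [show (3 : ℤ) = ((3 : ℕ) : ℤ) from rfl, zpow_natCast]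
      exact h3
    rw [this, _root_.one_zpow]

theorem hexp3 (hR : Sys chevE6 K η) (hT : Tbl chevE6) (c : Fin chevE6.rank → Kˣ)
    (h : tmap hT hR c = 1) : c ^ 3 = 1 := by
  obtain ⟨ζ, h3, rfl⟩ := (tmap_eq_one_iff hR hT c).mp h
  funext j
  simp only [Pi.pow_apply, Pi.one_apply]
  rw [← zpow_natCast, ← _root_.zpow_mul, mul_comm, _root_.zpow_mul]
  have : ζ ^ (((3 : ℕ) : ℤ)) = 1 := by
    rw [zpow_natCast]
    exact h3
  rw [this, _root_.one_zpow]

/-- The parametrization of the torus of the presented group is injective. -/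
theorem hp_inj [Finite K] (dat : Dat chevE6 K eta6) :
    Function.Injective (hp dat.stein dat.stein_hasR3) := by
  have hF := repFacts_of_data PureData.E6.tbl RepData.E6.c1 RepData.E6.conj_all dat
  have hcol : ∀ r < chevE6.nroots, ∀ a ∈ RepData.E6.tb r, a.2.1 < 27 := by
    have hbase := RepData.E6.c1
    have hn := PureData.E6.tbl.hn
    subst_vars
    intro r hr a ha
    simp only [baseChk, Bool.and_eq_true, List.all_eq_true, List.mem_range] at hbase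
    exact Nat.le_of_ble_eq_true ((hbase.1 r (by rw [hn]; exact hr)).1 a ha)
  have hW := hwFacts_of_chk dat.hT hcol RepData.E6.c2
  have h3 := dat.cover.hasR3_of_finite (Cfsg.Agent.Lib.Chevalley.AllEta.cartan_self _ (by simp))
    (fun i hi => Cfsg.Agent.Lib.Chevalley.NForm.eta_simple_of_check _
      Cfsg.Agent.Lib.Chevalley.Tbl.E6.nform_check hi)
  obtain ⟨e', he'⟩ := equiv_of_R3 (dat.rels_of_R3 h3)
  let ρ := (repHom K hF).comp e'.symm.toMonoidHom
  have hρ : ∀ r t, ρ (dat.stein.Y.y r t) = repY K hF r t := by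
    intro r t
    show repHom K hF (e'.symm (chevE6.stGen K r t)) = _
    rw [← he', MulEquiv.symm_apply_apply, repHom_gen]
  rw [injective_iff_map_eq_one]
  intro c hc
  have hcc : ∀ j < chevE6.rank, ext c j ≠ 0 := fun j _ => ext_ne c j
  have h1 : dat.stein.θ (dat.stein.hprod (ext c)) = 1 := by
    have : dat.stein.hprod (ext c) = 1 := hc
    rw [this, map_one]
  have h2 := fun {s} hs => Ctx.chi_eq_one_of_θ (C := dat.stein) hcc h1 (s := s) hs
  obtain ⟨h4, -⟩ := Cfsg.Agent.Lib.Steinberg.Gen.chi_desc RepData.E6.c3 (by decide) hcc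
    (fun i hi => h2 (dat.hT.simple_lt hi))
  have h6 : ext c 0 = 1 := eq_one_of_hprod hF hW dat.stein ρ hρ hcc hc
  funext j
  apply Units.ext
  have h7 := h4 j j.2
  rw [h6, _root_.one_zpow] at h7
  have he : ext c j = (c j : K) := by
    simp [Cfsg.Agent.Lib.ChevOrder.TorusCard.ext, j.2]
  rw [← he, h7]
  rfl

end Torus

section Weyl

variable {K : Type*} [Field K] [Finite K] {η : ℕ → ℕ → ℤ}
variable (hR : Sys chevE6 K η) (hT : Tbl chevE6)

theorem red_zV_fix (u : WW (pair hR hT)) : red 3 (matW hR hT u *ᵥ zV) = red 3 zV :=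
  red_fix hR hT hSL (d := 3) (z := zV) (fun i => zV_dvd i) u

/-- The Weyl group elements with an eigenvalue of order `12`. -/
theorem weyl {ℓ q : ℕ} [hℓ : Fact ℓ.Prime]
    (hℓW : ¬ ℓ ∣ Nat.card (WW (pair hR hT)))
    (hprim : IsPrimitiveRoot ((q : ℤ) : ZMod ℓ) 12)
    (w₀ : WW (pair hR hT)) (b : Fin chevE6.rank → ℤ) (hb : red ℓ b ≠ 0)
    (hMb : red ℓ (matW hR hT w₀ *ᵥ b) = ((q : ℤ) : ZMod ℓ) • red ℓ b) :
    (matW hR hT w₀).charpoly = P3 * P12 ∧
      ∀ u : WW (pair hR hT), red ℓ (matW hR hT u *ᵥ b) = red ℓ b → u = 1 := by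
  classical
  haveI := finite_WW hR hT
  have hpow : matW hR hT w₀ ^ orderOf w₀ = 1 := by
    have h1 := map_pow (matHom hR hT) w₀ (orderOf w₀)
    rw [pow_orderOf_eq_one, map_one, matHom_apply] at h1
    exact h1.symm
  have hnd : ¬ ℓ ∣ orderOf w₀ := fun h1 => hℓW (h1.trans (orderOf_dvd_natCard w₀))
  obtain ⟨w, hw0, hw⟩ := exists_vec (orderOf_pos w₀) hpow hnd hprim hb hMb
  rw [cyclotomic_twelve_eq] at hw
  have hM3 : red 3 (matW hR hT w₀ *ᵥ zV) = ((1 : ℤ) : ZMod 3) • red 3 zV := by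
    rw [red_zV_fix]
    simp
  have H : Hyp (Gram.gram chevE6) (matW hR hT w₀) zV w :=
    ⟨hLt, isIso hR hT hSL w₀, zV_dvd_B, zV_norm, red_zV, hM3, hw0, hw⟩
  have hχ : (matW hR hT w₀).charpoly = P3 * P12 :=
    charpoly_E rfl H hDiag hConn (orderOf_pos w₀) hpow
  refine ⟨hχ, fun u hu => ?_⟩
  let Rts : Finset (Fin chevE6.rank → ℤ) :=
    Finset.univ.image (fun s : Fin chevE6.nroots => crV chevE6 s)
  have hRts : ∀ r ∈ Rts, B (Gram.gram chevE6) r r = 2 := by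
    intro r hr
    obtain ⟨s, -, rfl⟩ := Finset.mem_image.mp hr
    exact crV_norm hR hT hSL hDiag s
  have hS : ∀ (u : WW (pair hR hT)) (v : Fin chevE6.rank → ℤ), matHom hR hT u *ᵥ v = v →
      matHom hR hT u ≠ 1 → ∃ r ∈ Rts, B (Gram.gram chevE6) r v = 0 := by
    intro u v hv hu
    have hu' : u ≠ 1 := by
      rintro rfl
      exact hu (map_one _)
    obtain ⟨s, hs⟩ := exists_root hR hT hSL u v hv hu'
    exact ⟨crV chevE6 s, Finset.mem_image.mpr ⟨s, Finset.mem_univ _, rfl⟩, hs⟩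
  have h1 := stab_one (ρ := matHom hR hT) (w₀ := w₀) rfl H hχ Rts hRts hS hℓW hb hprim hMb hu
  exact eq_one_of_matW hR hT u h1

end Weyl

section Count

variable {K : Type*} [Field K] [Finite K] {η : ℕ → ℕ → ℤ}

theorem zpow_eq_of_red {μ : Type*} [CommGroup μ] {ζ : μ} (h3 : ζ ^ 3 = 1) {a b : ℤ}
    (h : ((a : ℤ) : ZMod 3) = (b : ZMod 3)) : ζ ^ a = ζ ^ b := by
  have h1 : ((3 : ℕ) : ℤ) ∣ b - a := (ZMod.intCast_eq_intCast_iff_dvd_sub a b 3).mp h
  obtain ⟨t, ht⟩ := h1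
  have h2 : b = a + (3 : ℕ) * t := by
    rw [← ht]
    ring
  rw [h2, _root_.zpow_add, _root_.zpow_mul, zpow_natCast, h3, _root_.one_zpow, mul_one]

theorem actM_zV {M : Matrix (Fin chevE6.rank) (Fin chevE6.rank) ℤ}
    (hM : red 3 (M *ᵥ zV) = red 3 zV) {ζ : Kˣ} (h3 : ζ ^ 3 = 1) :
    actM M (fun j => ζ ^ zV j) = fun j => ζ ^ zV j := by
  rw [actM_zpow]
  funext i
  apply zpow_eq_of_red h3
  exact congrFun hM i

/-- The order of the part of the kernel lying over the centre. -/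
theorem card_Z (hR : Sys chevE6 K η) (hT : Tbl chevE6)
    {M : Matrix (Fin chevE6.rank) (Fin chevE6.rank) ℤ}
    (hM : red 3 (M *ᵥ zV) = red 3 zV) {q : ℕ} (hq : 2 ≤ q) (hK : Nat.card K = q ^ 12)
    (Z : Subgroup ↥(actM (μ := Kˣ) (M - (q : ℤ) • 1)).ker)
    (hZ : ∀ a, a ∈ Z ↔ tmap hT hR (a : Fin chevE6.rank → Kˣ) = 1) :
    Nat.card Z = Nat.gcd 3 (q - 1) := by
  classical
  set g := Nat.gcd 3 (q - 1) with hg
  have hg3 : ∀ ζ : Kˣ, ζ ^ g = 1 → ζ ^ 3 = 1 ∧ ζ ^ (q - 1) = 1 := fun ζ h =>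
    pow_gcd_eq_one.mp h
  have hqq : ∀ ζ : Kˣ, ζ ^ (q - 1) = 1 → ζ ^ q = ζ := by
    intro ζ h
    calc ζ ^ q = ζ ^ ((q - 1) + 1) := by rw [Nat.sub_add_cancel (by omega)]
      _ = ζ := by rw [pow_succ, h, one_mul]
  have hmemA : ∀ ζ : Kˣ, ζ ^ g = 1 →
      (fun j => ζ ^ zV j) ∈ (actM (μ := Kˣ) (M - (q : ℤ) • 1)).ker := by
    intro ζ h
    obtain ⟨h3, h4⟩ := hg3 ζ h
    rw [mem_ker_sub, actM_zV hM h3]
    funext j
    simp only [Pi.pow_apply]
    rw [← zpow_natCast, ← _root_.zpow_mul, mul_comm, _root_.zpow_mul, zpow_natCast, hqq ζ h4]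
  have hmemZ : ∀ (ζ : Kˣ) (h : ζ ^ g = 1), (⟨fun j => ζ ^ zV j, hmemA ζ h⟩ :
      ↥(actM (μ := Kˣ) (M - (q : ℤ) • 1)).ker) ∈ Z := by
    intro ζ h
    rw [hZ]
    exact (tmap_eq_one_iff hR hT _).mpr ⟨ζ, (hg3 ζ h).1, rfl⟩
  let e : ↥(powMonoidHom g : Kˣ →* Kˣ).ker → Z := fun ζ =>
    ⟨⟨fun j => (ζ : Kˣ) ^ zV j, hmemA ζ ζ.2⟩, hmemZ ζ ζ.2⟩
  have he : Function.Bijective e := by
    constructor
    · intro ζ ζ' h
      have h1 := congrFun (congrArg (fun a : Z => ((a : ↥(actM (μ := Kˣ) (M - (q : ℤ) • 1)).ker) :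
        Fin chevE6.rank → Kˣ)) h) i0
      simp only [e] at h1
      rw [zV_zero, zpow_one, zpow_one] at h1
      exact Subtype.ext h1
    · rintro ⟨⟨a, ha⟩, haZ⟩
      have haT : tmap hT hR a = 1 := (hZ ⟨a, ha⟩).mp haZ
      obtain ⟨ζ, h3, hζ⟩ := (tmap_eq_one_iff hR hT a).mp haT
      subst hζ
      have h1 := (mem_ker_sub _ _ _).mp ha
      rw [actM_zV hM h3] at h1
      have h2 := congrFun h1 i0
      simp only [Pi.pow_apply] at h2
      rw [zV_zero, zpow_one] at h2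
      have h5 : ζ ^ (q - 1) = 1 := by
        have h6 : ζ ^ ((q - 1) + 1) = 1 * ζ := by
          rw [one_mul, Nat.sub_add_cancel (by omega)]
          exact h2.symm
        rw [pow_succ] at h6
        exact mul_right_cancel h6
      have h6 : ζ ^ g = 1 := pow_gcd_eq_one.mpr ⟨h3, h5⟩
      exact ⟨⟨ζ, h6⟩, rfl⟩
  rw [← Nat.card_congr (Equiv.ofBijective e he), IsCyclic.card_powMonoidHom_ker, Nat.card_units, hK]
  apply Nat.gcd_eq_right
  have h1 : g ∣ q - 1 := Nat.gcd_dvd_right _ _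
  have h2 : q - 1 ∣ q ^ 12 - 1 := by
    have := sub_dvd_pow_sub_pow (q : ℤ) 1 12
    have h3 : 1 ≤ q ^ 12 := Nat.one_le_pow _ _ (by omega)
    zify [h3, show 1 ≤ q by omega]
    simpa using this
  exact h1.trans h2

end Count

section Index

variable {K : Type*} [Field K] [Finite K] {η : ℕ → ℕ → ℤ}

/-- The index of the torus of `E₆` is prime to `ℓ`. -/
theorem not_dvd_index (hR : Sys chevE6 K η) (hT : Tbl chevE6) {Q : ℕ} (hQ : Nat.card K = Q)
    {ℓ : ℕ} [hℓ : Fact ℓ.Prime] (hℓQ : ℓ ∣ Q - 1) (hdegs : ∀ e ∈ [2, 5, 6, 8, 9, 12], ¬ ℓ ∣ e) :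
    ¬ ℓ ∣ ((chevE6.diagonalSubgroup K).subgroupOf (chevE6.group K)).index := by
  have hQ2 : 2 ≤ Q := by
    rw [← hQ]
    exact Finite.one_lt_card
  have hle : chevE6.diagonalSubgroup K ≤ chevE6.group K := H_le_G hR hT
  have h1 := Subgroup.card_mul_index ((chevE6.diagonalSubgroup K).subgroupOf (chevE6.group K))
  have h2 : Nat.card ((chevE6.diagonalSubgroup K).subgroupOf (chevE6.group K)) =
      Nat.card (chevE6.diagonalSubgroup K) :=
    Nat.card_congr (Subgroup.subgroupOfEquivOfLe hle).toEquiv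
  have hH := Cfsg.Agent.Lib.ChevOrder.Cert.E6.cardH hT hR
  have hG := Cfsg.Agent.Lib.ChevOrder.Cert.E6.order hT hR hQ
  rw [hQ] at hH
  rw [h2] at h1
  have hg : 0 < Nat.gcd 3 (Q - 1) := Nat.gcd_pos_of_pos_left _ (by norm_num)
  have hdeg := Cfsg.Agent.Lib.ChevTori.Final.prod_degs Q (by omega) [2, 5, 6, 8, 9, 12]
  have hdeg' : Q ^ 36 * (Q ^ 2 - 1) * (Q ^ 5 - 1) * (Q ^ 6 - 1) * (Q ^ 8 - 1) * (Q ^ 9 - 1) *
      (Q ^ 12 - 1) = Q ^ 36 * ((Q - 1) ^ 6 * (([2, 5, 6, 8, 9, 12] : List ℕ).map fun e =>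
        ∑ i ∈ Finset.range e, Q ^ i).prod) := by
    have h5 := hdeg
    simp only [List.length_cons, List.length_nil] at h5
    rw [← h5]
    simp [mul_assoc]
  have h3 : (Q - 1) ^ 6 ≠ 0 := pow_ne_zero _ (by omega)
  have h4 : ((chevE6.diagonalSubgroup K).subgroupOf (chevE6.group K)).index =
      Q ^ 36 * (([2, 5, 6, 8, 9, 12] : List ℕ).map fun e => ∑ i ∈ Finset.range e, Q ^ i).prod := by
    apply Nat.eq_of_mul_eq_mul_left (Nat.pos_of_ne_zero h3)
    calc (Q - 1) ^ 6 * ((chevE6.diagonalSubgroup K).subgroupOf (chevE6.group K)).index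
        = Nat.gcd 3 (Q - 1) * (Nat.card (chevE6.diagonalSubgroup K) *
            ((chevE6.diagonalSubgroup K).subgroupOf (chevE6.group K)).index) := by
          rw [← hH, mul_assoc]
      _ = Nat.gcd 3 (Q - 1) * Nat.card (chevE6.group K) := by rw [h1]
      _ = _ := by rw [hG, hdeg']; ring
  rw [h4]
  intro h5
  rcases (Nat.Prime.dvd_mul hℓ.out).1 h5 with h6 | h6
  · have h7 := hℓ.out.dvd_of_dvd_pow h6
    have h8 : ℓ ∣ Q - (Q - 1) := Nat.dvd_sub h7 hℓQ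
    have h9 : Q - (Q - 1) = 1 := by omega
    rw [h9] at h8
    exact hℓ.out.one_lt.ne' (Nat.dvd_one.mp h8)
  · have hP : Prime ℓ := hℓ.out.prime
    obtain ⟨a, ha, h7⟩ := (Prime.dvd_prod_iff hP).1 h6
    obtain ⟨e, he, rfl⟩ := List.mem_map.mp ha
    exact Cfsg.Agent.Lib.ChevTori.Final.not_dvd_geom (by omega) hℓQ (hdegs e he) h7

end Index

end Cfsg.Agent.Lib.ChevTori.E6
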