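import Cfsg.Agent.Lib.ChevTori.Flow
import Cfsg.Agent.Lib.ChevTori.Final
import Cfsg.Agent.Lib.ChevTori.TorA
import Cfsg.Agent.Lib.Steinberg.Gen.MultE67
import Cfsg.Agent.Lib.ChevOrder.Cert.E7

/-!
The data of type `E₇`: the form on the coroot lattice, the vector of the centre, the torus of the
presented group, the Weyl group elements with the eigenvalue of order `12`.
-/

set_option autoImplicit false
set_option linter.unusedSectionVars false

namespace Cfsg.Agent.Lib.ChevTori.E7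

open Polynomial Matrix
open Cfsg Cfsg.Lie Cfsg.Agent.Lib.ChevBN.Elem Cfsg.Agent.Lib.ChevBN.Entries Cfsg.Agent.Lib.ChevBN.Table
open Cfsg.Agent.Lib.ChevBN.Collect Cfsg.Agent.Lib.ChevBN.Rel Cfsg.Agent.Lib.ChevBN.Torus
open Cfsg.Agent.Lib.ChevBN.Monomial Cfsg.Agent.Lib.ChevBN.Core Cfsg.Agent.Lib.ChevBN.Pair
open Cfsg.Agent.Lib.ChevBN.Stmts Cfsg.Agent.Lib.ChevBN.BruhatForm Cfsg.Agent.Lib.ChevBN.Opp
open Cfsg.Agent.Lib.ChevTri.Level Cfsg.Agent.Lib.ChevTri.Datum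
open Cfsg.Agent.Lib.BNPair.Basic Cfsg.Agent.Lib.BNPair.Parabolic
open Cfsg.Agent.Lib.ChevOrder.BNCount Cfsg.Agent.Lib.ChevOrder.Chev
open Cfsg.Agent.Lib.ChevOrder.TorusCard Cfsg.Agent.Lib.ChevBN.Levi
open Cfsg.Agent.Lib.BNPair.CoxeterExchange Cfsg.Agent.Lib.StChar.Top
open Cfsg.Agent.Lib.ChevTori.Act Cfsg.Agent.Lib.ChevTori.LinAlg Cfsg.Agent.Lib.ChevTori.Lat
open Cfsg.Agent.Lib.ChevFix Cfsg.Agent.Lib.ChevTori.Core Cfsg.Agent.Lib.ChevTori.Gram
open Cfsg.Agent.Lib.Steinberg.Gen Cfsg.Agent.Lib.ChevTori.StLift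
open Cfsg.Agent.Lib.ChevTori.Main Cfsg.Agent.Lib.ChevTori.TorA

/-- The Gram matrix of `E₇`. -/
def Gm : Matrix (Fin 7) (Fin 7) ℤ :=
  !![2, 0, -1, 0, 0, 0, 0; 0, 2, 0, -1, 0, 0, 0; -1, 0, 2, -1, 0, 0, 0; 0, -1, -1, 2, -1, 0, 0;
    0, 0, 0, -1, 2, -1, 0; 0, 0, 0, 0, -1, 2, -1; 0, 0, 0, 0, 0, -1, 2]

theorem Gm_symm : ∀ i j : Fin 7, Gm i j = Gm j i := by
  intro i j
  fin_cases i <;> fin_cases j <;> rfl

theorem B_symm_of {l : ℕ} {G : Matrix (Fin l) (Fin l) ℤ} (h : ∀ i j, G i j = G j i)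
    (x y : Fin l → ℤ) : B G x y = B G y x := by
  have hG : Gᵀ = G := by
    ext i j
    exact h j i
  simp only [B]
  rw [Matrix.dotProduct_mulVec, ← Matrix.mulVec_transpose, hG, dotProduct_comm]

theorem Gm_form (x : Fin 7 → ℚ) : x ⬝ᵥ (toQ Gm *ᵥ x) =
    2 * (x 0 - x 2 / 2) ^ 2 + 3 / 2 * (x 2 - 2 * x 3 / 3) ^ 2 + 2 * (x 1 - x 3 / 2) ^ 2 +
      2 * (x 6 - x 5 / 2) ^ 2 + 3 / 2 * (x 5 - 2 * x 4 / 3) ^ 2 +
      4 / 3 * (x 4 - 3 * x 3 / 4) ^ 2 + x 3 ^ 2 / 12 := by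
  simp [dotProduct, Matrix.mulVec, Fin.sum_univ_succ, Gm, toQ, Matrix.map_apply]
  ring

theorem Gm_even (x : Fin 7 → ℤ) : B Gm x x = 2 * (x 0 ^ 2 + x 1 ^ 2 + x 2 ^ 2 + x 3 ^ 2 + x 4 ^ 2 +
    x 5 ^ 2 + x 6 ^ 2 - x 0 * x 2 - x 1 * x 3 - x 2 * x 3 - x 3 * x 4 - x 4 * x 5 - x 5 * x 6) := by
  simp [B, dotProduct, Matrix.mulVec, Fin.sum_univ_succ, Gm]
  ring

theorem Gm_Lt : Lt Gm where
  symm := B_symm_of Gm_symm
  pos := by
    intro x hx
    rw [Gm_form]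
    by_contra hcon
    push Not at hcon
    have h0 := sq_nonneg (x 0 - x 2 / 2)
    have h1 := sq_nonneg (x 2 - 2 * x 3 / 3)
    have h2 := sq_nonneg (x 1 - x 3 / 2)
    have h3 := sq_nonneg (x 6 - x 5 / 2)
    have h4 := sq_nonneg (x 5 - 2 * x 4 / 3)
    have h6 := sq_nonneg (x 4 - 3 * x 3 / 4)
    have h5 := sq_nonneg (x 3)
    have e3 : x 3 = 0 := by
      have : x 3 ^ 2 ≤ 0 := by linarith
      exact pow_eq_zero_iff (two_ne_zero) |>.mp (le_antisymm this h5)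
    have e2 : x 2 - 2 * x 3 / 3 = 0 := by
      have : (x 2 - 2 * x 3 / 3) ^ 2 ≤ 0 := by linarith
      exact pow_eq_zero_iff (two_ne_zero) |>.mp (le_antisymm this h1)
    have e1 : x 1 - x 3 / 2 = 0 := by
      have : (x 1 - x 3 / 2) ^ 2 ≤ 0 := by linarith
      exact pow_eq_zero_iff (two_ne_zero) |>.mp (le_antisymm this h2)
    have e0 : x 0 - x 2 / 2 = 0 := by
      have : (x 0 - x 2 / 2) ^ 2 ≤ 0 := by linarith
      exact pow_eq_zero_iff (two_ne_zero) |>.mp (le_antisymm this h0)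
    have e4 : x 4 - 3 * x 3 / 4 = 0 := by
      have : (x 4 - 3 * x 3 / 4) ^ 2 ≤ 0 := by linarith
      exact pow_eq_zero_iff (two_ne_zero) |>.mp (le_antisymm this h6)
    have e5 : x 5 - 2 * x 4 / 3 = 0 := by
      have : (x 5 - 2 * x 4 / 3) ^ 2 ≤ 0 := by linarith
      exact pow_eq_zero_iff (two_ne_zero) |>.mp (le_antisymm this h4)
    have e6 : x 6 - x 5 / 2 = 0 := by
      have : (x 6 - x 5 / 2) ^ 2 ≤ 0 := by linarith
      exact pow_eq_zero_iff (two_ne_zero) |>.mp (le_antisymm this h3)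
    apply hx
    funext i
    fin_cases i
    · show x 0 = 0
      linarith
    · show x 1 = 0
      linarith
    · show x 2 = 0
      linarith
    · show x 3 = 0
      linarith
    · show x 4 = 0
      linarith
    · show x 5 = 0
      linarith
    · show x 6 = 0
      linarith
  even := by
    intro x
    rw [Gm_even]
    exact dvd_mul_right _ _

theorem Gm_conn : Conn Gm := by
  intro p h ⟨i, hi⟩
  have e02 : p 0 ↔ p 2 := ⟨h 0 2 (by simp [Gm]), h 2 0 (by simp [Gm])⟩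
  have e23 : p 2 ↔ p 3 := ⟨h 2 3 (by simp [Gm]), h 3 2 (by simp [Gm])⟩
  have e13 : p 1 ↔ p 3 := ⟨h 1 3 (by simp [Gm]), h 3 1 (by simp [Gm])⟩
  have e34 : p 3 ↔ p 4 := ⟨h 3 4 (by simp [Gm]), h 4 3 (by simp [Gm])⟩
  have e45 : p 4 ↔ p 5 := ⟨h 4 5 (by simp [Gm]), h 5 4 (by simp [Gm])⟩
  have e56 : p 5 ↔ p 6 := ⟨h 5 6 (by simp [Gm]), h 6 5 (by simp [Gm])⟩
  have hp3 : p 3 := by
    fin_cases i
    · exact e23.mp (e02.mp hi)
    · exact e13.mp hi
    · exact e23.mp hi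
    · exact hi
    · exact e34.mpr hi
    · exact e34.mpr (e45.mpr hi)
    · exact e34.mpr (e45.mpr (e56.mpr hi))
  intro j
  fin_cases j
  · exact e02.mpr (e23.mpr hp3)
  · exact e13.mpr hp3
  · exact e23.mpr hp3
  · exact hp3
  · exact e34.mp hp3
  · exact e45.mp (e34.mp hp3)
  · exact e56.mp (e45.mp (e34.mp hp3))

theorem gram_eq : ∀ i j : Fin 7, Gram.gram chevE7 i j = Gm i j := by
  intro i j
  fin_cases i <;> fin_cases j <;> decide +kernel

theorem gram_E7 : Gram.gram chevE7 = Gm := Matrix.ext gram_eq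

theorem hLt : Lt (Gram.gram chevE7) := by
  rw [gram_E7]
  exact Gm_Lt

theorem hConn : Conn (Gram.gram chevE7) := by
  rw [gram_E7]
  exact Gm_conn

theorem hDiag : ∀ i, Gram.gram chevE7 i i = 2 := by
  intro i
  rw [gram_E7]
  fin_cases i <;> rfl

theorem hSL : SL chevE7 where
  hsl := by decide +kernel
  symm := by decide +kernel

/-- The vector of the centre. -/
def zV : Fin chevE7.rank → ℤ := fun j => RepData.E7.wL.getD j 0

theorem zV_dvd : ∀ i : Fin chevE7.rank,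
    (((2 : ℕ) : ℤ)) ∣ ∑ k : Fin chevE7.rank, chevE7.cartan k (chevE7.simple i) * zV k := by
  decide +kernel

/-- The last index. -/
def i6 : Fin chevE7.rank := ⟨6, by decide⟩

theorem zV_six : zV i6 = 1 := by decide +kernel

theorem red_zV : red 2 zV ≠ 0 := by
  intro h
  have h1 := congrFun h i6
  revert h1
  simp only [red, zV_six, Pi.zero_apply]
  decide

/-- Every root has a neighbour. -/
theorem exists_neighbour : ∀ r : Fin chevE7.nroots, ∃ s : Fin chevE7.nroots,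
    Ad chevE7 (cr chevE7 r) s = 1 := by
  decide +kernel

section Torus

variable {K : Type*} [Field K] {η : ℕ → ℕ → ℤ}

/-- The kernel of the parametrization of the torus. -/
theorem tmap_eq_one_iff (hR : Sys chevE7 K η) (hT : Tbl chevE7) (c : Fin chevE7.rank → Kˣ) :
    tmap hT hR c = 1 ↔ ∃ ζ : Kˣ, ζ ^ 2 = 1 ∧ c = fun j => ζ ^ zV j := by
  constructor
  · intro h
    have h1 := (mem_ker_tmap hT hR c).mp h
    have h2 : ∀ i < chevE7.rank, chi chevE7 (ext c) (chevE7.simple i) = 1 := by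
      intro i hi
      rw [chi_ext]
      have h3 := congrFun h1 ⟨i, hi⟩
      simp only [actM_apply, cartM, Matrix.of_apply, Pi.one_apply] at h3
      rw [h3, Units.val_one]
    obtain ⟨h4, h5⟩ := Cfsg.Agent.Lib.Steinberg.Gen.chi_desc RepData.E7.c3 (by decide)
      (fun j _ => ext_ne c j) h2
    have he : ∀ j : Fin chevE7.rank, ext c j = (c j : K) := by
      intro j
      simp [Cfsg.Agent.Lib.ChevOrder.TorusCard.ext, j.2]
    refine ⟨c i6, ?_, ?_⟩
    · apply Units.ext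
      rw [Units.val_pow_eq_pow_val, Units.val_one, ← he]
      exact h5
    · funext j
      apply Units.ext
      have h6 := h4 j j.2
      rw [he j] at h6
      rw [h6, Units.val_zpow_eq_zpow_val]
      rw [← he i6]
      rfl
  · rintro ⟨ζ, h3, rfl⟩
    apply (mem_ker_tmap hT hR _).mpr
    rw [MonoidHom.mem_ker]
    funext i
    simp only [actM_apply, cartM, Matrix.of_apply, Pi.one_apply]
    simp_rw [← _root_.zpow_mul]
    rw [← Cfsg.Agent.Lib.ChevOrder.TorusCard.zpow_sum_aux]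
    obtain ⟨t, ht⟩ := zV_dvd i
    have e : ∑ x : Fin chevE7.rank, zV x * chevE7.cartan x (chevE7.simple i) = 2 * t := by
      have ht' : (2 : ℤ) * t = ((2 : ℕ) : ℤ) * t := rfl
      rw [ht', ← ht]
      apply Finset.sum_congr rfl
      intro x _
      ring
    rw [e, _root_.zpow_mul]
    have : ζ ^ (2 : ℤ) = 1 := by
      rw [show (2 : ℤ) = ((2 : ℕ) : ℤ) from rfl, zpow_natCast]
      exact h3
    rw [this, _root_.one_zpow]

theorem hexp2 (hR : Sys chevE7 K η) (hT : Tbl chevE7) (c : Fin chevE7.rank → Kˣ)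
    (h : tmap hT hR c = 1) : c ^ 2 = 1 := by
  obtain ⟨ζ, h3, rfl⟩ := (tmap_eq_one_iff hR hT c).mp h
  funext j
  simp only [Pi.pow_apply, Pi.one_apply]
  rw [← zpow_natCast, ← _root_.zpow_mul, mul_comm, _root_.zpow_mul]
  have : ζ ^ (((2 : ℕ) : ℤ)) = 1 := by
    rw [zpow_natCast]
    exact h3
  rw [this, _root_.one_zpow]

/-- The structure constants. -/
noncomputable abbrev eta7 : ℕ → ℕ → ℤ := Cfsg.Agent.Lib.Chevalley.SysOf.etaOf Cfsg.Agent.Lib.Chevalley.Tbl.E7.wT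

set_option maxRecDepth 100000 in
/-- The parametrization of the torus of the presented group is injective. -/
theorem hp_inj [Finite K] (dat : Dat chevE7 K eta7) :
    Function.Injective (hp dat.stein dat.stein_hasR3) := by
  have hF := repFacts_of_data PureData.E7.tbl RepData.E7.c1 RepData.E7.conj_all dat
  have hcol : ∀ r < chevE7.nroots, ∀ a ∈ RepData.E7.tb r, a.2.1 < 56 := by
    have hbase := RepData.E7.c1
    have hn := PureData.E7.tbl.hn
    subst_vars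
    intro r hr a ha
    simp only [baseChk, Bool.and_eq_true, List.all_eq_true, List.mem_range] at hbase
    exact Nat.le_of_ble_eq_true ((hbase.1 r (by rw [hn]; exact hr)).1 a ha)
  have hW := hwFacts_of_chk dat.hT hcol RepData.E7.c2
  have h3 := dat.cover.hasR3_of_finite (Cfsg.Agent.Lib.Chevalley.AllEta.cartan_self _ (by simp))
    (fun i hi => Cfsg.Agent.Lib.Chevalley.NForm.eta_simple_of_check _
      Cfsg.Agent.Lib.Chevalley.Tbl.E7.nform_check hi)
  obtain ⟨e', he'⟩ := equiv_of_R3 (dat.rels_of_R3 h3)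
  let ρ := (repHom K hF).comp e'.symm.toMonoidHom
  have hρ : ∀ r t, ρ (dat.stein.Y.y r t) = repY K hF r t := by
    intro r t
    show repHom K hF (e'.symm (chevE7.stGen K r t)) = _
    rw [← he', MulEquiv.symm_apply_apply, repHom_gen]
  rw [injective_iff_map_eq_one]
  intro c hc
  have hcc : ∀ j < chevE7.rank, ext c j ≠ 0 := fun j _ => ext_ne c j
  have h1 : dat.stein.θ (dat.stein.hprod (ext c)) = 1 := by
    have : dat.stein.hprod (ext c) = 1 := hc
    rw [this, map_one]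
  have h2 := fun {s} hs => Ctx.chi_eq_one_of_θ (C := dat.stein) hcc h1 (s := s) hs
  obtain ⟨h4, -⟩ := Cfsg.Agent.Lib.Steinberg.Gen.chi_desc RepData.E7.c3 (by decide) hcc
    (fun i hi => h2 (dat.hT.simple_lt hi))
  have h6 : ext c 6 = 1 := eq_one_of_hprod hF hW dat.stein ρ hρ hcc hc
  funext j
  apply Units.ext
  have h7 := h4 j j.2
  rw [h6, _root_.one_zpow] at h7
  have he : ext c j = (c j : K) := by
    simp [Cfsg.Agent.Lib.ChevOrder.TorusCard.ext, j.2]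
  rw [← he, h7]
  rfl

theorem red_zV_fix (hR : Sys chevE7 K η) (hT : Tbl chevE7) (u : WW (pair hR hT)) :
    red 2 (matW hR hT u *ᵥ zV) = red 2 zV :=
  red_fix hR hT hSL (d := 2) (z := zV) (fun i => zV_dvd i) u

end Torus

section Count

variable {K : Type*} [Field K] [Finite K] {η : ℕ → ℕ → ℤ}

theorem zpow_eq_of_red {μ : Type*} [CommGroup μ] {ζ : μ} (h3 : ζ ^ 2 = 1) {a b : ℤ}
    (h : ((a : ℤ) : ZMod 2) = (b : ZMod 2)) : ζ ^ a = ζ ^ b := by
  have h1 : ((2 : ℕ) : ℤ) ∣ b - a := (ZMod.intCast_eq_intCast_iff_dvd_sub a b 2).mp h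
  obtain ⟨t, ht⟩ := h1
  have h2 : b = a + (2 : ℕ) * t := by
    rw [← ht]
    ring
  rw [h2, _root_.zpow_add, _root_.zpow_mul, zpow_natCast, h3, _root_.one_zpow, mul_one]

theorem actM_zV {M : Matrix (Fin chevE7.rank) (Fin chevE7.rank) ℤ}
    (hM : red 2 (M *ᵥ zV) = red 2 zV) {ζ : Kˣ} (h3 : ζ ^ 2 = 1) :
    actM M (fun j => ζ ^ zV j) = fun j => ζ ^ zV j := by
  rw [actM_zpow]
  funext i
  apply zpow_eq_of_red h3
  exact congrFun hM i

/-- The order of the part of the kernel lying over the centre. -/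
theorem card_Z (hR : Sys chevE7 K η) (hT : Tbl chevE7)
    {M : Matrix (Fin chevE7.rank) (Fin chevE7.rank) ℤ}
    (hM : red 2 (M *ᵥ zV) = red 2 zV) {q : ℕ} (hq : 2 ≤ q) (hK : Nat.card K = q ^ 12)
    (Z : Subgroup ↥(actM (μ := Kˣ) (M - (q : ℤ) • 1)).ker)
    (hZ : ∀ a, a ∈ Z ↔ tmap hT hR (a : Fin chevE7.rank → Kˣ) = 1) :
    Nat.card Z = Nat.gcd 2 (q - 1) := by
  classical
  set g := Nat.gcd 2 (q - 1) with hg
  have hg3 : ∀ ζ : Kˣ, ζ ^ g = 1 → ζ ^ 2 = 1 ∧ ζ ^ (q - 1) = 1 := fun ζ h =>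
    pow_gcd_eq_one.mp h
  have hqq : ∀ ζ : Kˣ, ζ ^ (q - 1) = 1 → ζ ^ q = ζ := by
    intro ζ h
    calc ζ ^ q = ζ ^ ((q - 1) + 1) := by rw [Nat.sub_add_cancel (by omega)]
      _ = ζ := by rw [pow_succ, h, one_mul]
  have hmemA : ∀ ζ : Kˣ, ζ ^ g = 1 →
      (fun j => ζ ^ zV j) ∈ (actM (μ := Kˣ) (M - (q : ℤ) • 1)).ker := by
    intro ζ h
    obtain ⟨h3, h4⟩ := hg3 ζ h
    rw [mem_ker_sub, actM_zV hM h3]
    funext j
    simp only [Pi.pow_apply]
    rw [← zpow_natCast, ← _root_.zpow_mul, mul_comm, _root_.zpow_mul, zpow_natCast, hqq ζ h4]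
  have hmemZ : ∀ (ζ : Kˣ) (h : ζ ^ g = 1), (⟨fun j => ζ ^ zV j, hmemA ζ h⟩ :
      ↥(actM (μ := Kˣ) (M - (q : ℤ) • 1)).ker) ∈ Z := by
    intro ζ h
    rw [hZ]
    exact (tmap_eq_one_iff hR hT _).mpr ⟨ζ, (hg3 ζ h).1, rfl⟩
  let e : ↥(powMonoidHom g : Kˣ →* Kˣ).ker → Z := fun ζ =>
    ⟨⟨fun j => (ζ : Kˣ) ^ zV j, hmemA ζ ζ.2⟩, hmemZ ζ ζ.2⟩
  have he : Function.Bijective e := by
    constructor
    · intro ζ ζ' h
      have h1 := congrFun (congrArg (fun a : Z => ((a : ↥(actM (μ := Kˣ) (M - (q : ℤ) • 1)).ker) :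
        Fin chevE7.rank → Kˣ)) h) i6
      simp only [e] at h1
      rw [zV_six, zpow_one, zpow_one] at h1
      exact Subtype.ext h1
    · rintro ⟨⟨a, ha⟩, haZ⟩
      have haT : tmap hT hR a = 1 := (hZ ⟨a, ha⟩).mp haZ
      obtain ⟨ζ, h3, hζ⟩ := (tmap_eq_one_iff hR hT a).mp haT
      subst hζ
      have h1 := (mem_ker_sub _ _ _).mp ha
      rw [actM_zV hM h3] at h1
      have h2 := congrFun h1 i6
      simp only [Pi.pow_apply] at h2
      rw [zV_six, zpow_one] at h2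
      have h5 : ζ ^ (q - 1) = 1 := by
        have h6 : ζ ^ ((q - 1) + 1) = 1 * ζ := by
          rw [one_mul, Nat.sub_add_cancel (by omega)]
          exact h2.symm
        rw [pow_succ] at h6
        exact mul_right_cancel h6
      have h6 : ζ ^ g = 1 := pow_gcd_eq_one.mpr ⟨h3, h5⟩
      exact ⟨⟨ζ, h6⟩, rfl⟩
  rw [← Nat.card_congr (Equiv.ofBijective e he), IsCyclic.card_powMonoidHom_ker, Nat.card_units, hK]
  apply Nat.gcd_eq_right
  have h1 : g ∣ q - 1 := Nat.gcd_dvd_right _ _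
  have h2 : q - 1 ∣ q ^ 12 - 1 := by
    have := sub_dvd_pow_sub_pow (q : ℤ) 1 12
    have h3 : 1 ≤ q ^ 12 := Nat.one_le_pow _ _ (by omega)
    zify [h3, show 1 ≤ q by omega]
    simpa using this
  exact h1.trans h2

end Count

section Index

variable {K : Type*} [Field K] [Finite K] {η : ℕ → ℕ → ℤ}

/-- The index of the torus of `E₇` is prime to `ℓ`. -/
theorem not_dvd_index (hR : Sys chevE7 K η) (hT : Tbl chevE7) {Q : ℕ} (hQ : Nat.card K = Q)
    {ℓ : ℕ} [hℓ : Fact ℓ.Prime] (hℓQ : ℓ ∣ Q - 1) (hdegs : ∀ e ∈ [2, 6, 8, 10, 12, 14, 18], ¬ ℓ ∣ e) :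
    ¬ ℓ ∣ ((chevE7.diagonalSubgroup K).subgroupOf (chevE7.group K)).index := by
  have hQ2 : 2 ≤ Q := by
    rw [← hQ]
    exact Finite.one_lt_card
  have hle : chevE7.diagonalSubgroup K ≤ chevE7.group K := H_le_G hR hT
  have h1 := Subgroup.card_mul_index ((chevE7.diagonalSubgroup K).subgroupOf (chevE7.group K))
  have h2 : Nat.card ((chevE7.diagonalSubgroup K).subgroupOf (chevE7.group K)) =
      Nat.card (chevE7.diagonalSubgroup K) :=
    Nat.card_congr (Subgroup.subgroupOfEquivOfLe hle).toEquiv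
  have hH := Cfsg.Agent.Lib.ChevOrder.Cert.E7.cardH hT hR
  have hG := Cfsg.Agent.Lib.ChevOrder.Cert.E7.order hT hR hQ
  rw [hQ] at hH
  rw [h2] at h1
  have hg : 0 < Nat.gcd 2 (Q - 1) := Nat.gcd_pos_of_pos_left _ (by norm_num)
  have hdeg := Cfsg.Agent.Lib.ChevTori.Final.prod_degs Q (by omega) [2, 6, 8, 10, 12, 14, 18]
  have hdeg' : Q ^ 63 * (Q ^ 2 - 1) * (Q ^ 6 - 1) * (Q ^ 8 - 1) * (Q ^ 10 - 1) * (Q ^ 12 - 1) *
      (Q ^ 14 - 1) * (Q ^ 18 - 1) = Q ^ 63 * ((Q - 1) ^ 7 * (([2, 6, 8, 10, 12, 14, 18] : List ℕ).map fun e =>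
        ∑ i ∈ Finset.range e, Q ^ i).prod) := by
    have h5 := hdeg
    simp only [List.length_cons, List.length_nil] at h5
    rw [← h5]
    simp [mul_assoc]
  have h3 : (Q - 1) ^ 7 ≠ 0 := pow_ne_zero _ (by omega)
  have h4 : ((chevE7.diagonalSubgroup K).subgroupOf (chevE7.group K)).index =
      Q ^ 63 * (([2, 6, 8, 10, 12, 14, 18] : List ℕ).map fun e => ∑ i ∈ Finset.range e, Q ^ i).prod := by
    apply Nat.eq_of_mul_eq_mul_left (Nat.pos_of_ne_zero h3)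
    calc (Q - 1) ^ 7 * ((chevE7.diagonalSubgroup K).subgroupOf (chevE7.group K)).index
        = Nat.gcd 2 (Q - 1) * (Nat.card (chevE7.diagonalSubgroup K) *
            ((chevE7.diagonalSubgroup K).subgroupOf (chevE7.group K)).index) := by
          rw [← hH, mul_assoc]
      _ = Nat.gcd 2 (Q - 1) * Nat.card (chevE7.group K) := by rw [h1]
      _ = _ := by rw [hG, hdeg']; ring
  rw [h4]
  intro h5
  rcases (Nat.Prime.dvd_mul hℓ.out).1 h5 with h6 | h6
  · have h7 := hℓ.out.dvd_of_dvd_pow h6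
    have h8 : ℓ ∣ Q - (Q - 1) := Nat.dvd_sub h7 hℓQ
    have h9 : Q - (Q - 1) = 1 := by omega
    rw [h9] at h8
    exact hℓ.out.one_lt.ne' (Nat.dvd_one.mp h8)
  · have hP : Prime ℓ := hℓ.out.prime
    obtain ⟨a, ha, h7⟩ := (Prime.dvd_prod_iff hP).1 h6
    obtain ⟨e, he, rfl⟩ := List.mem_map.mp ha
    exact Cfsg.Agent.Lib.ChevTori.Final.not_dvd_geom (by omega) hℓQ (hdegs e he) h7

end Index

end Cfsg.Agent.Lib.ChevTori.E7
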