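import Cfsg.Agent.Lib.ChevTori.Flow

/-!
The centralizer of a semisimple element of a Chevalley group over a finite field which is conjugate over a
big field to a torus element with regular stabilizer in the Weyl group.
-/


set_option autoImplicit false
set_option linter.unusedSectionVars false

namespace Cfsg.Agent.Lib.ChevTori.FlowReg

open Matrix
open Cfsg Cfsg.Lie Cfsg.Agent.Lib.ChevBN.Elem Cfsg.Agent.Lib.ChevBN.Entries Cfsg.Agent.Lib.ChevBN.Table
open Cfsg.Agent.Lib.ChevBN.Collect Cfsg.Agent.Lib.ChevBN.Rel Cfsg.Agent.Lib.ChevBN.Torus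
open Cfsg.Agent.Lib.ChevBN.Monomial Cfsg.Agent.Lib.ChevBN.Core Cfsg.Agent.Lib.ChevBN.Pair
open Cfsg.Agent.Lib.ChevBN.Stmts Cfsg.Agent.Lib.ChevBN.BruhatForm Cfsg.Agent.Lib.ChevBN.Opp
open Cfsg.Agent.Lib.ChevTri.Level Cfsg.Agent.Lib.ChevTri.Datum
open Cfsg.Agent.Lib.BNPair.Basic Cfsg.Agent.Lib.BNPair.Parabolic
open Cfsg.Agent.Lib.ChevOrder.BNCount Cfsg.Agent.Lib.ChevOrder.Chev
open Cfsg.Agent.Lib.ChevOrder.TorusCard Cfsg.Agent.Lib.ChevBN.Levi
open Cfsg.Agent.Lib.BNPair.CoxeterExchange Cfsg.Agent.Lib.StChar.Top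
open Cfsg.Agent.Lib.ChevTori.Act Cfsg.Agent.Lib.ChevTori.LinAlg
open Cfsg.Agent.Lib.ChevFix Cfsg.Agent.Lib.ChevTori.Core Cfsg.Agent.Lib.ChevTori.Main
open Cfsg.Agent.Lib.Steinberg.Gen Cfsg.Agent.Lib.ChevTori.StLift Cfsg.Agent.Lib.ChevTori.Twist

variable {D : ChevalleyDatum} {F K : Type*} [Field F] [Field K] {η : ℕ → ℕ → ℤ}
variable (dF : Dat D F η) (dK : Dat D K η) (ι : F →+* K) (σ : K →+* K) {q : ℕ}

include dF dK in
/-- The centralizer of a regular element. -/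
theorem exists_centralizer₂ [Finite F] [Finite K]
    (hσ : ∀ a, σ a = a ^ q) (hfix : ∀ a, σ (ι a) = ι a) (hrange : ∀ t, σ t = t → ∃ s, ι s = t)
    (hinj : Function.Injective (hp dK.stein dK.stein_hasR3))
    {m d₀ : ℕ} (hd₀ : Nat.Coprime d₀ m)
    (hexp : ∀ c : Fin D.rank → Kˣ, tmap dK.hT dK.hR c = 1 → c ^ d₀ = 1)
    (P : Matrix (Fin D.rank) (Fin D.rank) ℤ → Prop)
    (x : ↥(D.group F)) {g : GL D.Idx K} (hg : g ∈ D.group K) (c : Fin D.rank → Kˣ) (hcm : c ^ m = 1)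
    (hxg : mp ι (x : GL D.Idx F) = g * (tmap dK.hT dK.hR c : GL D.Idx K) * g⁻¹)
    (hW : ∀ w₀ : WW (pair dK.hR dK.hT), actM (matW dK.hR dK.hT w₀) c = c ^ q →
      P (matW dK.hR dK.hT w₀) ∧ ∀ u : WW (pair dK.hR dK.hT), actM (matW dK.hR dK.hT u) c = c → u = 1) :
    ∃ M : Matrix (Fin D.rank) (Fin D.rank) ℤ, P M ∧
      ∃ f : ↥(actM (μ := Kˣ) (M - (q : ℤ) • 1)).ker →*
          ↥(Subgroup.centralizer ({x} : Set ↥(D.group F))),
        Function.Surjective f ∧
        ∀ a : ↥(actM (μ := Kˣ) (M - (q : ℤ) • 1)).ker,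
          f a = 1 ↔ tmap dK.hT dK.hR (a : Fin D.rank → Kˣ) = 1 := by
  classical
  set hR := dK.hR with hhR
  set hT := dK.hT with hhT
  haveI : Finite (GL D.Idx K) := inferInstance
  set x₀ : GL D.Idx K := mp ι (x : GL D.Idx F) with hx₀
  set t : GL D.Idx K := g⁻¹ * x₀ * g with ht
  have htH : t ∈ D.diagonalSubgroup K := by
    have e : t = (tmap hT hR c : GL D.Idx K) := by
      rw [ht, hxg]
      group
    rw [e]
    exact (tmap hT hR c).2
  -- uniqueness on the `m`-torsion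
  have huniq : ∀ a a' : Fin D.rank → Kˣ, a ^ m = 1 → a' ^ m = 1 →
      tmap hT hR a = tmap hT hR a' → a = a' := by
    intro a a' ha ha' he
    have h1 : tmap hT hR (a / a') = 1 := by
      rw [map_div, he, div_self']
    have h2 := hexp _ h1
    have h3 : (a / a') ^ m = 1 := by
      rw [div_pow, ha, ha', div_one]
    have h4 := pow_gcd_eq_one.mpr ⟨h2, h3⟩
    rw [hd₀, pow_one] at h4
    exact div_eq_one.mp h4
  have htc : (tmap hT hR c : GL D.Idx K) = t := by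
    rw [ht, hxg]
    group
  have hσt : mp σ t = t ^ q := by
    rw [← htc]
    exact mp_tmap hR hT σ hσ c
  have hσx : mp σ x₀ = x₀ := mp_comp_fix ι σ hfix _
  have hx₀G : x₀ ∈ D.group K := mp_group ι x.2
  set y : GL D.Idx K := g⁻¹ * mp σ g with hy
  have hyG : y ∈ D.group K := Subgroup.mul_mem _ (Subgroup.inv_mem _ hg) (mp_group σ hg)
  have ey : y⁻¹ * t * y = t ^ q := by
    rw [← hσt, ht, map_mul, map_mul, map_inv, hσx, hy]
    group
  obtain ⟨n₀, hn₀, en⟩ := Cfsg.Agent.Lib.ChevBN.ConjH.conj_in_N hR hT htH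
    (Subgroup.pow_mem _ htH q) (Subgroup.inv_mem _ hyG) (by rw [inv_inv]; exact ey)
  let n : ↥(pair hR hT).N := ⟨⟨n₀, N_le_G hR hT hn₀⟩, (mem_PN hR hT).2 hn₀⟩
  set w₀ : WW (pair hR hT) := QuotientGroup.mk n with hw₀
  set M := matW hR hT w₀ with hM
  have hconj : ∀ c' : Fin D.rank → Kˣ, n₀ * (tmap hT hR c' : GL D.Idx K) * n₀⁻¹ =
      (tmap hT hR (actM M c') : GL D.Idx K) := fun c' => conj_tmap hR hT n c'
  have hcM : actM M c = c ^ q := by
    apply huniq
    · rw [← map_pow, hcm, map_one]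
    · rw [← pow_mul, mul_comm, pow_mul, hcm, one_pow]
    · apply Subtype.ext
      rw [← hconj, htc, en, map_pow]
      show t ^ q = (tmap hT hR c : GL D.Idx K) ^ q
      rw [htc]
  obtain ⟨hPM, hfixW⟩ := hW w₀ hcM
  refine ⟨M, hPM, ?_⟩
  -- the centralizer of `t`
  have hcent : ∀ {z : GL D.Idx K}, z ∈ D.group K → t * z * t⁻¹ = z → z ∈ D.diagonalSubgroup K := by
    intro z hz h1
    rw [← htc] at h1
    have hzN := centralizer_le_N hR hT c (regular_of_fix hR hT c hfixW) hz h1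
    let n₁ : ↥(pair hR hT).N := ⟨⟨z, hz⟩, (mem_PN hR hT).2 hzN⟩
    have h2 := conj_tmap hR hT n₁ c
    have h3 : z * (tmap hT hR c : GL D.Idx K) * z⁻¹ = (tmap hT hR c : GL D.Idx K) := by
      rw [mul_inv_eq_iff_eq_mul]
      exact (mul_inv_eq_iff_eq_mul.mp h1).symm
    have h4 : actM (matW hR hT (QuotientGroup.mk n₁)) c = c := by
      apply huniq _ _ (by rw [← map_pow, hcm, map_one]) hcm
      apply Subtype.ext
      exact h2.symm.trans h3
    exact mem_H_of_mk hR hT n₁ (hfixW _ h4)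
  have hyn : y * n₀ ∈ D.diagonalSubgroup K := by
    apply hcent (Subgroup.mul_mem _ hyG (N_le_G hR hT hn₀))
    have h1 : y⁻¹ * t * y = n₀ * t * n₀⁻¹ := by rw [ey, en]
    have e1 : t * (y * n₀) = y * (y⁻¹ * t * y) * n₀ := by group
    rw [e1, h1]
    group
  obtain ⟨hT1, hT2⟩ := twist dF dK ι σ hσ hfix hrange hinj hg hy hn₀ hyn n rfl
  -- the two maps
  let f₁ : ↥(Subgroup.centralizer ({x} : Set ↥(D.group F))) →* GL D.Idx K :=
    (mp ι).comp ((D.group F).subtype.comp (Subgroup.centralizer ({x} : Set ↥(D.group F))).subtype)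
  have hf₁ : Function.Injective f₁ :=
    (mp_injective ι).comp (Subtype.val_injective.comp Subtype.val_injective)
  set A := (actM (μ := Kˣ) (M - (q : ℤ) • 1)).ker with hA
  let f' : ↥A →* GL D.Idx K :=
    (MulAut.conj g).toMonoidHom.comp ((D.diagonalSubgroup K).subtype.comp
      ((tmap hT hR).comp A.subtype))
  have hf'a : ∀ a : ↥A, f' a = g * (tmap hT hR (a : Fin D.rank → Kˣ) : GL D.Idx K) * g⁻¹ :=
    fun a => rfl
  have hxt : x₀ = g * t * g⁻¹ := by
    rw [ht]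
    group
  -- the image
  have h_in : ∀ a : ↥A, f' a ∈ f₁.range := by
    intro a
    have hqa : actM M (a : Fin D.rank → Kˣ) = (a : Fin D.rank → Kˣ) ^ q := (mem_ker_sub _ _ _).1 a.2
    have hmem := hT1 _ hqa
    obtain ⟨z₁, hz₁, hz₂⟩ := hmem
    refine ⟨⟨⟨z₁, hz₁⟩, ?_⟩, hz₂⟩
    rw [Subgroup.mem_centralizer_iff]
    intro h hh
    rw [Set.mem_singleton_iff] at hh
    rw [hh]
    apply Subtype.ext
    apply mp_injective ι
    show mp ι ((x : GL D.Idx F) * z₁) = mp ι (z₁ * (x : GL D.Idx F))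
    rw [map_mul, map_mul, hz₂, ← hx₀, hxt]
    have e6 : t * (tmap hT hR (a : Fin D.rank → Kˣ) : GL D.Idx K) =
        (tmap hT hR (a : Fin D.rank → Kˣ) : GL D.Idx K) * t :=
      H_comm hR hT htH (tmap hT hR (a : Fin D.rank → Kˣ)).2
    calc g * t * g⁻¹ * (g * (tmap hT hR (a : Fin D.rank → Kˣ) : GL D.Idx K) * g⁻¹)
        = g * (t * (tmap hT hR (a : Fin D.rank → Kˣ) : GL D.Idx K)) * g⁻¹ := by group
      _ = g * ((tmap hT hR (a : Fin D.rank → Kˣ) : GL D.Idx K) * t) * g⁻¹ := by rw [e6]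
      _ = _ := by group
  have h_out : ∀ z : ↥(Subgroup.centralizer ({x} : Set ↥(D.group F))), ∃ a : ↥A, f' a = f₁ z := by
    intro z
    have hz1 : (z : ↥(D.group F)) * x = x * (z : ↥(D.group F)) := by
      have := Subgroup.mem_centralizer_iff.mp z.2 x (by simp)
      exact this.symm
    set z₀ : GL D.Idx K := f₁ z with hz₀
    have hz₀G : z₀ ∈ D.group K := mp_group ι (z : ↥(D.group F)).2
    have hz₀x : z₀ * x₀ = x₀ * z₀ := by
      have := congrArg (fun u : ↥(D.group F) => mp ι (u : GL D.Idx F)) hz1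
      simp only [Subgroup.coe_mul, map_mul] at this
      exact this
    have hmem : g⁻¹ * z₀ * g ∈ D.diagonalSubgroup K := by
      apply hcent (Subgroup.mul_mem _ (Subgroup.mul_mem _ (Subgroup.inv_mem _ hg) hz₀G) hg)
      rw [ht]
      have e2 : g⁻¹ * x₀ * g * (g⁻¹ * z₀ * g) = g⁻¹ * (x₀ * z₀) * g := by group
      rw [e2, ← hz₀x]
      group
    have hz₀0 : z₀ ∈ G0 (D := D) ι := ⟨(z : ↥(D.group F)), (z : ↥(D.group F)).2, rfl⟩
    obtain ⟨a, ha, hat⟩ := hT2 z₀ hz₀0 _ hmem (by group)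
    refine ⟨⟨a, (mem_ker_sub _ _ _).2 ha⟩, ?_⟩
    rw [hf'a]
    show g * (tmap hT hR a : GL D.Idx K) * g⁻¹ = z₀
    rw [hat]
    group
  let e₁ := MonoidHom.ofInjective hf₁
  let f₂ : ↥A →* f₁.range := f'.codRestrict _ h_in
  refine ⟨e₁.symm.toMonoidHom.comp f₂, ?_, ?_⟩
  · intro z
    obtain ⟨a, ha⟩ := h_out z
    refine ⟨a, ?_⟩
    apply e₁.injective
    rw [MonoidHom.comp_apply]
    show e₁ (e₁.symm (f₂ a)) = _
    rw [MulEquiv.apply_symm_apply]
    apply Subtype.ext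
    exact ha
  · intro a
    constructor
    · intro h
      have h1 : f₂ a = 1 := by
        have h2 : e₁.symm (f₂ a) = 1 := h
        rw [← e₁.apply_symm_apply (f₂ a), h2, map_one]
      have h2 : f' a = 1 := congrArg Subtype.val h1
      rw [hf'a] at h2
      apply Subtype.ext
      have e3 : (tmap hT hR (a : Fin D.rank → Kˣ) : GL D.Idx K) =
          g⁻¹ * (g * (tmap hT hR (a : Fin D.rank → Kˣ) : GL D.Idx K) * g⁻¹) * g := by group
      rw [e3, h2]
      simp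
    · intro h
      have h1 : f₂ a = 1 := by
        apply Subtype.ext
        show f' a = 1
        rw [hf'a, h]
        simp
      show e₁.symm (f₂ a) = 1
      rw [h1, map_one]

end Cfsg.Agent.Lib.ChevTori.FlowReg
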