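import Cfsg.Agent.Lib.ChevTori.E7F
import Cfsg.Agent.Lib.ChevTori.FlowReg
import Cfsg.Agent.Lib.Invol.E7

/-!
For an element of `E₇(q)` of prime order dividing `Φ₁₂(q)`, an element commuting with it which is conjugate in
the group over the big field to a torus element.
-/

set_option autoImplicit false
set_option linter.unusedSectionVars false

namespace Cfsg.Agent.Lib.ChevTori.E7A

open Polynomial Matrix
open Cfsg Cfsg.Lie Cfsg.Agent.Lib.ChevBN.Elem Cfsg.Agent.Lib.ChevBN.Entries Cfsg.Agent.Lib.ChevBN.Table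
open Cfsg.Agent.Lib.ChevBN.Collect Cfsg.Agent.Lib.ChevBN.Rel Cfsg.Agent.Lib.ChevBN.Torus
open Cfsg.Agent.Lib.ChevBN.Monomial Cfsg.Agent.Lib.ChevBN.Core Cfsg.Agent.Lib.ChevBN.Pair
open Cfsg.Agent.Lib.ChevBN.Stmts Cfsg.Agent.Lib.ChevBN.BruhatForm Cfsg.Agent.Lib.ChevBN.Opp
open Cfsg.Agent.Lib.ChevTri.Level Cfsg.Agent.Lib.ChevTri.Datum
open Cfsg.Agent.Lib.BNPair.Basic Cfsg.Agent.Lib.BNPair.Parabolic
open Cfsg.Agent.Lib.ChevOrder.BNCount Cfsg.Agent.Lib.ChevOrder.Chev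
open Cfsg.Agent.Lib.ChevOrder.TorusCard Cfsg.Agent.Lib.ChevBN.Levi
open Cfsg.Agent.Lib.BNPair.CoxeterExchange Cfsg.Agent.Lib.StChar.Top
open Cfsg.Agent.Lib.ChevTori.Act Cfsg.Agent.Lib.ChevTori.LinAlg Cfsg.Agent.Lib.ChevTori.Lat
open Cfsg.Agent.Lib.ChevFix Cfsg.Agent.Lib.ChevTori.Core Cfsg.Agent.Lib.ChevTori.Gram
open Cfsg.Agent.Lib.ChevTori.LatX Cfsg.Agent.Lib.ChevTori.Refl Cfsg.Agent.Lib.ChevTori.E7
open Cfsg.Agent.Lib.ChevTori.E7L Cfsg.Agent.Lib.ChevTori.E7S Cfsg.Agent.Lib.ChevTori.E7F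
open Cfsg.Agent.Lib.ChevTori.RootSL2 Cfsg.Agent.Lib.ChevTori.CentL Cfsg.Agent.Lib.ChevTori.Asm
open Cfsg.Agent.Lib.ChevTori.Main Cfsg.Agent.Lib.ChevTori.Twist Cfsg.Agent.Lib.ChevTori.StLift
open Cfsg.Agent.Lib.Steinberg.Gen Cfsg.Agent.Lib.ChevBN.ConjH
open Cfsg.Agent.Lib.ChevTori.SL2Lang

local notation "SL₂" K => SpecialLinearGroup (Fin 2) K

theorem hc7 : ∀ i < chevE7.rank, chevE7.cartan i (chevE7.simple i) = 2 :=
  Cfsg.Agent.Lib.Chevalley.AllEta.cartan_self _ (by simp)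

theorem hη7 : ∀ i < chevE7.rank, eta7 i (chevE7.simple i) = -1 := fun _ hi =>
  Cfsg.Agent.Lib.Chevalley.NForm.eta_simple_of_check _ Cfsg.Agent.Lib.Chevalley.Tbl.E7.nform_check hi

section Fix

variable {F K : Type*} [Field F] [Field K]
variable (dF : Dat chevE7 F eta7) (dK : Dat chevE7 K eta7) (ι : F →+* K) (σ : K →+* K) {q : ℕ}

include dF in
/-- Semisimple fixed points lie in the small group. -/
theorem fix_mem (hσ : ∀ a, σ a = a ^ q) (hfix : ∀ a, σ (ι a) = ι a)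
    (hrange : ∀ t, σ t = t → ∃ s, ι s = t) (hinj : Function.Injective (hp dK.stein dK.stein_hasR3))
    {x : GL chevE7.Idx K} (hx : x ∈ chevE7.group K) (hf : mp σ x = x) {k : ℕ}
    (hxm : x ^ (2 * k + 1) = 1) : x ∈ G0 (D := chevE7) ι := by
  set C := dK.stein with hC
  have h3 : C.HasR3 := dK.stein_hasR3
  have hg : x ∈ C.θ.range := by
    rw [C.range_eq]
    exact hx
  obtain ⟨δ, rfl⟩ := hg
  set z₀ := δ⁻¹ * stMap σ δ with hz₀
  have hz₀θ : C.θ z₀ = 1 := by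
    rw [hz₀, map_mul, map_inv, θ_stMap σ dK dK, hf, inv_mul_cancel]
  have hcentral : z₀ ∈ Subgroup.center (chevE7.SteinbergGroup K) := (C.ker_le hz₀θ).2
  have hHs : z₀ ∈ C.Hs := mem_Hs_of_θ C h3 (by rw [hz₀θ]; exact Subgroup.one_mem _)
  obtain ⟨a, ha⟩ := mem_Hs_iff_hp C h3 hHs
  have hta : tmap C.hT C.hR a = 1 := by
    apply Subtype.ext
    rw [← θ_hp C h3 a, ← ha, hz₀θ]
    rfl
  have ha2 : a ^ 2 = 1 := hexp2 C.hR C.hT a hta
  have hz2 : z₀ * z₀ = 1 := by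
    rw [ha, ← map_mul, ← sq, ha2, map_one]
  have hσδ : stMap σ δ = δ * z₀ := by
    rw [hz₀]
    group
  have hδ₂ : stMap σ (δ * δ) = δ * δ := by
    rw [map_mul, hσδ]
    calc δ * z₀ * (δ * z₀) = δ * (z₀ * δ) * z₀ := by group
      _ = δ * (δ * z₀) * z₀ := by rw [(Subgroup.mem_center_iff.mp hcentral δ).symm]
      _ = δ * δ * (z₀ * z₀) := by group
      _ = δ * δ := by rw [hz2, mul_one]
  have h := fixed_mem' dF dK ι σ hσ hfix hrange hinj hδ₂
  rw [map_mul] at h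
  have e : C.θ δ = (C.θ δ * C.θ δ) ^ (k + 1) := by
    rw [← sq, ← pow_mul, show 2 * (k + 1) = (2 * k + 1) + 1 by ring, pow_succ, hxm, one_mul]
  rw [e]
  exact Subgroup.pow_mem _ h _

end Fix

section Comm

variable {D : ChevalleyDatum} {K : Type*} [Field K] {η : ℕ → ℕ → ℤ} (hR : Sys D K η) (hT : Tbl D)
  (hc : ∀ i < D.rank, D.cartan i (D.simple i) = 2) (hη : ∀ i < D.rank, η i (D.simple i) = -1)
  (hS : SL D) (hL : Lt (Gram.gram D)) (hdiag : ∀ i, Gram.gram D i i = 2)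
  (hcr : ∀ s t : Fin D.nroots, crV D s = crV D t → s = t) (hLace : Cfsg.Agent.Lib.Invol.Lace.Lace D)

include hS hL in
theorem ad_symm (p r : Fin D.nroots) : Ad D (cr D p) r = Ad D (cr D r) p := by
  rw [← B_crV_crV hS, ← B_crV_crV hS]
  exact hL.symm _ _

include hS in
theorem ad_neg_l (p r : Fin D.nroots) :
    Ad D (cr D (negF hT p)) r = - Ad D (cr D p) r := by
  rw [← B_crV_crV hS, ← B_crV_crV hS, crV_neg hT, B_neg_right]

include hS hL in
theorem ad_neg_r (p r : Fin D.nroots) :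
    Ad D (cr D p) (negF hT r) = - Ad D (cr D p) r := by
  rw [ad_symm hS hL, ad_neg_l hT hS, ad_symm hS hL]

include hT hS hL hdiag hcr hLace in
/-- Commutation of root elements for orthogonal roots. -/
theorem comm7 (s s' : Fin D.nroots) (h : Ad D (cr D s) s' = 0) (t u : K) :
    Commute (X hR.toAddRel s t) (X hR.toAddRel s' u) := by
  refine comm_orth hR hT hS hL hdiag hcr ?_ s s' h t u
  intro a b ha hb hab t u
  have h1 : 0 ≤ Cfsg.Agent.Lib.Invol.Lace.ip D a b := by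
    show 0 ≤ Ad D (cr D a) b
    rw [hab]
  have hne : (a : ℕ) ≠ b := by
    intro e
    have e' : a = b := Fin.ext e
    subst e'
    have h2 := crV_norm hR hT hS hdiag a
    rw [B_crV_crV hS, hab] at h2
    omega
  have h2 := Cfsg.Agent.Lib.Invol.Lace.commTerms_nil hLace ha hb hne h1
  have h3 := commPos hR a b ha hb hne.symm t u
  have h4 : D.commWord K a b t u = [] := by
    simp [ChevalleyDatum.commWord, h2]
  rw [h4, W_nil, mul_one] at h3
  exact h3.symm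

include hT hS hL hdiag hcr hLace in
/-- The corresponding homomorphisms commute. -/
theorem psi_comm (s s' : Fin D.nroots) (h : Ad D (cr D s) s' = 0) (a b : SL₂ K) :
    Commute (psi hR hT hc hη s a) (psi hR hT hc hη s' b) := by
  have C := comm7 hR hT hS hL hdiag hcr hLace (K := K)
  have c1 : ∀ t u : K, Commute (X hR.toAddRel s t) (X hR.toAddRel s' u) := C s s' h
  have c2 : ∀ t u : K, Commute (X hR.toAddRel s t) (X hR.toAddRel (D.neg s') u) := fun t u =>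
    C s (negF hT s') (by rw [ad_neg_r hT hS hL, h, neg_zero]) t u
  have c3 : ∀ t u : K, Commute (X hR.toAddRel (D.neg s) t) (X hR.toAddRel s' u) := fun t u =>
    C (negF hT s) s' (by rw [ad_neg_l hT hS, h, neg_zero]) t u
  have c4 : ∀ t u : K, Commute (X hR.toAddRel (D.neg s) t) (X hR.toAddRel (D.neg s') u) :=
    fun t u => C (negF hT s) (negF hT s') (by rw [ad_neg_l hT hS, ad_neg_r hT hS hL, h, neg_zero, neg_zero]) t u
  have h1 : psi hR hT hc hη s' b ∈ Subgroup.centralizer {psi hR hT hc hη s a} := by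
    apply psi_mem
    · intro u
      rw [Subgroup.mem_centralizer_singleton_iff]
      have h2 : psi hR hT hc hη s a ∈ Subgroup.centralizer {X hR.toAddRel s' u} := by
        apply psi_mem
        · intro t
          rw [Subgroup.mem_centralizer_singleton_iff]
          exact (c1 t u).eq
        · intro t
          rw [Subgroup.mem_centralizer_singleton_iff]
          exact (c3 t u).eq
      exact (Subgroup.mem_centralizer_singleton_iff.mp h2).symm
    · intro u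
      rw [Subgroup.mem_centralizer_singleton_iff]
      have h2 : psi hR hT hc hη s a ∈ Subgroup.centralizer {X hR.toAddRel (D.neg s') u} := by
        apply psi_mem
        · intro t
          rw [Subgroup.mem_centralizer_singleton_iff]
          exact (c2 t u).eq
        · intro t
          rw [Subgroup.mem_centralizer_singleton_iff]
          exact (c4 t u).eq
      exact (Subgroup.mem_centralizer_singleton_iff.mp h2).symm
  exact (Subgroup.mem_centralizer_singleton_iff.mp h1).symm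

/-- The element `h_s(a)` as a torus element. -/
theorem hG_eq_tmap (s : Fin D.nroots) (a : Kˣ) :
    hG hR.toAddRel s (a : K) = (tmap hT hR (fun j => a ^ cr D s j) : GL D.Idx K) := by
  rw [hG_eq_hP hR hT s.2 a.ne_zero]
  show _ = hP hR (Cfsg.Agent.Lib.ChevOrder.TorusCard.ext fun j => a ^ cr D s j)
  rw [hP, hP]
  congr 1
  apply List.map_congr_left
  intro j hj
  have hj' := List.mem_range.mp hj
  simp only [Cfsg.Agent.Lib.ChevOrder.TorusCard.ext, hj', dif_pos]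
  rw [Units.val_zpow_eq_zpow_val]

/-- The conditions on a root relative to a torus element. -/
def Gd (c : Fin D.rank → Kˣ) (s : Fin D.nroots) : Prop :=
  chi D (ext c) s = 1 ∧ chi D (ext c) (negF hT s) = 1 ∧
    ∀ p : Fin D.nroots, chi D (ext c) p = 1 → p = s ∨ p = negF hT s ∨ Ad D (cr D s) p = 0

/-- The set of positive roots on which a torus element acts trivially. -/
def PsiS (c : Fin D.rank → Kˣ) : Set ℕ := {r | r ∈ D.posRoots ∧ chi D (ext c) r = 1}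

include hS hL hdiag hcr hLace in
/-- Moves for elements of the form `u₁ n u`. -/
theorem moves_step (hnb : ∀ s : Fin D.nroots, ∃ s' : Fin D.nroots, Ad D (cr D s) s' = 1)
    {c c' : Fin D.rank → Kˣ} (hcc : ∀ p : Fin D.nroots, chi D (ext c') p = 1 → chi D (ext c) p = 1)
    (nn : ↥(pair hR hT).N) {y u₁ u : GL D.Idx K}
    (hy : y = u₁ * ((nn : ↥(D.group K)) : GL D.Idx K) * u)
    (hu₁ : u₁ ∈ gen hR.toAddRel (PsiS c)) (hu : u ∈ gen hR.toAddRel (PsiS c'))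
    (s : Fin D.nroots) (hs : Gd hT c s) (hs' : Gd hT c (σW hR hT (QuotientGroup.mk nn) s)) :
    Moves hR hT hc hη s (σW hR hT (QuotientGroup.mk nn) s) y := by
  have C := comm7 hR hT hS hL hdiag hcr hLace (K := K)
  have hpos : ∀ p, p ∈ D.posRoots → p < D.nroots := fun p hp => (Cfsg.Agent.Lib.ChevBN.Stmts.mem_posRoots.mp hp).1
  have h1 : Moves hR hT hc hη s s u := by
    apply moves_gen hR hT hc hη hS hL C s (PsiS c') _ hu
    intro p hp
    have hlt := hpos p hp.1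
    rcases hs.2.2 ⟨p, hlt⟩ (hcc ⟨p, hlt⟩ hp.2) with h | h | h
    · left
      exact congrArg Fin.val h
    · right; left
      exact congrArg Fin.val h
    · right; right
      exact ⟨hlt, h⟩
  have h2 : Moves hR hT hc hη (σW hR hT (QuotientGroup.mk nn) s) (σW hR hT (QuotientGroup.mk nn) s) u₁ := by
    apply moves_gen hR hT hc hη hS hL C _ (PsiS c) _ hu₁
    intro p hp
    have hlt := hpos p hp.1
    rcases hs'.2.2 ⟨p, hlt⟩ hp.2 with h | h | h
    · left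
      exact congrArg Fin.val h
    · right; left
      exact congrArg Fin.val h
    · right; right
      exact ⟨hlt, h⟩
  have h3 : Moves hR hT hc hη s (σW hR hT (QuotientGroup.mk nn) s) ((nn : ↥(D.group K)) : GL D.Idx K) :=
    psi_conj_N hR hT hc hη hnb nn s
  have h4 := (h1.comp _ _ _ _ h3).comp _ _ _ _ h2
  rw [hy]
  convert h4 using 1
  group

end Comm

section Assemble

variable {D : ChevalleyDatum} {K : Type*} [Field K] [Finite K] {η : ℕ → ℕ → ℤ} (hR : Sys D K η) (hT : Tbl D)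
  (hc : ∀ i < D.rank, D.cartan i (D.simple i) = 2) (hη : ∀ i < D.rank, η i (D.simple i) = -1)
  (hS : SL D) (hL : Lt (Gram.gram D)) (hdiag : ∀ i, Gram.gram D i i = 2)
  (hcr : ∀ s t : Fin D.nroots, crV D s = crV D t → s = t) (hLace : Cfsg.Agent.Lib.Invol.Lace.Lace D)
  (hnb : ∀ s : Fin D.nroots, ∃ s' : Fin D.nroots, Ad D (cr D s) s' = 1)
  (σ : K →+* K) {q : ℕ}

include hc hη hnb hS hL hdiag hcr hLace in
/-- The main construction. -/
theorem assemble (hσ : ∀ a, σ a = a ^ q) (hq2 : 2 ≤ q) (hK : Nat.card K = q ^ 12)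
    {c c' : Fin D.rank → Kˣ} (hcc : ∀ p : Fin D.nroots, chi D (ext c') p = 1 → chi D (ext c) p = 1)
    {g₁ y u₁ u : GL D.Idx K} (hg₁ : g₁ ∈ D.group K) (hy : y = g₁⁻¹ * mp σ g₁)
    (nn : ↥(pair hR hT).N) (hye : y = u₁ * ((nn : ↥(D.group K)) : GL D.Idx K) * u)
    (hu₁ : u₁ ∈ gen hR.toAddRel (PsiS c)) (hu : u ∈ gen hR.toAddRel (PsiS c'))
    (s₀ : Fin D.nroots)
    (h3 : σW hR hT (QuotientGroup.mk nn) (σW hR hT (QuotientGroup.mk nn) (σW hR hT (QuotientGroup.mk nn) s₀)) = s₀ ∨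
      σW hR hT (QuotientGroup.mk nn) (σW hR hT (QuotientGroup.mk nn) (σW hR hT (QuotientGroup.mk nn) s₀)) = negF hT s₀)
    (o01 : Ad D (cr D s₀) (σW hR hT (QuotientGroup.mk nn) s₀) = 0)
    (o02 : Ad D (cr D s₀) (σW hR hT (QuotientGroup.mk nn) (σW hR hT (QuotientGroup.mk nn) s₀)) = 0)
    (o12 : Ad D (cr D (σW hR hT (QuotientGroup.mk nn) s₀)) (σW hR hT (QuotientGroup.mk nn) (σW hR hT (QuotientGroup.mk nn) s₀)) = 0)
    (G0 : Gd hT c s₀) (G1 : Gd hT c (σW hR hT (QuotientGroup.mk nn) s₀))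
    (G2 : Gd hT c (σW hR hT (QuotientGroup.mk nn) (σW hR hT (QuotientGroup.mk nn) s₀)))
    (ξ : Kˣ) (hξ : ξ ^ (q ^ 3 + 1) = 1) (hξ2 : ξ ^ 2 ≠ 1) :
    ∃ z ∈ D.group K, ∃ b₂ : Fin D.rank → ℤ,
      (tmap hT hR c : GL D.Idx K) * z = z * (tmap hT hR c : GL D.Idx K) ∧
      (fun j => ξ ^ b₂ j) ≠ 1 ∧
      mp σ (g₁ * (z * (tmap hT hR (fun j => ξ ^ b₂ j) : GL D.Idx K) * z⁻¹) * g₁⁻¹) =
        g₁ * (z * (tmap hT hR (fun j => ξ ^ b₂ j) : GL D.Idx K) * z⁻¹) * g₁⁻¹ := by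
  classical
  set π := σW hR hT (QuotientGroup.mk nn) with hπ
  set s₁ := π s₀ with hs₁
  set s₂ := π s₁ with hs₂
  set s₃ := π s₂ with hs₃
  have hm₀ := moves_step hR hT hc hη hS hL hdiag hcr hLace hnb hcc nn hye hu₁ hu s₀ G0 G1
  have hm₁ := moves_step hR hT hc hη hS hL hdiag hcr hLace hnb hcc nn hye hu₁ hu s₁ G1 G2
  have hG3 : Gd hT c s₃ := by
    rcases h3 with h | h
    · rw [h]
      exact G0
    · rw [h]
      refine ⟨G0.2.1, ?_, ?_⟩
      · show chi D (ext c) (D.neg (D.neg s₀)) = 1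
        rw [hT.neg_neg s₀ s₀.2]
        exact G0.1
      · intro p hp
        rcases G0.2.2 p hp with h5 | h5 | h5
        · right; left
          rw [h5]
          exact Fin.ext (hT.neg_neg s₀ s₀.2).symm
        · left
          exact h5
        · right; right
          rw [ad_neg_l hT hS, h5, neg_zero]
  have hm₂ := moves_step hR hT hc hη hS hL hdiag hcr hLace hnb hcc nn hye hu₁ hu s₂ G2 hG3
  have Pc := psi_comm hR hT hc hη hS hL hdiag hcr hLace (K := K)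
  obtain ⟨z₀, z₁, z₂, hz⟩ := core_fix hR hT hc hη hnb σ hσ hq2 hK hy s₀ s₁ s₂ s₃ hm₀ hm₁ hm₂ h3
    (Pc s₀ s₁ o01) (Pc s₀ s₂ o02) (Pc s₁ s₂ o12) ξ hξ hξ2
  set z : GL D.Idx K := psi hR hT hc hη s₀ z₀ * psi hR hT hc hη s₁ z₁ * psi hR hT hc hη s₂ z₂ with hzz
  set b₂ : Fin D.rank → ℤ := fun j => cr D s₀ j + (q : ℤ) * cr D s₁ j + (q : ℤ) ^ 2 * cr D s₂ j with hb₂
  have hd : (tmap hT hR (fun j => ξ ^ b₂ j) : GL D.Idx K) =
      hG hR.toAddRel s₀ (ξ : K) * hG hR.toAddRel s₁ ((ξ ^ q : Kˣ) : K) *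
        hG hR.toAddRel s₂ ((ξ ^ (q ^ 2) : Kˣ) : K) := by
    rw [hG_eq_tmap hR hT, hG_eq_tmap hR hT, hG_eq_tmap hR hT]
    have e : (fun j => ξ ^ b₂ j) = (fun j : Fin D.rank => ξ ^ cr D s₀ j) * (fun j : Fin D.rank => (ξ ^ q) ^ cr D s₁ j) *
        (fun j : Fin D.rank => (ξ ^ (q ^ 2)) ^ cr D s₂ j) := by
      funext j
      simp only [Pi.mul_apply, hb₂]
      rw [_root_.zpow_add, _root_.zpow_add, ← zpow_natCast ξ q, ← zpow_natCast ξ (q ^ 2),
        ← _root_.zpow_mul, ← _root_.zpow_mul]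
      push_cast
      rfl
    rw [e, map_mul, map_mul]
    rfl
  have hzS : ∀ S : Subgroup (GL D.Idx K), (∀ (j : Fin 3) (a : K),
      X hR.toAddRel ((![s₀, s₁, s₂] : Fin 3 → Fin D.nroots) j) a ∈ S ∧
        X hR.toAddRel (D.neg ((![s₀, s₁, s₂] : Fin 3 → Fin D.nroots) j)) a ∈ S) → z ∈ S := by
    intro S hS₀
    refine Subgroup.mul_mem _ (Subgroup.mul_mem _ ?_ ?_) ?_
    · exact psi_mem _ _ _ _ _ _ (fun t => (hS₀ 0 t).1) (fun t => (hS₀ 0 t).2) _
    · exact psi_mem _ _ _ _ _ _ (fun t => (hS₀ 1 t).1) (fun t => (hS₀ 1 t).2) _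
    · exact psi_mem _ _ _ _ _ _ (fun t => (hS₀ 2 t).1) (fun t => (hS₀ 2 t).2) _
  refine ⟨z, ?_, b₂, ?_, ?_, ?_⟩
  · apply hzS
    intro j a
    exact ⟨Cfsg.Agent.Lib.ChevAut.X_mem_group _ _ _, Cfsg.Agent.Lib.ChevAut.X_mem_group _ _ _⟩
  · have hmem : z ∈ Subgroup.centralizer {(tmap hT hR c : GL D.Idx K)} := by
      apply hzS
      have key : ∀ (s : Fin D.nroots) (a : K), chi D (ext c) s = 1 →
          X hR.toAddRel s a ∈ Subgroup.centralizer {(tmap hT hR c : GL D.Idx K)} := by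
        intro s a hs
        rw [Subgroup.mem_centralizer_singleton_iff]
        have := tmap_conj_X hR hT c s.2 a
        rw [hs, one_mul] at this
        rw [mul_inv_eq_iff_eq_mul] at this
        exact this.symm
      intro j a
      fin_cases j
      · exact ⟨key s₀ a G0.1, key (negF hT s₀) a G0.2.1⟩
      · exact ⟨key s₁ a G1.1, key (negF hT s₁) a G1.2.1⟩
      · exact ⟨key s₂ a G2.1, key (negF hT s₂) a G2.2.1⟩
    exact (Subgroup.mem_centralizer_singleton_iff.mp hmem).symm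
  · intro h1
    have h2 : chi D (ext fun j => ξ ^ b₂ j) s₀ = 1 := by
      rw [h1, Cfsg.Agent.Lib.ChevOrder.TorusCard.ext_one, chi_eq]
      simp
    rw [chi_log hS] at h2
    have h4 : B (Gram.gram D) (crV D s₀) b₂ = 2 := by
      have e : b₂ = crV D s₀ + (q : ℤ) • crV D s₁ + ((q : ℤ) ^ 2) • crV D s₂ := by
        funext j
        simp [hb₂, crV]
      rw [e, B_add_right, B_add_right, B_smul_right, B_smul_right, crV_norm hR hT hS hdiag,
        B_crV_crV hS, B_crV_crV hS, ad_symm hS hL s₁, ad_symm hS hL s₂, o01, o02]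
      simp
    rw [h4] at h2
    apply hξ2
    apply Units.ext
    rw [← zpow_natCast]
    exact h2
  · exact hz z _ rfl hd ▸ hz z _ rfl hd

end Assemble

section Main

variable {K : Type*} [Field K] [Finite K] (dK : Dat chevE7 K eta7) (σ : K →+* K) {q : ℕ}

include dK in
set_option maxRecDepth 100000 in
/-- The main construction. -/
theorem exists_z (hσ : ∀ a, σ a = a ^ q) (hq2 : 2 ≤ q) (hK : Nat.card K = q ^ 12)
    {ℓ : ℕ} [hℓ : Fact ℓ.Prime] (hℓ2 : ℓ ≠ 2)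
    (hℓW : ¬ ℓ ∣ Nat.card (WW (pair dK.hR dK.hT)))
    (hprim : IsPrimitiveRoot ((q : ℤ) : ZMod ℓ) 12)
    {ξ₁ : Kˣ} (hξ₁ : orderOf ξ₁ = ℓ) {b₁ : Fin chevE7.rank → ℤ} (hb₁0 : red ℓ b₁ ≠ 0)
    {g₁ : GL chevE7.Idx K} (hg₁ : g₁ ∈ chevE7.group K)
    (hfixt : mp σ (g₁ * (tmap dK.hT dK.hR (fun j => ξ₁ ^ b₁ j) : GL chevE7.Idx K) * g₁⁻¹) =
      g₁ * (tmap dK.hT dK.hR (fun j => ξ₁ ^ b₁ j) : GL chevE7.Idx K) * g₁⁻¹)
    (ξ : Kˣ) (hξ : ξ ^ (q ^ 3 + 1) = 1) (hξ2 : ξ ^ 2 ≠ 1) :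
    ∃ z ∈ chevE7.group K, ∃ b₂ : Fin chevE7.rank → ℤ,
      (tmap dK.hT dK.hR (fun j => ξ₁ ^ b₁ j) : GL chevE7.Idx K) * z =
        z * (tmap dK.hT dK.hR (fun j => ξ₁ ^ b₁ j) : GL chevE7.Idx K) ∧
      (fun j => ξ ^ b₂ j) ≠ 1 ∧
      mp σ (g₁ * (z * (tmap dK.hT dK.hR (fun j => ξ ^ b₂ j) : GL chevE7.Idx K) * z⁻¹) * g₁⁻¹) =
        g₁ * (z * (tmap dK.hT dK.hR (fun j => ξ ^ b₂ j) : GL chevE7.Idx K) * z⁻¹) * g₁⁻¹ := by
  classical
  set hR := dK.hR with hhR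
  set hT := dK.hT with hhT
  haveI := finite_WW hR hT
  set c : Fin chevE7.rank → Kˣ := fun j => ξ₁ ^ b₁ j with hc
  set t : GL chevE7.Idx K := (tmap hT hR c : GL chevE7.Idx K) with ht
  set t' : GL chevE7.Idx K := (tmap hT hR (c ^ q) : GL chevE7.Idx K) with ht'
  have htt' : t' = t ^ q := by
    rw [ht', map_pow]
    rfl
  have hσt : mp σ t = t' := by
    rw [htt']
    exact mp_tmap hR hT σ hσ c
  set y : GL chevE7.Idx K := g₁⁻¹ * mp σ g₁ with hy
  have hyG : y ∈ chevE7.group K := Subgroup.mul_mem _ (Subgroup.inv_mem _ hg₁) (mp_group σ hg₁)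
  have hyt : y * t' * y⁻¹ = t := by
    have h1 := hfixt
    rw [map_mul, map_mul, map_inv, hσt] at h1
    have e : y * t' * y⁻¹ = g₁⁻¹ * (mp σ g₁ * t' * (mp σ g₁)⁻¹) * g₁ := by
      rw [hy]
      group
    rw [e, h1]
    group
  have hyt' : t * y * t'⁻¹ = y := by
    rw [← hyt]
    group
  obtain ⟨u₁, hu₁, n, hn, u, hu, hyeq, hnt⟩ := normal_form_cent hR hT c (c ^ q) hyG hyt'
  let nn : ↥(pair hR hT).N := ⟨⟨n, N_le_G hR hT hn⟩, (mem_PN hR hT).2 hn⟩
  set w : WW (pair hR hT) := QuotientGroup.mk nn with hw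
  have hconj := conj_tmap hR hT nn (c ^ q)
  have hcℓ : c ^ ℓ = 1 := by
    funext j
    simp only [Pi.pow_apply, Pi.one_apply, hc]
    rw [← zpow_natCast, ← _root_.zpow_mul, mul_comm, _root_.zpow_mul, zpow_natCast, ← hξ₁,
      pow_orderOf_eq_one, _root_.one_zpow]
  have hco : Nat.Coprime 2 ℓ := by
    rw [Nat.coprime_comm, Nat.Prime.coprime_iff_not_dvd hℓ.out]
    intro h
    exact hℓ2 ((Nat.prime_dvd_prime_iff_eq hℓ.out Nat.prime_two).mp h)
  have huniq : ∀ a a' : Fin chevE7.rank → Kˣ, a ^ ℓ = 1 → a' ^ ℓ = 1 →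
      tmap hT hR a = tmap hT hR a' → a = a' := by
    intro a a' ha ha' he
    have h1 : tmap hT hR (a / a') = 1 := by
      rw [_root_.map_div, he, div_self']
    have h2 := hexp2 hR hT _ h1
    have h3 : (a / a') ^ ℓ = 1 := by
      rw [div_pow, ha, ha', div_one]
    have h4 := pow_gcd_eq_one.mpr ⟨h2, h3⟩
    rw [hco, pow_one] at h4
    exact div_eq_one.mp h4
  have hcM : actM (matW hR hT w) (c ^ q) = c := by
    apply huniq
    · rw [← map_pow, ← pow_mul, mul_comm, pow_mul, hcℓ, one_pow, map_one]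
    · exact hcℓ
    · apply Subtype.ext
      refine hconj.symm.trans ?_
      show n * t' * n⁻¹ = t
      have hnt' : t * n * t'⁻¹ = n := hnt
      calc n * t' * n⁻¹ = (t * n * t'⁻¹) * t' * n⁻¹ := by rw [hnt']
        _ = t := by group
  have hcM' : actM (matW hR hT w⁻¹) c = c ^ q := by
    conv_lhs => rw [← hcM]
    rw [← actM_mul, ← matW_mul, inv_mul_cancel, matW_one, actM_one]
  have hMb : red ℓ (matW hR hT w⁻¹ *ᵥ b₁) = ((q : ℤ) : ZMod ℓ) • red ℓ b₁ := by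
    have h := hcM'
    rw [hc, actM_zpow, pow_fun_zpow, fun_zpow_eq_iff hξ₁] at h
    rw [h, red_smul_eq]
  have hpow : matW hR hT w⁻¹ ^ orderOf w⁻¹ = 1 := by
    have h1 := map_pow (matHom hR hT) w⁻¹ (orderOf w⁻¹)
    rw [pow_orderOf_eq_one, map_one, matHom_apply] at h1
    exact h1.symm
  have hnd : ¬ ℓ ∣ orderOf w⁻¹ := fun h1 => hℓW (h1.trans (orderOf_dvd_natCard w⁻¹))
  obtain ⟨v, hv0, hv⟩ := exists_vec (orderOf_pos w⁻¹) hpow hnd hprim hb₁0 hMb
  rw [cyclotomic_twelve_eq] at hv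
  obtain ⟨s₀, hd⟩ := E7_data hR hT w⁻¹ hv0 hv
  have hq6 : (((q : ℤ) : ZMod ℓ)) ^ 6 = -1 := by
    have h1 : (((q : ℤ) : ZMod ℓ)) ^ 6 ≠ 1 := hprim.pow_ne_one_of_pos_of_lt (by norm_num) (by norm_num)
    have h2 : ((((q : ℤ) : ZMod ℓ)) ^ 6 - 1) * (((((q : ℤ) : ZMod ℓ)) ^ 6) + 1) = 0 := by
      have h3 := hprim.pow_eq_one
      linear_combination h3
    rcases mul_eq_zero.mp h2 with h3 | h3
    · exact absurd (sub_eq_zero.mp h3) h1
    · exact eq_neg_of_add_eq_zero_left h3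
  obtain ⟨h3, o01, o02, o12, G0, G1, G2⟩ := frame hR hT w hd hℓ2 hℓW hξ₁ hb₁0 hq6 hMb
  have hcc : ∀ p : Fin chevE7.nroots, chi chevE7 (Cfsg.Agent.Lib.ChevOrder.TorusCard.ext (c ^ q)) p = 1 →
      chi chevE7 (Cfsg.Agent.Lib.ChevOrder.TorusCard.ext c) p = 1 := by
    intro p hp
    rw [hc, pow_fun_zpow, chi_log_iff hSL hξ₁] at hp
    rw [hc, chi_log_iff hSL hξ₁]
    have e : (fun j => ((q : ℕ) : ℤ) * b₁ j) = ((q : ℕ) : ℤ) • b₁ := rfl
    rw [e, B_smul_right, Int.cast_mul] at hp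
    refine (mul_eq_zero.mp hp).resolve_left ?_
    intro h0
    rw [h0] at hq6
    have : (1 : ZMod ℓ) = 0 := by
      have h5 : (0 : ZMod ℓ) ^ 6 = -1 := hq6
      rw [zero_pow (by norm_num)] at h5
      linear_combination h5
    exact one_ne_zero this
  exact assemble hR hT hc7 hη7 hSL hLt hDiag crV_inj Cfsg.Agent.Lib.Invol.E7.lace exists_neighbour σ hσ hq2 hK
    hcc hg₁ rfl nn hyeq hu₁ hu s₀ h3 o01 o02 o12 G0 G1 G2 ξ hξ hξ2

end Main

end Cfsg.Agent.Lib.ChevTori.E7A
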