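import Cfsg.Agent.Lib.ChevTori.E7P
import Cfsg.Agent.Lib.ChevTori.TorA

/-!
A criterion for the kernel of `M - q` on `(Kˣ)^l` to be cyclic in terms of the eigenspaces modulo primes,
and the bound on the eigenspaces for the elements of the Weyl group of `E₇`.
-/

set_option autoImplicit false
set_option linter.unusedSectionVars false

namespace Cfsg.Agent.Lib.ChevTori.E7C

open Polynomial Matrix
open Cfsg.Agent.Lib.ChevOrder.TorusCard
open Cfsg.Agent.Lib.ChevTori.LinAlg Cfsg.Agent.Lib.ChevTori.Core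
open Cfsg.Agent.Lib.ChevTori.Main Cfsg.Agent.Lib.ChevTori.TorA Cfsg.Agent.Lib.ChevTori.Lat
open Cfsg.Agent.Lib.ChevTori.E7S Cfsg.Agent.Lib.ChevTori.E7L

section Cyc

variable {l n q : ℕ} {K : Type*} [Field K] [Finite K] {M : Matrix (Fin l) (Fin l) ℤ} {f : ℤ[X]}

/-- The kernel is cyclic when the eigenspaces modulo primes are small. -/
theorem cyclic_A' (hn : 0 < n) (hq : 2 ≤ q) (hK : Nat.card K = q ^ n) (hchar : M.charpoly = f)
    (hf : f ∣ X ^ n - 1)
    (hei : ∀ (s : ℕ) [Fact s.Prime], Nat.card {a : Fin l → ZMod s //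
      (M.map (Int.castRingHom (ZMod s))) *ᵥ a = ((q : ℤ) : ZMod s) • a} ≤ s) :
    IsCyclic (actM (μ := Kˣ) (M - (q : ℤ) • 1)).ker := by
  classical
  set A := (actM (μ := Kˣ) (M - (q : ℤ) • 1)).ker with hA
  haveI : Finite A := inferInstance
  apply isCyclic_of_prime_torsion
  intro s hs
  haveI hsf : Fact s.Prime := ⟨hs⟩
  set T := (powMonoidHom s : A →* A).ker with hT
  have hmemT : ∀ τ : T, ((τ : A) : Fin l → Kˣ) ^ s = 1 := by
    intro τ
    have h1 : (τ : A) ^ s = 1 := τ.2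
    exact congrArg Subtype.val h1
  have hmemA : ∀ τ : T, actM M ((τ : A) : Fin l → Kˣ) = ((τ : A) : Fin l → Kˣ) ^ q :=
    fun τ => (mem_ker_sub _ _ _).1 (τ : A).2
  by_cases hsK : s ∣ Nat.card Kˣ
  · obtain ⟨ξ, hξ⟩ := exists_prime_orderOf_dvd_card' s hsK
    have hlog : ∀ a : Kˣ, a ^ s = 1 → ∃ k : ℤ, ξ ^ k = a := by
      intro a ha
      have hprimξ : IsPrimitiveRoot ξ s := by
        rw [← hξ]
        exact IsPrimitiveRoot.orderOf ξ
      haveI : NeZero s := ⟨hs.ne_zero⟩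
      have h1 : a ∈ Subgroup.zpowers ξ := by
        rw [hprimξ.zpowers_eq, mem_rootsOfUnity]
        exact ha
      exact Subgroup.mem_zpowers_iff.mp h1
    have hlog2 : ∀ τ : T, ∃ k : Fin l → ℤ, ((τ : A) : Fin l → Kˣ) = fun j => ξ ^ k j := by
      intro τ
      have h1 : ∀ j, ∃ k : ℤ, ξ ^ k = ((τ : A) : Fin l → Kˣ) j := fun j =>
        hlog _ (by
          have := congrFun (hmemT τ) j
          simpa using this)
      choose k hk using h1
      exact ⟨k, by funext j; exact (hk j).symm⟩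
    choose k hk using hlog2
    let φ : T → {a : Fin l → ZMod s //
        (M.map (Int.castRingHom (ZMod s))) *ᵥ a = ((q : ℤ) : ZMod s) • a} := fun τ =>
      ⟨red s (k τ), by
        have h1 := hmemA τ
        rw [hk τ, actM_zpow, pow_fun_zpow, fun_zpow_eq_iff hξ, red_mulVec, red_smul_eq] at h1
        exact h1⟩
    have hφ : Function.Injective φ := by
      intro τ τ' h
      have h1 : red s (k τ) = red s (k τ') := congrArg Subtype.val h
      apply Subtype.ext
      apply Subtype.ext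
      rw [hk τ, hk τ', (fun_zpow_eq_iff hξ _ _).2 h1]
    exact (Nat.card_le_card_of_injective φ hφ).trans (hei s)
  · -- no torsion at all
    have hsub : Subsingleton T := by
      constructor
      intro τ τ'
      have hone : ∀ τ : T, τ = 1 := by
        intro τ
        apply Subtype.ext
        apply Subtype.ext
        funext j
        have h1 : (((τ : A) : Fin l → Kˣ) j) ^ s = 1 := by
          have := congrFun (hmemT τ) j
          simpa using this
        have h2 := orderOf_dvd_of_pow_eq_one h1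
        have h3 := orderOf_dvd_natCard (((τ : A) : Fin l → Kˣ) j)
        have h4 : orderOf (((τ : A) : Fin l → Kˣ) j) = 1 := by
          rcases (Nat.dvd_prime hs).mp h2 with h5 | h5
          · exact h5
          · rw [h5] at h3
            exact absurd h3 hsK
        exact orderOf_eq_one_iff.mp h4
      rw [hone τ, hone τ']
    calc Nat.card T = 1 := Nat.card_unique
      _ ≤ s := hs.one_lt.le


end Cyc

section Eigen

variable {l : ℕ} {M : Matrix (Fin l) (Fin l) ℤ}

/-- An eigenspace is small when the eigenvalue is not a multiple root of the characteristic polynomial. -/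
theorem card_eigen_of_mult {s : ℕ} [hs : Fact s.Prime] (lam : ZMod s)
    (h : ¬ ((M.map (Int.castRingHom (ZMod s))).charpoly.IsRoot lam ∧
      (derivative (M.map (Int.castRingHom (ZMod s))).charpoly).IsRoot lam)) :
    Nat.card {a : Fin l → ZMod s // (M.map (Int.castRingHom (ZMod s))) *ᵥ a = lam • a} ≤ s := by
  classical
  set Mb := M.map (Int.castRingHom (ZMod s)) with hMb
  let φ : Module.End (ZMod s) (Fin l → ZMod s) := Matrix.toLin' Mb
  have h0 : Mb.charpoly ≠ 0 := (Matrix.charpoly_monic Mb).ne_zero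
  have h1 : Module.finrank (ZMod s) (φ.eigenspace lam) ≤ 1 := by
    refine (LinearMap.finrank_eigenspace_le φ lam).trans ?_
    have h2 : LinearMap.charpoly φ = Mb.charpoly := Matrix.charpoly_toLin' Mb
    rw [h2]
    by_contra hcon
    exact h ((Polynomial.one_lt_rootMultiplicity_iff_isRoot h0).mp (not_le.mp hcon))
  have h3 : Nat.card (φ.eigenspace lam) ≤ s := by
    rw [Module.natCard_eq_pow_finrank (K := ZMod s), Nat.card_zmod]
    calc s ^ Module.finrank (ZMod s) (φ.eigenspace lam) ≤ s ^ 1 :=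
          Nat.pow_le_pow_right hs.out.pos h1
      _ = s := pow_one s
  refine le_trans (le_of_eq (Nat.card_congr ?_)) h3
  refine Equiv.subtypeEquivRight fun a => ?_
  rw [Module.End.mem_eigenspace_iff]
  rfl

variable {G : Matrix (Fin l) (Fin l) ℤ}

theorem three_zero : (3 : ZMod 3) = 0 := by decide

theorem dec2 : ∀ x : ZMod 2, ¬ ((x ^ 3 + 1) * (x ^ 4 - x ^ 2 + 1) = 0 ∧
    3 * x ^ 2 * (x ^ 4 - x ^ 2 + 1) + (x ^ 3 + 1) * (4 * x ^ 3 - 2 * x) = 0) := by decide

theorem dec3 : ∀ x : ZMod 3, x = 2 ∨ ¬ ((x ^ 3 + 1) * (x ^ 4 - x ^ 2 + 1) = 0 ∧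
    3 * x ^ 2 * (x ^ 4 - x ^ 2 + 1) + (x ^ 3 + 1) * (4 * x ^ 3 - 2 * x) = 0) := by decide

/-- The eigenspace for `-1` modulo `3`. -/
theorem card_eigen_three {r : Fin l → ℤ} (hiso : IsIso G M)
    (hstar : ∀ x, x + M ^ 6 *ᵥ x = B G r x • r + B G (M *ᵥ r) x • (M *ᵥ r) +
      B G (M *ᵥ (M *ᵥ r)) x • (M *ᵥ (M *ᵥ r))) :
    Nat.card {a : Fin l → ZMod 3 // (M.map (Int.castRingHom (ZMod 3))) *ᵥ a = (2 : ZMod 3) • a} ≤ 3 := by
  classical
  set Gb := G.map (Int.castRingHom (ZMod 3)) with hGb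
  let φ : {a : Fin l → ZMod 3 // (M.map (Int.castRingHom (ZMod 3))) *ᵥ a = (2 : ZMod 3) • a} → ZMod 3 :=
    fun a => red 3 r ⬝ᵥ (Gb *ᵥ a.1)
  set v : Fin l → ZMod 3 := red 3 r - red 3 (M *ᵥ r) + red 3 (M *ᵥ (M *ᵥ r)) with hv
  have key : ∀ a, a.1 = (-φ a) • v := by
    rintro ⟨a, ha⟩
    obtain ⟨b, hb⟩ : ∃ b : Fin l → ℤ, red 3 b = a := by
      have h1 : ∀ i, ∃ k : ℤ, ((k : ℤ) : ZMod 3) = a i := fun i => ZMod.intCast_surjective (a i)
      choose b hb using h1
      exact ⟨b, funext hb⟩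
    subst hb
    have hMb : red 3 (M *ᵥ b) = (((-1 : ℤ)) : ZMod 3) • red 3 b := by
      rw [red_mulVec, ha]
      congr 1
    have rel : ∀ x, ((B G x b : ℤ) : ZMod 3) = -((B G (M *ᵥ x) b : ℤ) : ZMod 3) := by
      intro x
      rw [← hiso x b, cast_B_congr (G := G) (M *ᵥ x) hMb]
      simp
    set a₀ := ((B G r b : ℤ) : ZMod 3) with ha₀
    have hφ : red 3 r ⬝ᵥ (Gb *ᵥ red 3 b) = a₀ := (cast_B_red 3 r b).symm
    have r1 : ((B G (M *ᵥ r) b : ℤ) : ZMod 3) = -a₀ := by
      rw [ha₀, rel r, neg_neg]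
    have r2 : ((B G (M *ᵥ (M *ᵥ r)) b : ℤ) : ZMod 3) = a₀ := by
      have := rel (M *ᵥ r)
      rw [r1] at this
      linear_combination this
    have h6 : red 3 (M ^ 6 *ᵥ b) = red 3 b := by
      have h1 := red_aeval 3 hMb (Polynomial.X ^ 6)
      simpa using h1
    funext i
    show red 3 b i = (-(red 3 r ⬝ᵥ (Gb *ᵥ red 3 b)) • v) i
    rw [hφ]
    have h7 := congrFun (hstar b) i
    have h8 := congrArg (fun z : ℤ => (z : ZMod 3)) h7
    have h9 := congrFun h6 i
    simp only [Pi.add_apply, Pi.smul_apply, smul_eq_mul, Int.cast_add, Int.cast_mul, red] at h8 h9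
    rw [← ha₀, r1, r2, h9] at h8
    simp only [hv, Pi.smul_apply, Pi.add_apply, Pi.sub_apply, smul_eq_mul, red]
    linear_combination (-1 : ZMod 3) * h8 + ((b i : ℤ) : ZMod 3) * three_zero
  have hinj : Function.Injective φ := by
    intro a a' h
    apply Subtype.ext
    rw [key a, key a', h]
  have h1 := Nat.card_le_card_of_injective φ hinj
  rwa [Nat.card_zmod] at h1

theorem eval_f {R : Type*} [CommRing R] (φ : ℤ →+* R) (x : R) :
    eval x ((((Polynomial.X ^ 3 + 1) * P12 : ℤ[X])).map φ) = (x ^ 3 + 1) * (x ^ 4 - x ^ 2 + 1) := by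
  simp [P12]

theorem eval_df {R : Type*} [CommRing R] (φ : ℤ →+* R) (x : R) :
    eval x (derivative (((Polynomial.X ^ 3 + 1) * P12 : ℤ[X]).map φ)) =
      3 * x ^ 2 * (x ^ 4 - x ^ 2 + 1) + (x ^ 3 + 1) * (4 * x ^ 3 - 2 * x) := by
  simp [P12, derivative_mul, derivative_pow]

theorem poly_dvd : (Polynomial.X ^ 3 + 1) * P12 ∣ Polynomial.X ^ 12 - 1 :=
  ⟨(Polynomial.X ^ 3 - 1) * (Polynomial.X ^ 2 + 1), by
    rw [P12]
    ring⟩

/-- The bound on the eigenspaces. -/
theorem eigen_bound {r : Fin l → ℤ} (hiso : IsIso G M) (hchar : M.charpoly = (Polynomial.X ^ 3 + 1) * P12)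
    (hstar : ∀ x, x + M ^ 6 *ᵥ x = B G r x • r + B G (M *ᵥ r) x • (M *ᵥ r) +
      B G (M *ᵥ (M *ᵥ r)) x • (M *ᵥ (M *ᵥ r))) (lam : ℕ → ℤ) (s : ℕ) [hs : Fact s.Prime] :
    Nat.card {a : Fin l → ZMod s // (M.map (Int.castRingHom (ZMod s))) *ᵥ a = ((lam s : ℤ) : ZMod s) • a} ≤ s := by
  have hcp : ∀ (t : ℕ), (M.map (Int.castRingHom (ZMod t))).charpoly =
      (((Polynomial.X ^ 3 + 1) * P12 : ℤ[X])).map (Int.castRingHom (ZMod t)) := by
    intro t
    rw [← hchar, Matrix.charpoly_map]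
  by_cases h2 : s = 2
  · subst h2
    apply card_eigen_of_mult
    rw [hcp, Polynomial.IsRoot, Polynomial.IsRoot, eval_f, eval_df]
    exact dec2 _
  by_cases h3 : s = 3
  · subst h3
    rcases dec3 ((lam 3 : ℤ) : ZMod 3) with h | h
    · rw [h]
      exact card_eigen_three hiso hstar
    · apply card_eigen_of_mult
      rw [hcp, Polynomial.IsRoot, Polynomial.IsRoot, eval_f, eval_df]
      exact h
  · apply card_eigen_le' (n := 12)
    · intro h
      have h5 : s ∣ 2 ^ 2 * 3 := h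
      rcases (Nat.Prime.dvd_mul hs.out).1 h5 with h6 | h6
      · exact h2 ((Nat.prime_dvd_prime_iff_eq hs.out Nat.prime_two).1 (hs.out.dvd_of_dvd_pow h6))
      · exact h3 ((Nat.prime_dvd_prime_iff_eq hs.out Nat.prime_three).1 h6)
    · rw [hchar]
      exact poly_dvd

end Eigen

end Cfsg.Agent.Lib.ChevTori.E7C
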