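import Cfsg.Agent.Lib.ChevTori.E7S
import Cfsg.Agent.Lib.ChevTori.Asm

/-!
The three roots attached to an element of the Weyl group of `E₇` with an eigenvalue of order `12`.
-/

set_option autoImplicit false
set_option linter.unusedSectionVars false

namespace Cfsg.Agent.Lib.ChevTori.E7F

open Polynomial Matrix
open Cfsg Cfsg.Lie Cfsg.Agent.Lib.ChevBN.Elem Cfsg.Agent.Lib.ChevBN.Entries Cfsg.Agent.Lib.ChevBN.Table
open Cfsg.Agent.Lib.ChevBN.Collect Cfsg.Agent.Lib.ChevBN.Rel Cfsg.Agent.Lib.ChevBN.Torus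
open Cfsg.Agent.Lib.ChevBN.Monomial Cfsg.Agent.Lib.ChevBN.Core Cfsg.Agent.Lib.ChevBN.Pair
open Cfsg.Agent.Lib.ChevBN.Stmts Cfsg.Agent.Lib.ChevBN.BruhatForm Cfsg.Agent.Lib.ChevBN.Opp
open Cfsg.Agent.Lib.ChevTri.Level Cfsg.Agent.Lib.ChevTri.Datum
open Cfsg.Agent.Lib.BNPair.Basic Cfsg.Agent.Lib.BNPair.Parabolic
open Cfsg.Agent.Lib.ChevOrder.BNCount Cfsg.Agent.Lib.ChevOrder.Chev
open Cfsg.Agent.Lib.ChevOrder.TorusCard Cfsg.Agent.Lib.ChevBN.Levi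
open Cfsg.Agent.Lib.BNPair.CoxeterExchange Cfsg.Agent.Lib.StChar.Top
open Cfsg.Agent.Lib.ChevTori.Act Cfsg.Agent.Lib.ChevTori.LinAlg Cfsg.Agent.Lib.ChevTori.Lat
open Cfsg.Agent.Lib.ChevFix Cfsg.Agent.Lib.ChevTori.Core Cfsg.Agent.Lib.ChevTori.Gram
open Cfsg.Agent.Lib.ChevTori.LatX Cfsg.Agent.Lib.ChevTori.Refl Cfsg.Agent.Lib.ChevTori.E7
open Cfsg.Agent.Lib.ChevTori.E7L Cfsg.Agent.Lib.ChevTori.E7S

section Abstract

variable {l : ℕ} {G M M₀ M₁ : Matrix (Fin l) (Fin l) ℤ}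

theorem signs {r : Fin l → ℤ} (h10 : ∀ x, M₁ *ᵥ (M₀ *ᵥ x) = x)
    (hm3 : M₀ *ᵥ (M₀ *ᵥ (M₀ *ᵥ r)) = r ∨ M₀ *ᵥ (M₀ *ᵥ (M₀ *ᵥ r)) = -r) :
    ∃ ε : ℤ, (ε = 1 ∨ ε = -1) ∧ M₁ *ᵥ r = ε • (M₀ *ᵥ (M₀ *ᵥ r)) ∧ M₁ *ᵥ (M₁ *ᵥ r) = ε • (M₀ *ᵥ r) ∧
      M₁ *ᵥ (M₁ *ᵥ (M₁ *ᵥ r)) = ε • r := by
  rcases hm3 with h | h
  · have e1 : M₁ *ᵥ r = M₀ *ᵥ (M₀ *ᵥ r) := by
      conv_lhs => rw [← h]
      rw [h10]
    have e2 : M₁ *ᵥ (M₁ *ᵥ r) = M₀ *ᵥ r := by rw [e1, h10]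
    have e3 : M₁ *ᵥ (M₁ *ᵥ (M₁ *ᵥ r)) = r := by rw [e2, h10]
    exact ⟨1, Or.inl rfl, by rw [one_smul]; exact e1, by rw [one_smul]; exact e2, by rw [one_smul]; exact e3⟩
  · have e1 : M₁ *ᵥ r = -(M₀ *ᵥ (M₀ *ᵥ r)) := by
      have h1 := h10 (M₀ *ᵥ (M₀ *ᵥ r))
      rw [h, Matrix.mulVec_neg] at h1
      rw [← h1, neg_neg]
    have e2 : M₁ *ᵥ (M₁ *ᵥ r) = -(M₀ *ᵥ r) := by rw [e1, Matrix.mulVec_neg, h10]
    have e3 : M₁ *ᵥ (M₁ *ᵥ (M₁ *ᵥ r)) = -r := by rw [e2, Matrix.mulVec_neg, h10]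
    exact ⟨-1, Or.inr rfl, by rw [neg_one_smul]; exact e1, by rw [neg_one_smul]; exact e2,
      by rw [neg_one_smul]; exact e3⟩

/-- The reduction of the coefficients of `b` on the three vectors vanish. -/
theorem dat_zero {r : Fin l → ℤ} (hL : Lt G) (hiso : IsIso G M) (hn : B G r r = 2)
    (ho1 : B G r (M *ᵥ r) = 0) (ho2 : B G r (M *ᵥ (M *ᵥ r)) = 0)
    (hstar : ∀ x, x + M ^ 6 *ᵥ x = B G r x • r + B G (M *ᵥ r) x • (M *ᵥ r) +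
      B G (M *ᵥ (M *ᵥ r)) x • (M *ᵥ (M *ᵥ r)))
    {ℓ : ℕ} [hℓ : Fact ℓ.Prime] (hℓ2 : ℓ ≠ 2) {b : Fin l → ℤ} {q : ℤ} (hq : (q : ZMod ℓ) ^ 6 = -1)
    (hMb : red ℓ (M *ᵥ b) = (q : ZMod ℓ) • red ℓ b) (j : Fin 3) :
    ((B G ((![r, M *ᵥ r, M *ᵥ (M *ᵥ r)] : Fin 3 → (Fin l → ℤ)) j) b : ℤ) : ZMod ℓ) = 0 := by
  have h6 : red ℓ (M ^ 6 *ᵥ b) = (q : ZMod ℓ) ^ 6 • red ℓ b := by
    have h1 := red_aeval ℓ hMb (Polynomial.X ^ 6)
    simpa using h1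
  have h7 : red ℓ (b + M ^ 6 *ᵥ b) = (0 : ZMod ℓ) • red ℓ b := by
    funext i
    have h8 := congrFun h6 i
    simp only [red, Pi.smul_apply, smul_eq_mul, Pi.add_apply, zero_mul, Int.cast_add, hq] at h8 ⊢
    rw [h8]
    ring
  set y := (![r, M *ᵥ r, M *ᵥ (M *ᵥ r)] : Fin 3 → (Fin l → ℤ)) j with hy
  have h8 := cast_B_congr (G := G) y h7
  rw [zero_mul, hstar, B_add_right, B_add_right, B_smul_right, B_smul_right, B_smul_right] at h8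
  have e0 := rr_B hL hiso hn ho1 ho2 j 0
  have e1 := rr_B hL hiso hn ho1 ho2 j 1
  have e2 := rr_B hL hiso hn ho1 ho2 j 2
  simp only [Matrix.cons_val_zero, Matrix.cons_val_one, Matrix.cons_val] at e0 e1 e2
  rw [← hy] at e0 e1 e2
  rw [e0, e1, e2] at h8
  have h2 : ((2 : ℕ) : ZMod ℓ) ≠ 0 := by
    intro h
    rw [ZMod.natCast_eq_zero_iff] at h
    exact hℓ2 ((Nat.prime_dvd_prime_iff_eq hℓ.out Nat.prime_two).mp h)
  have h2' : (2 : ZMod ℓ) ≠ 0 := by simpa using h2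
  fin_cases j <;> simpa [hy, h2'] using h8

end Abstract

section Chi

variable {D : ChevalleyDatum} {K : Type*} [Field K]

/-- The character through the logarithm. -/
theorem chi_log (hS : SL D) (ξ : Kˣ) (b : Fin D.rank → ℤ) (s : Fin D.nroots) :
    chi D (ext fun j => ξ ^ b j) s = ((ξ ^ (B (Gram.gram D) (crV D s) b) : Kˣ) : K) := by
  rw [chi_ext, B_crV hS]
  congr 1
  rw [Cfsg.Agent.Lib.ChevOrder.TorusCard.zpow_sum_aux]
  apply Finset.prod_congr rfl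
  intro j _
  rw [← _root_.zpow_mul, mul_comm]

theorem chi_log_iff (hS : SL D) {ξ : Kˣ} {ℓ : ℕ} (hξ : orderOf ξ = ℓ) (b : Fin D.rank → ℤ) (s : Fin D.nroots) :
    chi D (ext fun j => ξ ^ b j) s = 1 ↔ ((B (Gram.gram D) (crV D s) b : ℤ) : ZMod ℓ) = 0 := by
  rw [chi_log hS, ZMod.intCast_zmod_eq_zero_iff_dvd, ← hξ, orderOf_dvd_iff_zpow_eq_one]
  constructor
  · intro h
    exact Units.ext h
  · intro h
    rw [h]
    rfl

omit [Field K] in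
theorem crV_neg (hT : Tbl D) (s : Fin D.nroots) : crV D (negF hT s) = - crV D s := by
  funext j
  exact hT.coroot_neg s s.2 j j.2

end Chi

theorem crV_inj_aux : ∀ s t : Fin chevE7.nroots, (∀ i : Fin chevE7.rank, cr chevE7 s i = cr chevE7 t i) → s = t := by
  decide +kernel

theorem crV_inj (s t : Fin chevE7.nroots) (h : crV chevE7 s = crV chevE7 t) : s = t :=
  crV_inj_aux s t (fun i => congrFun h i)

section Main

variable {K : Type*} [Field K] [Finite K] {η : ℕ → ℕ → ℤ} (hR : Sys chevE7 K η) (hT : Tbl chevE7)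

/-- The conditions on a root relative to a torus element. -/
def Good (c : Fin chevE7.rank → Kˣ) (s : Fin chevE7.nroots) : Prop :=
  chi chevE7 (ext c) s = 1 ∧ chi chevE7 (ext c) (negF hT s) = 1 ∧
    ∀ p : Fin chevE7.nroots, chi chevE7 (ext c) p = 1 →
      p = s ∨ p = negF hT s ∨ Ad chevE7 (cr chevE7 s) p = 0

theorem good_of (u₀ : WW (pair hR hT)) {r : Fin chevE7.rank → ℤ} (hd : Dat7 (matW hR hT u₀) r)
    {ℓ : ℕ} [hℓ : Fact ℓ.Prime] (hℓ2 : ℓ ≠ 2) (hℓW : ¬ ℓ ∣ Nat.card (WW (pair hR hT)))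
    {ξ : Kˣ} (hξ : orderOf ξ = ℓ)
    {b : Fin chevE7.rank → ℤ} (hb : red ℓ b ≠ 0) {q : ℤ} (hq : (q : ZMod ℓ) ^ 6 = -1)
    (hMb : red ℓ (matW hR hT u₀ *ᵥ b) = (q : ZMod ℓ) • red ℓ b)
    (s : Fin chevE7.nroots) (ε : ℤ) (hε : ε = 1 ∨ ε = -1) (k : Fin 3)
    (hs : crV chevE7 s = ε • (![r, matW hR hT u₀ *ᵥ r, matW hR hT u₀ *ᵥ (matW hR hT u₀ *ᵥ r)] :
      Fin 3 → (Fin chevE7.rank → ℤ)) k) :
    Good hT (fun j => ξ ^ b j) s := by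
  set M := matW hR hT u₀ with hM
  have hiso := isIso hR hT hSL u₀
  have hz := dat_zero hLt hiso hd.norm hd.o1 hd.o2 hd.star hℓ2 hq hMb
  set x := (![r, M *ᵥ r, M *ᵥ (M *ᵥ r)] : Fin 3 → (Fin chevE7.rank → ℤ)) with hx
  have hrr := rr_B hLt hiso hd.norm hd.o1 hd.o2
  have h1 : chi chevE7 (ext fun j => ξ ^ b j) s = 1 := by
    rw [chi_log_iff hSL hξ, hs, B_smul_left, Int.cast_mul, hz k, mul_zero]
  refine ⟨h1, ?_, ?_⟩
  · rw [chi_log_iff hSL hξ, crV_neg hT, hs, ← neg_one_smul ℤ, B_smul_left, B_smul_left, Int.cast_mul, Int.cast_mul, hz k]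
    simp
  · intro p hp
    rw [chi_log_iff hSL hξ] at hp
    obtain ⟨j, hj⟩ := root_eq hR hT u₀ hd hℓ2 hℓW hb hq hMb p hp
    have hj' : ∃ ε' : ℤ, (ε' = 1 ∨ ε' = -1) ∧ crV chevE7 p = ε' • x j := by
      rcases hj with h | h
      · exact ⟨1, Or.inl rfl, by rw [one_smul]; exact h⟩
      · exact ⟨-1, Or.inr rfl, by rw [neg_one_smul]; exact h⟩
    obtain ⟨ε', hε', hp'⟩ := hj'
    by_cases hjk : j = k
    · subst hjk
      rcases hε with rfl | rfl <;> rcases hε' with rfl | rfl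
      · left
        apply crV_inj
        rw [hp', hs]
      · right; left
        apply crV_inj
        rw [crV_neg hT, hp', hs]
        simp
      · right; left
        apply crV_inj
        rw [crV_neg hT, hp', hs]
        simp
      · left
        apply crV_inj
        rw [hp', hs]
    · right; right
      rw [← B_crV_crV hSL, hp', hs, B_smul_left, B_smul_right, hrr, if_neg hjk]
      simp

/-- The frame. -/
theorem frame (w : WW (pair hR hT)) {s₀ : Fin chevE7.nroots}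
    (hd : Dat7 (matW hR hT w⁻¹) (crV chevE7 s₀))
    {ℓ : ℕ} [hℓ : Fact ℓ.Prime] (hℓ2 : ℓ ≠ 2) (hℓW : ¬ ℓ ∣ Nat.card (WW (pair hR hT)))
    {ξ : Kˣ} (hξ : orderOf ξ = ℓ)
    {b : Fin chevE7.rank → ℤ} (hb : red ℓ b ≠ 0) {q : ℤ} (hq : (q : ZMod ℓ) ^ 6 = -1)
    (hMb : red ℓ (matW hR hT w⁻¹ *ᵥ b) = (q : ZMod ℓ) • red ℓ b) :
    (σW hR hT w (σW hR hT w (σW hR hT w s₀)) = s₀ ∨ σW hR hT w (σW hR hT w (σW hR hT w s₀)) = negF hT s₀) ∧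
      Ad chevE7 (cr chevE7 s₀) (σW hR hT w s₀) = 0 ∧
      Ad chevE7 (cr chevE7 s₀) (σW hR hT w (σW hR hT w s₀)) = 0 ∧
      Ad chevE7 (cr chevE7 (σW hR hT w s₀)) (σW hR hT w (σW hR hT w s₀)) = 0 ∧
      Good hT (fun j => ξ ^ b j) s₀ ∧ Good hT (fun j => ξ ^ b j) (σW hR hT w s₀) ∧
      Good hT (fun j => ξ ^ b j) (σW hR hT w (σW hR hT w s₀)) := by
  set M₀ := matW hR hT w⁻¹ with hM₀
  set M₁ := matW hR hT w with hM₁
  set r := crV chevE7 s₀ with hr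
  have h10 : ∀ x, M₁ *ᵥ (M₀ *ᵥ x) = x := matW_mul_inv hR hT w
  obtain ⟨ε, hε, e1, e2, e3⟩ := signs h10 hd.m3
  have hiso := isIso hR hT hSL w⁻¹
  have hrr := rr_B hLt hiso hd.norm hd.o1 hd.o2
  have c1 : crV chevE7 (σW hR hT w s₀) = M₁ *ᵥ r := (matW_crV hR hT w s₀).symm
  have c2 : crV chevE7 (σW hR hT w (σW hR hT w s₀)) = M₁ *ᵥ (M₁ *ᵥ r) := by
    rw [← c1]
    exact (matW_crV hR hT w _).symm
  have c3 : crV chevE7 (σW hR hT w (σW hR hT w (σW hR hT w s₀))) = M₁ *ᵥ (M₁ *ᵥ (M₁ *ᵥ r)) := by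
    rw [← c2]
    exact (matW_crV hR hT w _).symm
  have hsq : ε * ε = 1 := by
    rcases hε with rfl | rfl <;> norm_num
  refine ⟨?_, ?_, ?_, ?_, ?_, ?_, ?_⟩
  · rcases hε with rfl | rfl
    · left
      apply crV_inj
      rw [c3, e3, one_smul]
    · right
      apply crV_inj
      rw [c3, e3, crV_neg hT, neg_one_smul]
  · rw [← B_crV_crV hSL, c1, e1, B_smul_left]
    have := hrr 2 0
    simp only [Matrix.cons_val] at this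
    rw [this]
    simp
  · rw [← B_crV_crV hSL, c2, e2, B_smul_left]
    have := hrr 1 0
    simp only [Matrix.cons_val] at this
    rw [this]
    simp
  · rw [← B_crV_crV hSL, c2, c1, e2, e1, B_smul_left, B_smul_right]
    have := hrr 1 2
    simp only [Matrix.cons_val] at this
    rw [this]
    simp
  · exact good_of hR hT w⁻¹ hd hℓ2 hℓW hξ hb hq hMb s₀ 1 (Or.inl rfl) 0 (by simp [hr])
  · exact good_of hR hT w⁻¹ hd hℓ2 hℓW hξ hb hq hMb _ ε hε 2 (by rw [c1, e1]; rfl)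
  · exact good_of hR hT w⁻¹ hd hℓ2 hℓW hξ hb hq hMb _ ε hε 1 (by rw [c2, e2]; rfl)

end Main

end Cfsg.Agent.Lib.ChevTori.E7F
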