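import Cfsg.Agent.Lib.ChevTori.Lat

/-!
Orthogonal cyclic blocks for several isometries; isometries of finite order having `Φ₁₂` as a factor of the
characteristic polynomial in rank seven have order dividing `12`.
-/

set_option autoImplicit false
set_option linter.unusedSectionVars false

namespace Cfsg.Agent.Lib.ChevTori.LatX

open Polynomial Matrix Cfsg.Agent.Lib.ChevTori.LinAlg Cfsg.Agent.Lib.ChevTori.Lat

variable {l : ℕ} {G : Matrix (Fin l) (Fin l) ℤ}

/-- Orthogonal cyclic subspaces with irreducible annihilators, for several matrices. -/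
theorem sum_deg_le' (hL : Lt G) {ι : Type} [Fintype ι] [DecidableEq ι]
    (M : ι → Matrix (Fin l) (Fin l) ℤ) (v : ι → (Fin l → ℤ))
    (P : ι → ℤ[X]) (hirr : ∀ i, Irreducible ((P i).map (algebraMap ℤ ℚ))) (hv : ∀ i, v i ≠ 0)
    (hP : ∀ i, aeval (M i) (P i) *ᵥ v i = 0)
    (horth : ∀ i j, i ≠ j → ∀ a b : ℕ, B G (M i ^ a *ᵥ v i) (M j ^ b *ᵥ v j) = 0) :
    ∑ i, ((P i).map (algebraMap ℤ ℚ)).natDegree ≤ l := by
  classical
  set Q : ι → ℚ[X] := fun i => (P i).map (algebraMap ℤ ℚ) with hQ
  let κ := Σ i : ι, Fin (Q i).natDegree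
  let f : κ → (Fin l → ℚ) := fun x => castV (M x.1 ^ (x.2 : ℕ) *ᵥ v x.1)
  have hind : LinearIndependent ℚ f := by
    rw [Fintype.linearIndependent_iff]
    intro g hg x
    -- the components
    set u : ι → (Fin l → ℚ) := fun i => ∑ a : Fin (Q i).natDegree, g ⟨i, a⟩ • f ⟨i, a⟩ with hu
    have hsum : ∑ i, u i = 0 := by
      rw [← hg, Fintype.sum_sigma]
    have hF : ∀ i j, i ≠ j → u i ⬝ᵥ (toQ G *ᵥ u j) = 0 := by
      intro i j hij
      have h1 : ∀ a b, f ⟨i, a⟩ ⬝ᵥ (toQ G *ᵥ f ⟨j, b⟩) = 0 := by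
        intro a b
        show castV _ ⬝ᵥ (toQ G *ᵥ castV _) = 0
        rw [← cast_B, horth i j hij]
        simp
      simp only [hu, Matrix.mulVec_sum, Matrix.mulVec_smul, sum_dotProduct, dotProduct_sum,
        smul_dotProduct, dotProduct_smul, h1, smul_zero, Finset.sum_const_zero]
    have hzero : ∀ j, u j = 0 := by
      intro j
      by_contra hne
      have h1 := hL.pos _ hne
      have h2 : u j ⬝ᵥ (toQ G *ᵥ ∑ i, u i) = u j ⬝ᵥ (toQ G *ᵥ u j) := by
        rw [Matrix.mulVec_sum, dotProduct_sum, Finset.sum_eq_single j]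
        · intro i _ hi
          exact hF j i (Ne.symm hi)
        · simp
      rw [hsum] at h2
      simp only [Matrix.mulVec_zero, dotProduct_zero] at h2
      rw [← h2] at h1
      exact lt_irrefl _ h1
    obtain ⟨j, a⟩ := x
    -- the polynomial
    set A := toQ (M j) with hA
    set p : ℚ[X] := ∑ b : Fin (Q j).natDegree, C (g ⟨j, b⟩) * Polynomial.X ^ (b : ℕ) with hp
    have hpdeg : p.degree < ((Q j).natDegree : ℕ) := degree_sum_fin_lt _
    have hcoeff : p.coeff a = g ⟨j, a⟩ := by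
      rw [hp, finsetSum_coeff, Finset.sum_eq_single a]
      · rw [coeff_C_mul_X_pow, if_pos rfl]
      · intro b _ hb
        rw [coeff_C_mul_X_pow, if_neg]
        intro h
        exact hb (Fin.ext h.symm)
      · simp
    have hpv : aeval A p *ᵥ castV (v j) = u j := by
      rw [hp, map_sum, Matrix.sum_mulVec]
      apply Finset.sum_congr rfl
      intro b _
      rw [map_mul, aeval_C, aeval_X_pow, ← Matrix.mulVec_mulVec, Algebra.algebraMap_eq_smul_one,
        Matrix.smul_mulVec, Matrix.one_mulVec]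
      congr 1
      show _ = castV _
      rw [castV_mulVec, hA, ← Matrix.map_pow]
    have h0 : aeval A (Q j) *ᵥ castV (v j) = 0 := by
      rw [hQ, hA, toQ_aeval, ← castV_mulVec, hP]
      funext i
      simp [castV]
    have hp0 : p = 0 := by
      by_contra hne
      have hnd : ¬ Q j ∣ p := by
        intro hd
        have h1 := Polynomial.natDegree_le_of_dvd hd hne
        rw [Polynomial.degree_eq_natDegree hne] at hpdeg
        have h2 : p.natDegree < (Q j).natDegree := by exact_mod_cast hpdeg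
        omega
      obtain ⟨c, e, hce⟩ := ((hirr j).coprime_iff_not_dvd).2 hnd
      have h4 : aeval A (c * Q j + e * p) *ᵥ castV (v j) = castV (v j) := by
        rw [hce, map_one, Matrix.one_mulVec]
      rw [map_add, map_mul, map_mul, Matrix.add_mulVec, ← Matrix.mulVec_mulVec,
        ← Matrix.mulVec_mulVec, h0, hpv, hzero j, Matrix.mulVec_zero, Matrix.mulVec_zero,
        add_zero] at h4
      exact castV_ne (hv j) h4.symm
    rw [← hcoeff, hp0, coeff_zero]
  have h := hind.fintype_card_le_finrank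
  rw [Module.finrank_fin_fun, Fintype.card_sigma] at h
  simp only [Fintype.card_fin] at h
  exact h

/-- A small totient forces a divisor of `12`. -/
theorem dvd12_of_totient {d : ℕ} (hd : 0 < d) (h : d.totient ≤ 3) : d ∣ 12 := by
  have hφ : 0 < d.totient := Nat.totient_pos.mpr hd
  have hbad : ∀ e : ℕ, e ∣ d → 3 < e.totient → False := by
    intro e he h3
    have h1 := Nat.totient_dvd_of_dvd he
    have h2 := Nat.le_of_dvd hφ h1
    omega
  have hprime : ∀ p : ℕ, p.Prime → p ∣ d → p = 2 ∨ p = 3 := by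
    intro p hp hpd
    by_contra hcon
    push Not at hcon
    have hp5 : 5 ≤ p := by
      have h2 := hp.two_le
      have h4 : p ≠ 4 := by
        rintro rfl
        revert hp
        decide
      omega
    apply hbad p hpd
    rw [Nat.totient_prime hp]
    omega
  have h8 : ¬ 8 ∣ d := fun h8 => hbad 8 h8 (by decide)
  have h9 : ¬ 9 ∣ d := fun h9 => hbad 9 h9 (by decide)
  obtain ⟨a, m, hm, rfl⟩ := Nat.exists_eq_pow_mul_and_not_dvd hd.ne' 2 (by norm_num)
  have hm0 : m ≠ 0 := by
    rintro rfl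
    simp at hd
  obtain ⟨b, n, hn, rfl⟩ := Nat.exists_eq_pow_mul_and_not_dvd hm0 3 (by norm_num)
  have hn0 : n ≠ 0 := by
    rintro rfl
    simp at hm0
  have hn2 : ¬ 2 ∣ n := fun h2 => hm (Dvd.dvd.mul_left h2 _)
  have hn1 : n = 1 := by
    by_contra hne
    have hp := Nat.minFac_prime hne
    have hpd := Nat.minFac_dvd n
    rcases hprime _ hp (hpd.trans (Dvd.intro_left _ (by ring : 2 ^ a * 3 ^ b * n = _))) with h5 | h5
    · rw [h5] at hpd
      exact hn2 hpd
    · rw [h5] at hpd
      exact hn hpd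
  subst hn1
  have ha : a ≤ 2 := by
    by_contra hcon
    apply h8
    have : 3 ≤ a := by omega
    calc 8 = 2 ^ 3 := by norm_num
      _ ∣ 2 ^ a := pow_dvd_pow 2 this
      _ ∣ _ := Dvd.intro _ rfl
  have hb : b ≤ 1 := by
    by_contra hcon
    apply h9
    have : 2 ≤ b := by omega
    calc 9 = 3 ^ 2 := by norm_num
      _ ∣ 3 ^ b := pow_dvd_pow 3 this
      _ ∣ _ := ⟨2 ^ a, by ring⟩
  interval_cases a <;> interval_cases b <;> norm_num

/-- An isometry of finite order in rank seven with the factor `Φ₁₂` has order dividing `12`. -/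
theorem pow12_of (hl : l = 7) {M : Matrix (Fin l) (Fin l) ℤ} {e : ℕ} (he : 0 < e) (hMe : M ^ e = 1)
    {w : Fin l → ℤ} (hw0 : w ≠ 0) (hw : pv M P12 w = 0) : M ^ 12 = 1 := by
  classical
  obtain ⟨f, hf⟩ := dvd_charpoly monic12 irr12 hw0 hw
  have hmon : f.Monic := monic12.of_mul_monic_left (hf ▸ Matrix.charpoly_monic M)
  have hdeg : f.natDegree = 3 := by
    have h1 := congrArg natDegree hf
    rw [Matrix.charpoly_natDegree_eq_dim, Fintype.card_fin, hl, monic12.natDegree_mul hmon,
      natDeg12] at h1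
    omega
  set A := toQ M with hA
  let χ : ℚ[X] := M.charpoly.map (algebraMap ℤ ℚ)
  have hχ0 : aeval A χ = 0 := by
    show aeval (toQ M) (M.charpoly.map (algebraMap ℤ ℚ)) = 0
    rw [toQ_aeval, Matrix.aeval_self_charpoly]
    ext i j
    simp [toQ]
  have hχf : χ = P12.map (algebraMap ℤ ℚ) * f.map (algebraMap ℤ ℚ) := by
    show M.charpoly.map (algebraMap ℤ ℚ) = _
    rw [hf, Polynomial.map_mul]
  have hA_e : A ^ e = 1 := by
    rw [hA, toQ, ← Matrix.map_pow, hMe]
    simp
  let Φ : ℕ → ℚ[X] := fun d => cyclotomic d ℚ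
  have hdiv : ∀ d, 0 < d → Φ d ∣ χ → d ∣ 12 := by
    intro d hd h
    have hirrd : Irreducible (Φ d) := cyclotomic.irreducible_rat hd
    rw [hχf] at h
    rcases (hirrd.prime.dvd_or_dvd h) with h1 | h1
    · have h2 : P12.map (algebraMap ℤ ℚ) = Φ 12 := by
        rw [← cyclotomic_twelve_eq, map_cyclotomic]
      rw [h2] at h1
      have h3 : Φ d = Φ 12 := by
        apply eq_of_monic_of_associated (cyclotomic.monic _ _) (cyclotomic.monic _ _)
        exact hirrd.associated_of_dvd (cyclotomic.irreducible_rat (by norm_num)) h1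
      rw [cyclotomic_injective h3]
    · have h2 := natDegree_le_of_dvd h1 ((hmon.map _).ne_zero)
      rw [hmon.natDegree_map, hdeg] at h2
      have h3 : (Φ d).natDegree = d.totient := natDegree_cyclotomic d ℚ
      rw [h3] at h2
      exact dvd12_of_totient hd h2
  -- the product
  have hprod : aeval A (∏ d ∈ Nat.divisors e, Φ d) = 0 := by
    show aeval A (∏ d ∈ Nat.divisors e, cyclotomic d ℚ) = 0
    rw [prod_cyclotomic_eq_X_pow_sub_one he, map_sub, map_pow, aeval_X, map_one, hA_e, sub_self]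
  set S := (Nat.divisors e).filter (fun d => Φ d ∣ χ) with hS
  set T := (Nat.divisors e).filter (fun d => ¬ Φ d ∣ χ) with hT
  have hST : (∏ d ∈ S, Φ d) * ∏ d ∈ T, Φ d = ∏ d ∈ Nat.divisors e, Φ d :=
    Finset.prod_filter_mul_prod_filter_not (Nat.divisors e) (fun d => Φ d ∣ χ) Φ
  have hcop : IsCoprime (∏ d ∈ T, Φ d) χ := by
    apply IsCoprime.prod_left
    intro d hd
    have h1 := Finset.mem_filter.mp hd
    have hd0 : 0 < d := Nat.pos_of_mem_divisors h1.1
    have hirrd : Irreducible (Φ d) := cyclotomic.irreducible_rat hd0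
    exact (hirrd.coprime_iff_not_dvd).2 h1.2
  have hprodS : aeval A (∏ d ∈ S, Φ d) = 0 := by
    obtain ⟨a, b, hab⟩ := hcop
    have h1 : (a * (∏ d ∈ T, Φ d) + b * χ) * ∏ d ∈ S, Φ d =
        a * ((∏ d ∈ S, Φ d) * ∏ d ∈ T, Φ d) + (b * (∏ d ∈ S, Φ d)) * χ := by ring
    rw [hab, one_mul, hST] at h1
    rw [h1, map_add, map_mul, map_mul, hprod, hχ0, mul_zero, mul_zero, add_zero]
  have hsub : S ⊆ Nat.divisors 12 := by
    intro d hd
    have h1 := Finset.mem_filter.mp hd
    have hd0 : 0 < d := Nat.pos_of_mem_divisors h1.1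
    exact Nat.mem_divisors.mpr ⟨hdiv d hd0 h1.2, by norm_num⟩
  have h12 : A ^ 12 - 1 = 0 := by
    have h1 := prod_cyclotomic_eq_X_pow_sub_one (n := 12) (by norm_num) ℚ
    have h2 := congrArg (aeval A) h1
    rw [map_sub, map_pow, aeval_X, map_one] at h2
    rw [← h2]
    have h3 : ∏ d ∈ Nat.divisors 12, cyclotomic d ℚ = (∏ d ∈ Nat.divisors 12 \ S, Φ d) * ∏ d ∈ S, Φ d :=
      (Finset.prod_sdiff hsub).symm
    rw [h3, map_mul, hprodS, mul_zero]
  have h13 : A ^ 12 = 1 := sub_eq_zero.mp h12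
  rw [hA, toQ, ← Matrix.map_pow] at h13
  ext i j
  have h14 := congrFun (congrFun h13 i) j
  simp only [Matrix.map_apply, Matrix.one_apply] at h14
  rw [Matrix.one_apply]
  split_ifs at h14 ⊢ <;> simpa using h14

end Cfsg.Agent.Lib.ChevTori.LatX
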