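import Cfsg.Agent.Lib.ChevTori.E7
import Cfsg.Agent.Lib.ChevTori.Refl
import Cfsg.Agent.Lib.ChevTori.LatX

/-!
The elements of the Weyl group of `E₇` with an eigenvalue of order `12`: their sixth powers are described by
three pairwise orthogonal coroots permuted cyclically.
-/

set_option autoImplicit false
set_option linter.unusedSectionVars false

namespace Cfsg.Agent.Lib.ChevTori.E7L

open Polynomial Matrix
open Cfsg Cfsg.Lie Cfsg.Agent.Lib.ChevBN.Elem Cfsg.Agent.Lib.ChevBN.Entries Cfsg.Agent.Lib.ChevBN.Table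
open Cfsg.Agent.Lib.ChevBN.Collect Cfsg.Agent.Lib.ChevBN.Rel Cfsg.Agent.Lib.ChevBN.Torus
open Cfsg.Agent.Lib.ChevBN.Monomial Cfsg.Agent.Lib.ChevBN.Core Cfsg.Agent.Lib.ChevBN.Pair
open Cfsg.Agent.Lib.ChevBN.Stmts Cfsg.Agent.Lib.ChevBN.BruhatForm Cfsg.Agent.Lib.ChevBN.Opp
open Cfsg.Agent.Lib.ChevTri.Level Cfsg.Agent.Lib.ChevTri.Datum
open Cfsg.Agent.Lib.BNPair.Basic Cfsg.Agent.Lib.BNPair.Parabolic
open Cfsg.Agent.Lib.ChevOrder.BNCount Cfsg.Agent.Lib.ChevOrder.Chev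
open Cfsg.Agent.Lib.ChevOrder.TorusCard Cfsg.Agent.Lib.ChevBN.Levi
open Cfsg.Agent.Lib.BNPair.CoxeterExchange Cfsg.Agent.Lib.StChar.Top
open Cfsg.Agent.Lib.ChevTori.Act Cfsg.Agent.Lib.ChevTori.LinAlg Cfsg.Agent.Lib.ChevTori.Lat
open Cfsg.Agent.Lib.ChevFix Cfsg.Agent.Lib.ChevTori.Core Cfsg.Agent.Lib.ChevTori.Gram
open Cfsg.Agent.Lib.ChevTori.LatX Cfsg.Agent.Lib.ChevTori.Refl Cfsg.Agent.Lib.ChevTori.E7

section Abstract

variable {l : ℕ} {G M : Matrix (Fin l) (Fin l) ℤ}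

theorem cyclotomic_four_eq : cyclotomic 4 ℤ = Polynomial.X ^ 2 + 1 := by
  have h := cyclotomic_expand_eq_cyclotomic (n := 2) (p := 2) Nat.prime_two (by norm_num) ℤ
  rw [show 2 * 2 = 4 by norm_num] at h
  rw [← h, cyclotomic_two]
  simp [map_add, expand_X]

theorem irr4 : Irreducible ((Polynomial.X ^ 2 + 1 : ℤ[X]).map (algebraMap ℤ ℚ)) := by
  rw [← cyclotomic_four_eq, map_cyclotomic]
  exact cyclotomic.irreducible_rat (by norm_num)

theorem deg4 : ((Polynomial.X ^ 2 + 1 : ℤ[X]).map (algebraMap ℤ ℚ)).natDegree = 2 := by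
  rw [← cyclotomic_four_eq, map_cyclotomic, natDegree_cyclotomic]
  decide

theorem irr1 : Irreducible ((Polynomial.X - 1 : ℤ[X]).map (algebraMap ℤ ℚ)) := by
  have : (Polynomial.X - 1 : ℤ[X]).map (algebraMap ℤ ℚ) = Polynomial.X - Polynomial.C 1 := by
    simp
  rw [this]
  exact irreducible_X_sub_C 1

theorem deg1 : ((Polynomial.X - 1 : ℤ[X]).map (algebraMap ℤ ℚ)).natDegree = 1 := by
  have : (Polynomial.X - 1 : ℤ[X]).map (algebraMap ℤ ℚ) = Polynomial.X - Polynomial.C 1 := by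
    simp
  rw [this, natDegree_X_sub_C]

/-- Orthogonality of the kernels of `Φ₁₂` and `X² + 1`. -/
theorem orth_4_12 (hiso : IsIso G M) {x y : Fin l → ℤ} (hx : pv M P12 x = 0)
    (hy : M ^ 2 *ᵥ y = -y) : B G x y = 0 := by
  have h1 : ∀ z, B G (M ^ 2 *ᵥ z) y = - B G z y := by
    intro z
    have h2 := hiso.pow 2 z y
    rw [hy, B_neg_right] at h2
    omega
  have h2 := congrArg (fun z => B G z y) hx
  simp only [pv_P12, B_add_left, B_sub_left, B_zero_left] at h2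
  have e : M ^ 4 *ᵥ x = M ^ 2 *ᵥ (M ^ 2 *ᵥ x) := by
    rw [← mv_add]
  rw [e, h1, h1] at h2
  omega

theorem three_sq (a b c : ℤ) (h3 : a ^ 2 + b ^ 2 + c ^ 2 = 4) :
    (a = 2 ∨ a = -2) ∧ b = 0 ∧ c = 0 ∨ (b = 2 ∨ b = -2) ∧ a = 0 ∧ c = 0 ∨
      (c = 2 ∨ c = -2) ∧ a = 0 ∧ b = 0 := by
  have ha2 : a ≤ 2 := by nlinarith [sq_nonneg b, sq_nonneg c]
  have ha3 : -2 ≤ a := by nlinarith [sq_nonneg b, sq_nonneg c]
  have hb2 : b ≤ 2 := by nlinarith [sq_nonneg a, sq_nonneg c]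
  have hb3 : -2 ≤ b := by nlinarith [sq_nonneg a, sq_nonneg c]
  have hc2 : c ≤ 2 := by nlinarith [sq_nonneg a, sq_nonneg b]
  have hc3 : -2 ≤ c := by nlinarith [sq_nonneg a, sq_nonneg b]
  interval_cases a <;> interval_cases b <;> interval_cases c <;> first | omega | simp at h3 ⊢

variable (hL : Lt G) (hiso : IsIso G M)
include hL hiso

theorem pow6_comm (x : Fin l → ℤ) : M ^ 6 *ᵥ (M *ᵥ x) = M *ᵥ (M ^ 6 *ᵥ x) := by
  rw [Matrix.mulVec_mulVec, Matrix.mulVec_mulVec, ← pow_succ, ← pow_succ']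

/-- A vector of norm two fixed by `τ` is one of the three vectors. -/
theorem root_of_fix {s : Fin 3 → (Fin l → ℤ)} {τ : (Fin l → ℤ) → (Fin l → ℤ)}
    (hstar : ∀ x, x + τ x = ∑ j, B G (s j) x • s j) {y : Fin l → ℤ} (hτ : τ y = y)
    (hy : B G y y = 2) : ∃ j, y = s j ∨ y = - s j := by
  have h1 := hstar y
  rw [hτ] at h1
  have h2 := congrArg (B G y) h1
  rw [B_add_right, hy, B_sum_right] at h2
  simp only [B_smul_right, Fin.sum_univ_three] at h2
  rw [hL.symm y (s 0), hL.symm y (s 1), hL.symm y (s 2)] at h2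
  set a := B G (s 0) y with ha
  set b := B G (s 1) y with hb
  set c := B G (s 2) y with hc
  have h3 : a ^ 2 + b ^ 2 + c ^ 2 = 4 := by
    nlinarith
  rw [Fin.sum_univ_three, ← ha, ← hb, ← hc] at h1
  have key : ∀ (e : ℤ) (t : Fin l → ℤ), (e = 2 ∨ e = -2) → y + y = e • t → y = t ∨ y = - t := by
    intro e t he ht
    rcases he with rfl | rfl
    · left
      funext i
      have := congrFun ht i
      simp only [Pi.add_apply, Pi.smul_apply, smul_eq_mul] at this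
      omega
    · right
      funext i
      have := congrFun ht i
      simp only [Pi.add_apply, Pi.smul_apply, smul_eq_mul, Pi.neg_apply] at this ⊢
      omega
  rcases three_sq a b c h3 with ⟨he, h5, h6⟩ | ⟨he, h5, h6⟩ | ⟨he, h5, h6⟩
  · refine ⟨0, key a _ he ?_⟩
    rw [h1, h5, h6]
    simp
  · refine ⟨1, key b _ he ?_⟩
    rw [h1, h5, h6]
    simp
  · refine ⟨2, key c _ he ?_⟩
    rw [h1, h5, h6]
    simp

/-- The polynomial identity. -/
theorem poly7 (hl : l = 7) (hM12 : M ^ 12 = 1) {s : Fin 3 → (Fin l → ℤ)}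
    (hs0 : ∀ i, s i ≠ 0) (ho : ∀ i j, i ≠ j → B G (s i) (s j) = 0)
    (hτ : ∀ i, M ^ 6 *ᵥ s i = s i) {w : Fin l → ℤ} (hw0 : w ≠ 0) (hw : pv M P12 w = 0)
    (x : Fin l → ℤ) : M ^ 6 *ᵥ pv M P12 x = pv M P12 x := by
  classical
  set v := M ^ 6 *ᵥ pv M P12 x - pv M P12 x with hv
  have hv4 : M ^ 2 *ᵥ v = -v := by
    have h1 : v = pv M ((Polynomial.X ^ 6 - 1) * P12) x := by
      rw [pv_mul, pv_sub, pv_X_pow, pv_one]
    have h2 : pv M (Polynomial.X ^ 2 + 1) v = 0 := by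
      rw [h1, ← pv_mul]
      have e : (Polynomial.X ^ 2 + 1 : ℤ[X]) * ((Polynomial.X ^ 6 - 1) * P12) = Polynomial.X ^ 12 - 1 := by
        rw [P12]
        ring
      rw [e, pv_sub, pv_X_pow, pv_one, hM12, Matrix.one_mulVec, sub_self]
    rw [pv_add, pv_X_pow, pv_one] at h2
    exact eq_neg_of_add_eq_zero_left h2
  by_contra hne
  have hv0 : v ≠ 0 := fun h0 => hne (sub_eq_zero.mp h0)
  have h6 : ∀ y, M ^ 2 *ᵥ y = -y → M ^ 6 *ᵥ y = -y := by
    intro y hy
    rw [show (6 : ℕ) = 2 + (2 + 2) from rfl, mv_add, mv_add, hy, Matrix.mulVec_neg, hy,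
      Matrix.mulVec_neg, Matrix.mulVec_neg, hy]
    simp
  have hMv : ∀ a : ℕ, M ^ 2 *ᵥ (M ^ a *ᵥ v) = - (M ^ a *ᵥ v) := by
    intro a
    rw [← mv_add, add_comm, mv_add, hv4, Matrix.mulVec_neg]
  have hMw : ∀ a : ℕ, pv M P12 (M ^ a *ᵥ w) = 0 := by
    intro a
    rw [pv_pow, hw, Matrix.mulVec_zero]
  let ι := Option (Option (Fin 3))
  let Ms : ι → Matrix (Fin l) (Fin l) ℤ := fun o => match o with
    | none => M
    | some none => M
    | some (some _) => 1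
  let vs : ι → (Fin l → ℤ) := fun o => match o with
    | none => w
    | some none => v
    | some (some j) => s j
  let Ps : ι → ℤ[X] := fun o => match o with
    | none => P12
    | some none => Polynomial.X ^ 2 + 1
    | some (some _) => Polynomial.X - 1
  have horthws : ∀ (a : ℕ) (j : Fin 3), B G (M ^ a *ᵥ w) (s j) = 0 := by
    intro a j
    rw [hL.symm]
    exact orth_sign (hiso.pow 6) (hτ j) (pow6_of_P12 M (hMw a))
  have horthvs : ∀ (a : ℕ) (j : Fin 3), B G (M ^ a *ᵥ v) (s j) = 0 := by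
    intro a j
    rw [hL.symm]
    exact orth_sign (hiso.pow 6) (hτ j) (h6 _ (hMv a))
  have h1 := sum_deg_le' hL Ms vs Ps
    (by
      rintro (_ | _ | j)
      · exact irr12
      · exact irr4
      · exact irr1)
    (by
      rintro (_ | _ | j)
      · exact hw0
      · exact hv0
      · exact hs0 j)
    (by
      rintro (_ | _ | j)
      · exact hw
      · show aeval M (Polynomial.X ^ 2 + 1 : ℤ[X]) *ᵥ v = 0
        rw [map_add, map_pow, aeval_X, map_one, Matrix.add_mulVec, hv4, Matrix.one_mulVec]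
        simp
      · show aeval (1 : Matrix (Fin l) (Fin l) ℤ) (Polynomial.X - 1 : ℤ[X]) *ᵥ s j = 0
        simp)
    (by
      rintro (_ | _ | i) (_ | _ | j) hij a b
      · exact absurd rfl hij
      · show B G (M ^ a *ᵥ w) (M ^ b *ᵥ v) = 0
        exact orth_4_12 hiso (hMw a) (hMv b)
      · show B G (M ^ a *ᵥ w) ((1 : Matrix (Fin l) (Fin l) ℤ) ^ b *ᵥ s j) = 0
        rw [one_pow, Matrix.one_mulVec]
        exact horthws a j
      · show B G (M ^ a *ᵥ v) (M ^ b *ᵥ w) = 0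
        rw [hL.symm]
        exact orth_4_12 hiso (hMw b) (hMv a)
      · exact absurd rfl hij
      · show B G (M ^ a *ᵥ v) ((1 : Matrix (Fin l) (Fin l) ℤ) ^ b *ᵥ s j) = 0
        rw [one_pow, Matrix.one_mulVec]
        exact horthvs a j
      · show B G ((1 : Matrix (Fin l) (Fin l) ℤ) ^ a *ᵥ s i) (M ^ b *ᵥ w) = 0
        rw [one_pow, Matrix.one_mulVec, hL.symm]
        exact horthws b i
      · show B G ((1 : Matrix (Fin l) (Fin l) ℤ) ^ a *ᵥ s i) (M ^ b *ᵥ v) = 0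
        rw [one_pow, Matrix.one_mulVec, hL.symm]
        exact horthvs b i
      · show B G ((1 : Matrix (Fin l) (Fin l) ℤ) ^ a *ᵥ s i) ((1 : Matrix (Fin l) (Fin l) ℤ) ^ b *ᵥ s j) = 0
        rw [one_pow, one_pow, Matrix.one_mulVec, Matrix.one_mulVec]
        apply ho
        intro e
        exact hij (by rw [e]))
  simp only [ι, Fintype.sum_option, Fin.sum_univ_three] at h1
  have e1 : (Ps none).map (algebraMap ℤ ℚ) = P12.map (algebraMap ℤ ℚ) := rfl
  have e2 : (Ps (some none)).map (algebraMap ℤ ℚ) = (Polynomial.X ^ 2 + 1 : ℤ[X]).map (algebraMap ℤ ℚ) := rfl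
  have e3 : ∀ j, (Ps (some (some j))).map (algebraMap ℤ ℚ) = (Polynomial.X - 1 : ℤ[X]).map (algebraMap ℤ ℚ) :=
    fun _ => rfl
  rw [e1, e2, e3 0, e3 1, e3 2, deg12, deg4, deg1] at h1
  omega

/-- The vector of norm two cannot be an eigenvector of `M`. -/
theorem no_eigen {s : Fin 3 → (Fin l → ℤ)}
    (hstar : ∀ x, x + M ^ 6 *ᵥ x = ∑ j, B G (s j) x • s j)
    (hfix : ∀ x, M ^ 6 *ᵥ pv M P12 x = pv M P12 x) (i : Fin 3)
    (hnb : ∃ x, ¬ (2 : ℤ) ∣ B G (s i) x) {ε : ℤ} (hε : ε = 1 ∨ ε = -1) (hM : M *ᵥ s i = ε • s i) :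
    False := by
  obtain ⟨x, hx⟩ := hnb
  set y := pv M P12 x with hy
  have h1 := hstar y
  rw [hfix] at h1
  have h2 := congrArg (B G y) h1
  rw [B_add_right, B_sum_right] at h2
  simp only [B_smul_right, Fin.sum_univ_three] at h2
  rw [hL.symm y (s 0), hL.symm y (s 1), hL.symm y (s 2)] at h2
  obtain ⟨n, hn⟩ := hL.even y
  have hεε : ε * ε = 1 := by
    rcases hε with rfl | rfl <;> norm_num
  have hk : ∀ z, B G (s i) (M *ᵥ z) = ε * B G (s i) z := by
    intro z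
    have h3 := hiso (s i) z
    rw [hM, B_smul_left] at h3
    rw [← h3, ← mul_assoc, hεε, one_mul]
  have hk2 : ∀ z, B G (s i) (M ^ 2 *ᵥ z) = B G (s i) z := by
    intro z
    rw [pow_two, ← Matrix.mulVec_mulVec, hk, hk, ← mul_assoc, hεε, one_mul]
  have hb : B G (s i) y = B G (s i) x := by
    rw [hy, pv_P12, B_add_right, B_sub_right, show (4 : ℕ) = 2 + 2 from rfl, mv_add, hk2, hk2]
    ring
  have hev : ∀ a b c : ℤ, a ^ 2 + b ^ 2 + c ^ 2 = 4 * n → (2 : ℤ) ∣ a ∧ (2 : ℤ) ∣ b ∧ (2 : ℤ) ∣ c := by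
    intro a b c h
    have key : ∀ a b c : ZMod 4, a ^ 2 + b ^ 2 + c ^ 2 = 0 →
        (a = 0 ∨ a = 2) ∧ (b = 0 ∨ b = 2) ∧ (c = 0 ∨ c = 2) := by decide
    have h4 := congrArg (Int.cast : ℤ → ZMod 4) h
    push_cast at h4
    have h5 : (4 : ZMod 4) = 0 := by decide
    rw [h5, zero_mul] at h4
    have hpar : ∀ t : ℤ, ((t : ZMod 4) = 0 ∨ (t : ZMod 4) = 2) → (2 : ℤ) ∣ t := by
      intro t ht
      have h6 : ((t : ℤ) : ZMod 2) = 0 := by
        have h8 : ((t : ZMod 4).cast : ZMod 2) = (t : ZMod 2) := by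
          exact ZMod.cast_intCast (by norm_num : 2 ∣ 4) t
        rw [← h8]
        rcases ht with h9 | h9 <;> rw [h9] <;> decide
      have := (ZMod.intCast_zmod_eq_zero_iff_dvd t 2).mp h6
      exact_mod_cast this
    obtain ⟨h6, h7, h8⟩ := key _ _ _ h4
    exact ⟨hpar a h6, hpar b h7, hpar c h8⟩
  have h3 : (B G (s 0) y) ^ 2 + (B G (s 1) y) ^ 2 + (B G (s 2) y) ^ 2 = 4 * n := by
    nlinarith
  obtain ⟨h4, h5, h6⟩ := hev _ _ _ h3
  apply hx
  rw [← hb]
  fin_cases i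
  · exact h4
  · exact h5
  · exact h6

/-- The case of one coroot is impossible. -/
theorem no_one {s : Fin l → ℤ} (hs : B G s s = 2)
    (hstar : ∀ x, x + M ^ 6 *ᵥ x = B G s x • s) (hnb : ∃ x, ¬ (2 : ℤ) ∣ B G s x) : False := by
  obtain ⟨x, hx⟩ := hnb
  have hτ : M ^ 6 *ᵥ s = s := by
    have h1 := hstar s
    rw [hs] at h1
    funext i
    have := congrFun h1 i
    simp only [Pi.add_apply, Pi.smul_apply, smul_eq_mul] at this
    omega
  have hy := hstar (M *ᵥ s)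
  rw [pow6_comm hL hiso, hτ] at hy
  have h2 := congrArg (B G (M *ᵥ s)) hy
  rw [B_add_right, hiso, hs, B_smul_right, hL.symm (M *ᵥ s) s] at h2
  set a := B G s (M *ᵥ s) with ha
  have h3 : a = 2 ∨ a = -2 := by
    have h4 : (a - 2) * (a + 2) = 0 := by
      nlinarith
    rcases mul_eq_zero.mp h4 with h5 | h5
    · left
      omega
    · right
      omega
  have hMs : ∃ ε : ℤ, (ε = 1 ∨ ε = -1) ∧ M *ᵥ s = ε • s := by
    rcases h3 with h3 | h3
    · refine ⟨1, Or.inl rfl, ?_⟩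
      rw [h3] at hy
      funext i
      have := congrFun hy i
      simp only [Pi.add_apply, Pi.smul_apply, smul_eq_mul] at this ⊢
      omega
    · refine ⟨-1, Or.inr rfl, ?_⟩
      rw [h3] at hy
      funext i
      have := congrFun hy i
      simp only [Pi.add_apply, Pi.smul_apply, smul_eq_mul] at this ⊢
      omega
  obtain ⟨ε, hε, hMs⟩ := hMs
  have hεε : ε * ε = 1 := by
    rcases hε with rfl | rfl <;> norm_num
  have hk : ∀ z, B G s (M *ᵥ z) = ε * B G s z := by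
    intro z
    have h4 := hiso s z
    rw [hMs, B_smul_left] at h4
    rw [← h4, ← mul_assoc, hεε, one_mul]
  have hk3 : ∀ z, B G s (M ^ 3 *ᵥ z) = ε * B G s z := by
    intro z
    rw [show (3 : ℕ) = 1 + (1 + 1) from rfl, mv_add, mv_add, pow_one, hk, hk, hk, ← mul_assoc, ← mul_assoc,
      hεε, one_mul]
  have h5 := congrArg (B G (M ^ 3 *ᵥ x)) (hstar x)
  rw [B_add_right, B_smul_right, show (6 : ℕ) = 3 + 3 from rfl, mv_add, (hiso.pow 3), hL.symm (M ^ 3 *ᵥ x) s,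
    hL.symm (M ^ 3 *ᵥ x) x, hk3] at h5
  set c := B G x (M ^ 3 *ᵥ x) with hc
  set b := B G s x with hb
  rcases Int.even_or_odd' b with ⟨k, hk' | hk'⟩
  · exact hx ⟨k, hk'⟩
  · rw [hk'] at h5
    have e : ((2 : ℤ) * k + 1) * (ε * (2 * k + 1)) = ε * (2 * (2 * k ^ 2 + 2 * k) + 1) := by ring
    rw [e] at h5
    generalize 2 * k ^ 2 + 2 * k = m at h5
    rcases hε with rfl | rfl <;> omega

/-- The three coroots are permuted cyclically. -/
theorem cycle3 {s : Fin 3 → (Fin l → ℤ)} (hn : ∀ i, B G (s i) (s i) = 2)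
    (ho : ∀ i j, i ≠ j → B G (s i) (s j) = 0)
    (hτ : ∀ i, M ^ 6 *ᵥ s i = s i)
    (hstar : ∀ x, x + M ^ 6 *ᵥ x = ∑ j, B G (s j) x • s j)
    (hfix : ∀ x, M ^ 6 *ᵥ pv M P12 x = pv M P12 x)
    (hnb : ∀ i, ∃ x, ¬ (2 : ℤ) ∣ B G (s i) x) :
    B G (s 0) (M *ᵥ s 0) = 0 ∧ B G (s 0) (M *ᵥ (M *ᵥ s 0)) = 0 ∧
      (M *ᵥ (M *ᵥ (M *ᵥ s 0)) = s 0 ∨ M *ᵥ (M *ᵥ (M *ᵥ s 0)) = - s 0) ∧
      ∀ x, x + M ^ 6 *ᵥ x = B G (s 0) x • s 0 + B G (M *ᵥ s 0) x • (M *ᵥ s 0) +
        B G (M *ᵥ (M *ᵥ s 0)) x • (M *ᵥ (M *ᵥ s 0)) := by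
  have hperm : ∀ i, ∃ j, ∃ ε : ℤ, (ε = 1 ∨ ε = -1) ∧ M *ᵥ s i = ε • s j := by
    intro i
    have h1 : M ^ 6 *ᵥ (M *ᵥ s i) = M *ᵥ s i := by
      rw [pow6_comm hL hiso, hτ]
    have h2 : B G (M *ᵥ s i) (M *ᵥ s i) = 2 := by
      rw [hiso, hn]
    obtain ⟨j, hj⟩ := root_of_fix hL hiso (τ := fun x => M ^ 6 *ᵥ x) hstar h1 h2
    refine ⟨j, ?_⟩
    rcases hj with hj | hj
    · exact ⟨1, Or.inl rfl, by rw [hj, one_smul]⟩
    · exact ⟨-1, Or.inr rfl, by rw [hj, neg_smul, one_smul]⟩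
  choose π ε hε hπ using hperm
  have hεε : ∀ i, ε i * ε i = 1 := by
    intro i
    rcases hε i with h | h <;> rw [h] <;> norm_num
  have hinj : ∀ i j, π i = π j → i = j := by
    intro i j hij
    by_contra hne
    have h1 := hiso (s i) (s j)
    rw [hπ i, hπ j, hij, B_smul_left, B_smul_right, ho i j hne, hn] at h1
    have h2 := hε i
    have h3 := hε j
    rcases h2 with h2 | h2 <;> rcases h3 with h3 | h3 <;> rw [h2, h3] at h1 <;> omega
  have hnf : ∀ i, π i ≠ i := by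
    intro i hi
    have h1 := hπ i
    rw [hi] at h1
    exact no_eigen hL hiso hstar hfix i (hnb i) (hε i) h1
  have hcyc : ∀ π : Fin 3 → Fin 3, (∀ i j, π i = π j → i = j) → (∀ i, π i ≠ i) →
      (π 0 = 1 ∧ π 1 = 2 ∧ π 2 = 0) ∨ (π 0 = 2 ∧ π 2 = 1 ∧ π 1 = 0) := by decide
  have hM2 : ∀ (a : ℤ) (x : Fin l → ℤ), M *ᵥ (a • x) = a • (M *ᵥ x) := fun a x => Matrix.mulVec_smul _ _ _
  have hsq : ∀ (a : ℤ) (t : Fin l → ℤ) (x : Fin l → ℤ), a * a = 1 →
      B G (a • t) x • (a • t) = B G t x • t := by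
    intro a t x ha
    rw [B_smul_left, smul_smul]
    have : a * B G t x * a = B G t x := by
      calc a * B G t x * a = (a * a) * B G t x := by ring
        _ = _ := by rw [ha, one_mul]
    rw [this]
  rcases hcyc π hinj hnf with ⟨h0, h1, h2⟩ | ⟨h0, h2, h1⟩
  · have e1 : M *ᵥ s 0 = ε 0 • s 1 := by rw [hπ 0, h0]
    have e2 : M *ᵥ s 1 = ε 1 • s 2 := by rw [hπ 1, h1]
    have e3 : M *ᵥ s 2 = ε 2 • s 0 := by rw [hπ 2, h2]
    have e4 : M *ᵥ (M *ᵥ s 0) = (ε 0 * ε 1) • s 2 := by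
      rw [e1, hM2, e2, smul_smul]
    refine ⟨?_, ?_, ?_, ?_⟩
    · rw [e1, B_smul_right, ho 0 1 (by decide), mul_zero]
    · rw [e4, B_smul_right, ho 0 2 (by decide), mul_zero]
    · rw [e4, hM2, e3, smul_smul]
      have h5 := hε 0
      have h6 := hε 1
      have h7 := hε 2
      rcases h5 with h5 | h5 <;> rcases h6 with h6 | h6 <;> rcases h7 with h7 | h7 <;>
        rw [h5, h6, h7] <;> norm_num
    · intro x
      rw [hstar x, Fin.sum_univ_three, e4, e1, hsq _ _ _ (hεε 0)]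
      rw [hsq _ _ _ (by
        calc ε 0 * ε 1 * (ε 0 * ε 1) = (ε 0 * ε 0) * (ε 1 * ε 1) := by ring
          _ = 1 := by rw [hεε, hεε, one_mul])]
  · have e1 : M *ᵥ s 0 = ε 0 • s 2 := by rw [hπ 0, h0]
    have e2 : M *ᵥ s 2 = ε 2 • s 1 := by rw [hπ 2, h2]
    have e3 : M *ᵥ s 1 = ε 1 • s 0 := by rw [hπ 1, h1]
    have e4 : M *ᵥ (M *ᵥ s 0) = (ε 0 * ε 2) • s 1 := by
      rw [e1, hM2, e2, smul_smul]
    refine ⟨?_, ?_, ?_, ?_⟩
    · rw [e1, B_smul_right, ho 0 2 (by decide), mul_zero]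
    · rw [e4, B_smul_right, ho 0 1 (by decide), mul_zero]
    · rw [e4, hM2, e3, smul_smul]
      have h5 := hε 0
      have h6 := hε 1
      have h7 := hε 2
      rcases h5 with h5 | h5 <;> rcases h6 with h6 | h6 <;> rcases h7 with h7 | h7 <;>
        rw [h5, h6, h7] <;> norm_num
    · intro x
      rw [hstar x, Fin.sum_univ_three, e4, e1, hsq _ _ _ (hεε 0)]
      rw [hsq _ _ _ (by
        calc ε 0 * ε 2 * (ε 0 * ε 2) = (ε 0 * ε 0) * (ε 2 * ε 2) := by ring
          _ = 1 := by rw [hεε, hεε, one_mul])]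
      abel

/-- The statement for three explicit vectors. -/
theorem cycle3_vec (hl : l = 7) (hM12 : M ^ 12 = 1) {a b c : Fin l → ℤ} (hna : B G a a = 2)
    (hnb : B G b b = 2) (hnc : B G c c = 2) (hab : B G a b = 0) (hac : B G a c = 0) (hbc : B G b c = 0)
    (hτa : M ^ 6 *ᵥ a = a) (hτb : M ^ 6 *ᵥ b = b) (hτc : M ^ 6 *ᵥ c = c)
    (hstar : ∀ x, x + M ^ 6 *ᵥ x = B G a x • a + B G b x • b + B G c x • c)
    {w : Fin l → ℤ} (hw0 : w ≠ 0) (hw : pv M P12 w = 0)
    (h2a : ∃ x, ¬ (2 : ℤ) ∣ B G a x) (h2b : ∃ x, ¬ (2 : ℤ) ∣ B G b x) (h2c : ∃ x, ¬ (2 : ℤ) ∣ B G c x) :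
    B G a (M *ᵥ a) = 0 ∧ B G a (M *ᵥ (M *ᵥ a)) = 0 ∧
      (M *ᵥ (M *ᵥ (M *ᵥ a)) = a ∨ M *ᵥ (M *ᵥ (M *ᵥ a)) = - a) ∧
      (∀ x, x + M ^ 6 *ᵥ x = B G a x • a + B G (M *ᵥ a) x • (M *ᵥ a) +
        B G (M *ᵥ (M *ᵥ a)) x • (M *ᵥ (M *ᵥ a))) ∧
      ∀ x, M ^ 6 *ᵥ pv M P12 x = pv M P12 x := by
  let s : Fin 3 → (Fin l → ℤ) := ![a, b, c]
  have hsn : ∀ i, B G (s i) (s i) = 2 := by
    intro i
    fin_cases i
    · exact hna
    · exact hnb
    · exact hnc
  have hso : ∀ i j, i ≠ j → B G (s i) (s j) = 0 := by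
    intro i j hij
    fin_cases i <;> fin_cases j
    · exact absurd rfl hij
    · exact hab
    · exact hac
    · show B G b a = 0
      rw [hL.symm]
      exact hab
    · exact absurd rfl hij
    · exact hbc
    · show B G c a = 0
      rw [hL.symm]
      exact hac
    · show B G c b = 0
      rw [hL.symm]
      exact hbc
    · exact absurd rfl hij
  have hsτ : ∀ i, M ^ 6 *ᵥ s i = s i := by
    intro i
    fin_cases i
    · exact hτa
    · exact hτb
    · exact hτc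
  have hs00 : ∀ i, s i ≠ 0 := by
    intro i h0
    have h1 := hsn i
    rw [h0, B_zero_left] at h1
    omega
  have hstar' : ∀ x, x + M ^ 6 *ᵥ x = ∑ j, B G (s j) x • s j := by
    intro x
    rw [hstar x, Fin.sum_univ_three]
    rfl
  have hfix := poly7 hL hiso hl hM12 hs00 hso hsτ hw0 hw
  have hnb' : ∀ i, ∃ x, ¬ (2 : ℤ) ∣ B G (s i) x := by
    intro i
    fin_cases i
    · exact h2a
    · exact h2b
    · exact h2c
  obtain ⟨h5, h6, h7, h8⟩ := cycle3 hL hiso hsn hso hsτ hstar' hfix hnb'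
  exact ⟨h5, h6, h7, h8, hfix⟩

end Abstract

section Word

/-- The longest element of the Weyl group of `E₇`. -/
def negWord : List (Fin chevE7.rank) :=
  ([0, 1, 2, 0, 3, 1, 2, 0, 3, 2, 4, 3, 1, 2, 0, 3, 2, 4, 3, 1, 5, 4, 3, 1, 2, 0, 3, 2, 4, 3, 1, 5, 4, 3, 2,
    0, 6, 5, 4, 3, 1, 2, 0, 3, 2, 4, 3, 1, 5, 4, 3, 2, 0, 6, 5, 4, 3, 1, 2, 3, 4, 5, 6] : List (Fin 7))

/-- The action of a simple reflection on a vector. -/
def stepW (i : Fin chevE7.rank) (v : Fin chevE7.rank → ℤ) : Fin chevE7.rank → ℤ := fun j =>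
  v j - (if j = i then ∑ k : Fin chevE7.rank, chevE7.cartan k (chevE7.simple i) * v k else 0)

theorem neg_check : ∀ k : Fin chevE7.rank,
    negWord.foldr stepW (Pi.single k 1) = - (Pi.single k 1 : Fin chevE7.rank → ℤ) := by
  decide +kernel

variable {K : Type*} [Field K] {η : ℕ → ℕ → ℤ} (hR : Sys chevE7 K η) (hT : Tbl chevE7)

theorem matW_pr (l : List (Fin chevE7.rank)) (v : Fin chevE7.rank → ℤ) :
    matW hR hT (pr (fW hR hT) l) *ᵥ v = l.foldr stepW v := by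
  induction l with
  | nil => simp [matW_one]
  | cons i l ih =>
    rw [pr_cons, matW_mul, ← Matrix.mulVec_mulVec, ih, List.foldr_cons]
    funext j
    rw [matW_fW_mulVec]
    rfl

/-- The negative of the identity lies in the Weyl group. -/
theorem exists_neg_one : ∃ w : WW (pair hR hT), matW hR hT w = -1 := by
  refine ⟨pr (fW hR hT) negWord, ?_⟩
  apply Matrix.ext
  intro a b
  have h1 := matW_pr hR hT negWord (Pi.single b 1)
  rw [neg_check, Matrix.mulVec_single_one] at h1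
  have h2 := congrFun h1 a
  rw [Matrix.col_apply] at h2
  rw [h2]
  simp [Matrix.one_apply, Pi.single_apply]

end Word

section Data

variable {K : Type*} [Field K] [Finite K] {η : ℕ → ℕ → ℤ} (hR : Sys chevE7 K η) (hT : Tbl chevE7)

/-- The structure of an element with the eigenvalue of order `12`. -/
structure Dat7 (M : Matrix (Fin chevE7.rank) (Fin chevE7.rank) ℤ) (r : Fin chevE7.rank → ℤ) : Prop where
  norm : B (Gram.gram chevE7) r r = 2
  o1 : B (Gram.gram chevE7) r (M *ᵥ r) = 0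
  o2 : B (Gram.gram chevE7) r (M *ᵥ (M *ᵥ r)) = 0
  m3 : M *ᵥ (M *ᵥ (M *ᵥ r)) = r ∨ M *ᵥ (M *ᵥ (M *ᵥ r)) = - r
  star : ∀ x, x + M ^ 6 *ᵥ x = B (Gram.gram chevE7) r x • r +
    B (Gram.gram chevE7) (M *ᵥ r) x • (M *ᵥ r) +
      B (Gram.gram chevE7) (M *ᵥ (M *ᵥ r)) x • (M *ᵥ (M *ᵥ r))
  fix6 : ∀ x, M ^ 6 *ᵥ pv M P12 x = pv M P12 x
  pow12 : M ^ 12 = 1

theorem hnb (s : Fin chevE7.nroots) : ∃ x, ¬ (2 : ℤ) ∣ B (Gram.gram chevE7) (crV chevE7 s) x := by
  obtain ⟨t, ht⟩ := exists_neighbour s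
  refine ⟨crV chevE7 t, ?_⟩
  rw [hLt.symm, B_crV_crV hSL t s, ht]
  decide

/-- The structure theorem. -/
theorem E7_data (u₀ : WW (pair hR hT)) {w : Fin chevE7.rank → ℤ} (hw0 : w ≠ 0)
    (hw : pv (matW hR hT u₀) P12 w = 0) :
    ∃ ρ : Fin chevE7.nroots, Dat7 (matW hR hT u₀) (crV chevE7 ρ) := by
  classical
  haveI := finite_WW hR hT
  set M := matW hR hT u₀ with hM
  have hiso : IsIso (Gram.gram chevE7) M := isIso hR hT hSL u₀
  have hpow : M ^ orderOf u₀ = 1 := by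
    have h1 := map_pow (matHom hR hT) u₀ (orderOf u₀)
    rw [pow_orderOf_eq_one, map_one, matHom_apply] at h1
    exact h1.symm
  have hM12 : M ^ 12 = 1 := pow12_of rfl (orderOf_pos u₀) hpow hw0 hw
  obtain ⟨wn, hwn⟩ := exists_neg_one hR hT
  have hMp : ∀ k : ℕ, matW hR hT (u₀ ^ k) = M ^ k := by
    intro k
    have h1 := map_pow (matHom hR hT) u₀ k
    simpa using h1
  set U := wn * u₀ ^ 6 with hU
  have hUm : matW hR hT U = -(M ^ 6) := by
    rw [hU, matW_mul, hwn, hMp, neg_mul, one_mul]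
  have hUU : U * U = 1 := by
    apply eq_one_of_matW hR hT
    rw [matW_mul, hUm, neg_mul_neg, ← pow_add, hM12]
  obtain ⟨L, hL1, hL2, hL3, hL4⟩ := inv_struct hR hT hSL hLt hDiag _ U hUU le_rfl
  have hUx : ∀ x, matW hR hT U *ᵥ x = - (M ^ 6 *ᵥ x) := by
    intro x
    rw [hUm, Matrix.neg_mulVec]
  have hτ : ∀ s ∈ L, M ^ 6 *ᵥ crV chevE7 s = crV chevE7 s := by
    intro s hs
    have h1 := hL2 s hs
    rw [hUx] at h1
    exact neg_injective h1
  have hstarL : ∀ x, x + M ^ 6 *ᵥ x =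
      (L.map fun s : Fin chevE7.nroots => B (Gram.gram chevE7) (crV chevE7 s) x • crV chevE7 s).sum := by
    intro x
    rw [← hL3 x, hUx, sub_neg_eq_add]
  have hn : ∀ s : Fin chevE7.nroots, B (Gram.gram chevE7) (crV chevE7 s) (crV chevE7 s) = 2 :=
    crV_norm hR hT hSL hDiag
  have hs0 : ∀ s : Fin chevE7.nroots, crV chevE7 s ≠ 0 := by
    intro s h0
    have h1 := hn s
    rw [h0, B_zero_left] at h1
    omega
  have hMw : ∀ a : ℕ, pv M P12 (M ^ a *ᵥ w) = 0 := by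
    intro a
    rw [pv_pow, hw, Matrix.mulVec_zero]
  -- the parity of the length
  have hdetM : M.det = 1 ∨ M.det = -1 := by
    have h1 : M.det ^ 12 = 1 := by
      rw [← Matrix.det_pow, hM12, Matrix.det_one]
    have h2 : IsUnit M.det := IsUnit.of_pow_eq_one h1 (by norm_num)
    exact Int.isUnit_iff.mp h2
  have hdet : ((-1 : ℤ)) ^ L.length = -1 := by
    rw [← hL4, hUm, Matrix.det_neg, Matrix.det_pow]
    have h1 : Fintype.card (Fin chevE7.rank) = 7 := Fintype.card_fin _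
    rw [h1]
    rcases hdetM with h2 | h2 <;> rw [h2] <;> norm_num
  have hodd : Odd L.length := by
    by_contra hne
    rw [Nat.not_odd_iff_even] at hne
    rw [hne.neg_one_pow] at hdet
    omega
  -- the length is at most three
  have hlen : L.length ≤ 3 := by
    let ι := Option (Fin L.length)
    let Ms : ι → Matrix (Fin chevE7.rank) (Fin chevE7.rank) ℤ := fun o => match o with
      | none => M
      | some _ => 1
    let vs : ι → (Fin chevE7.rank → ℤ) := fun o => match o with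
      | none => w
      | some j => crV chevE7 (L.get j)
    let Ps : ι → ℤ[X] := fun o => match o with
      | none => P12
      | some _ => Polynomial.X - 1
    have horth : ∀ (a : ℕ) (j : Fin L.length), B (Gram.gram chevE7) (M ^ a *ᵥ w) (crV chevE7 (L.get j)) = 0 := by
      intro a j
      rw [hLt.symm]
      exact orth_sign (hiso.pow 6) (hτ _ (List.get_mem _ _)) (pow6_of_P12 M (hMw a))
    have h1 := sum_deg_le' hLt Ms vs Ps
      (by
        rintro (_ | j)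
        · exact irr12
        · exact irr1)
      (by
        rintro (_ | j)
        · exact hw0
        · exact hs0 _)
      (by
        rintro (_ | j)
        · exact hw
        · show aeval (1 : Matrix (Fin chevE7.rank) (Fin chevE7.rank) ℤ) (Polynomial.X - 1 : ℤ[X]) *ᵥ _ = 0
          simp)
      (by
        rintro (_ | i) (_ | j) hij a b
        · exact absurd rfl hij
        · show B (Gram.gram chevE7) (M ^ a *ᵥ w) ((1 : Matrix (Fin chevE7.rank) (Fin chevE7.rank) ℤ) ^ b *ᵥ _) = 0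
          rw [one_pow, Matrix.one_mulVec]
          exact horth a j
        · show B (Gram.gram chevE7) ((1 : Matrix (Fin chevE7.rank) (Fin chevE7.rank) ℤ) ^ a *ᵥ _) (M ^ b *ᵥ w) = 0
          rw [one_pow, Matrix.one_mulVec, hLt.symm]
          exact horth b i
        · show B (Gram.gram chevE7) ((1 : Matrix (Fin chevE7.rank) (Fin chevE7.rank) ℤ) ^ a *ᵥ _)
            ((1 : Matrix (Fin chevE7.rank) (Fin chevE7.rank) ℤ) ^ b *ᵥ _) = 0
          rw [one_pow, one_pow, Matrix.one_mulVec, Matrix.one_mulVec]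
          have hne : i ≠ j := fun e => hij (by rw [e])
          have hp := List.pairwise_iff_get.mp hL1
          rcases lt_or_gt_of_ne hne with h2 | h2
          · exact hp i j h2
          · rw [hLt.symm]
            exact hp j i h2)
    simp only [ι, Fintype.sum_option] at h1
    have e1 : (Ps none).map (algebraMap ℤ ℚ) = P12.map (algebraMap ℤ ℚ) := rfl
    have e3 : ∀ j, (Ps (some j)).map (algebraMap ℤ ℚ) = (Polynomial.X - 1 : ℤ[X]).map (algebraMap ℤ ℚ) :=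
      fun _ => rfl
    rw [e1, deg12] at h1
    simp only [e3, deg1, Finset.sum_const, Finset.card_univ, Fintype.card_fin, smul_eq_mul, mul_one] at h1
    have h2 : chevE7.rank = 7 := rfl
    omega
  have hcases : L.length = 1 ∨ L.length = 3 := by
    obtain ⟨m, hm⟩ := hodd
    omega
  rcases hcases with h1 | h1
  · exfalso
    obtain ⟨s, rfl⟩ := List.length_eq_one_iff.mp h1
    refine no_one hLt hiso (hn s) ?_ (hnb s)
    intro x
    rw [hstarL x]
    simp
  · obtain ⟨a, b, c, rfl⟩ := List.length_eq_three.mp h1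
    simp only [List.pairwise_cons, List.mem_cons, List.not_mem_nil, or_false, forall_eq_or_imp,
      forall_eq, IsEmpty.forall_iff, implies_true, List.Pairwise.nil, and_true] at hL1
    obtain ⟨⟨hab, hac⟩, hbc⟩ := hL1
    have hstar : ∀ x, x + M ^ 6 *ᵥ x = B (Gram.gram chevE7) (crV chevE7 a) x • crV chevE7 a +
        B (Gram.gram chevE7) (crV chevE7 b) x • crV chevE7 b +
          B (Gram.gram chevE7) (crV chevE7 c) x • crV chevE7 c := by
      intro x
      rw [hstarL x]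
      simp only [List.map_cons, List.map_nil, List.sum_cons, List.sum_nil, add_zero]
      abel
    obtain ⟨h5, h6, h7, h8, hfix⟩ := cycle3_vec hLt hiso rfl hM12 (hn a) (hn b) (hn c) hab hac hbc
      (hτ a (by simp)) (hτ b (by simp)) (hτ c (by simp)) hstar hw0 hw (hnb a) (hnb b) (hnb c)
    exact ⟨a, ⟨hn a, h5, h6, h7, h8, hfix, hM12⟩⟩

end Data

end Cfsg.Agent.Lib.ChevTori.E7L
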