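import Cfsg.Agent.Lib.ChevTori.E7A

/-!
The characteristic polynomial of the Weyl group elements attached to the regular elements of order dividing
`Φ₁₂(q) Φ₆(q)` of `E₇(q)`, and the triviality of the stabilizer.
-/

set_option autoImplicit false
set_option linter.unusedSectionVars false

namespace Cfsg.Agent.Lib.ChevTori.E7P

open Polynomial Matrix
open Cfsg Cfsg.Lie Cfsg.Agent.Lib.ChevBN.Elem Cfsg.Agent.Lib.ChevBN.Entries Cfsg.Agent.Lib.ChevBN.Table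
open Cfsg.Agent.Lib.ChevBN.Collect Cfsg.Agent.Lib.ChevBN.Rel Cfsg.Agent.Lib.ChevBN.Torus
open Cfsg.Agent.Lib.ChevBN.Monomial Cfsg.Agent.Lib.ChevBN.Core Cfsg.Agent.Lib.ChevBN.Pair
open Cfsg.Agent.Lib.ChevBN.Stmts Cfsg.Agent.Lib.ChevBN.BruhatForm Cfsg.Agent.Lib.ChevBN.Opp
open Cfsg.Agent.Lib.ChevTri.Level Cfsg.Agent.Lib.ChevTri.Datum
open Cfsg.Agent.Lib.BNPair.Basic Cfsg.Agent.Lib.BNPair.Parabolic
open Cfsg.Agent.Lib.ChevOrder.BNCount Cfsg.Agent.Lib.ChevOrder.Chev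
open Cfsg.Agent.Lib.ChevOrder.TorusCard Cfsg.Agent.Lib.ChevBN.Levi
open Cfsg.Agent.Lib.BNPair.CoxeterExchange Cfsg.Agent.Lib.StChar.Top
open Cfsg.Agent.Lib.ChevTori.Act Cfsg.Agent.Lib.ChevTori.LinAlg Cfsg.Agent.Lib.ChevTori.Lat
open Cfsg.Agent.Lib.ChevFix Cfsg.Agent.Lib.ChevTori.Core Cfsg.Agent.Lib.ChevTori.Gram
open Cfsg.Agent.Lib.ChevTori.LatX Cfsg.Agent.Lib.ChevTori.Refl Cfsg.Agent.Lib.ChevTori.E7
open Cfsg.Agent.Lib.ChevTori.E7L Cfsg.Agent.Lib.ChevTori.E7S Cfsg.Agent.Lib.ChevTori.E7F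
open Cfsg.Agent.Lib.ChevTori.E7A

section Poly

/-- The polynomial `X + 1`. -/
noncomputable def Pa : ℤ[X] := Polynomial.X + 1

/-- The polynomial `X² - X + 1`. -/
noncomputable def Pb : ℤ[X] := Polynomial.X ^ 2 - Polynomial.X + 1

theorem Pb_eq : cyclotomic 6 ℤ = Pb := by
  have h : (cyclotomic 6 ℤ) * (Polynomial.X ^ 3 - 1) * (Polynomial.X + 1) = (Polynomial.X ^ 6 - 1) := by
    have h6 : (∏ i ∈ Nat.divisors 6, cyclotomic i ℤ) = Polynomial.X ^ 6 - 1 := prod_cyclotomic_eq_X_pow_sub_one (by norm_num) ℤ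
    have h3 : (∏ i ∈ Nat.divisors 3, cyclotomic i ℤ) = Polynomial.X ^ 3 - 1 := prod_cyclotomic_eq_X_pow_sub_one (by norm_num) ℤ
    have e6 : Nat.divisors 6 = {1, 2, 3, 6} := by decide
    have e3 : Nat.divisors 3 = {1, 3} := by decide
    rw [e6] at h6
    rw [e3] at h3
    rw [Finset.prod_insert (by decide), Finset.prod_insert (by decide), Finset.prod_insert (by decide),
      Finset.prod_singleton] at h6
    rw [Finset.prod_insert (by decide), Finset.prod_singleton] at h3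
    rw [← h6, ← h3, cyclotomic_two]
    ring
  have h2 : ((Polynomial.X ^ 3 - 1) * (Polynomial.X + 1) : ℤ[X]) ≠ 0 := by
    have h3 : ((Polynomial.X ^ 3 - 1) * (Polynomial.X + 1) : ℤ[X]).Monic :=
      (monic_X_pow_sub_C (1 : ℤ) (by norm_num : 3 ≠ 0)).mul (monic_X_add_C (1 : ℤ))
    exact h3.ne_zero
  apply mul_right_cancel₀ h2
  rw [← mul_assoc, h, Pb]
  ring

theorem monicPa : Pa.Monic := monic_X_add_C (1 : ℤ)

theorem monicPb : Pb.Monic := by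
  rw [← Pb_eq]
  exact cyclotomic.monic _ _

theorem irrPb : Irreducible (Pb.map (algebraMap ℤ ℚ)) := by
  rw [← Pb_eq, map_cyclotomic]
  exact cyclotomic.irreducible_rat (by norm_num)

theorem degPb : (Pb.map (algebraMap ℤ ℚ)).natDegree = 2 := by
  rw [← Pb_eq, map_cyclotomic, natDegree_cyclotomic]
  decide

theorem irrPa : Irreducible (Pa.map (algebraMap ℤ ℚ)) := by
  have e : Pa.map (algebraMap ℤ ℚ) = Polynomial.X + 1 := by
    simp [Pa]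
  rw [e]
  exact irreducible_of_degree_eq_one (degree_X_add_C (1 : ℚ))

theorem degPa : (Pa.map (algebraMap ℤ ℚ)).natDegree = 1 := by
  have e : Pa.map (algebraMap ℤ ℚ) = Polynomial.X + Polynomial.C 1 := by
    simp [Pa]
  rw [e, natDegree_X_add_C]

/-- Distinct degrees make irreducibles coprime. -/
theorem coprime_of_deg {a b : ℚ[X]} (ha : Irreducible a) (hb : Irreducible b) (h : a.natDegree ≠ b.natDegree) :
    IsCoprime a b := by
  apply (ha.coprime_iff_not_dvd).2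
  intro hd
  have h1 := (ha.dvd_irreducible_iff_associated hb).mp hd
  apply h
  exact natDegree_eq_of_degree_eq (degree_eq_degree_of_associated h1)

end Poly

section Char

variable {l : ℕ} {G M : Matrix (Fin l) (Fin l) ℤ}

/-- The characteristic polynomial. -/
theorem charpoly_of (hl : l = 7) (hiso : IsIso G M) {r : Fin l → ℤ} (hn : B G r r = 2)
    (ho1 : B G r (M *ᵥ r) = 0) (ho2 : B G r (M *ᵥ (M *ᵥ r)) = 0)
    (hm3 : M *ᵥ (M *ᵥ (M *ᵥ r)) = -r) {y : Fin l → ℤ} (hy0 : y ≠ 0) (hy : pv M P12 y = 0) :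
    M.charpoly = (Polynomial.X ^ 3 + 1) * P12 := by
  set v₁ := r - M *ᵥ r + M *ᵥ (M *ᵥ r) with hv₁
  set v₂ := r + M *ᵥ r with hv₂
  have hv₁0 : v₁ ≠ 0 := by
    intro h0
    have h1 : B G r v₁ = 2 := by
      rw [hv₁, B_add_right, B_sub_right, hn, ho1, ho2]
      norm_num
    rw [h0] at h1
    simp [B] at h1
  have hv₂0 : v₂ ≠ 0 := by
    intro h0
    have h1 : B G r v₂ = 2 := by
      rw [hv₂, B_add_right, hn, ho1]
      norm_num
    rw [h0] at h1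
    simp [B] at h1
  have ha : aeval M Pa *ᵥ v₁ = 0 := by
    rw [Pa, map_add, aeval_X, map_one, Matrix.add_mulVec, Matrix.one_mulVec, hv₁, Matrix.mulVec_add,
      Matrix.mulVec_sub, hm3]
    abel
  have hb : aeval M Pb *ᵥ v₂ = 0 := by
    rw [Pb, map_add, map_sub, map_pow, aeval_X, map_one, Matrix.add_mulVec, Matrix.sub_mulVec, Matrix.one_mulVec,
      sq, ← Matrix.mulVec_mulVec, hv₂, Matrix.mulVec_add, Matrix.mulVec_add, hm3]
    abel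
  have d1 := dvd_charpoly monicPa irrPa hv₁0 ha
  have d2 := dvd_charpoly monicPb irrPb hv₂0 hb
  have d3 := dvd_charpoly monic12 irr12 hy0 hy
  have hmap : Function.Injective (Polynomial.map (algebraMap ℤ ℚ)) :=
    Polynomial.map_injective _ (RingHom.injective_int _)
  have c12 : IsCoprime (Pa.map (algebraMap ℤ ℚ)) (Pb.map (algebraMap ℤ ℚ)) :=
    coprime_of_deg irrPa irrPb (by rw [degPa, degPb]; norm_num)
  have c13 : IsCoprime (Pa.map (algebraMap ℤ ℚ)) (P12.map (algebraMap ℤ ℚ)) :=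
    coprime_of_deg irrPa irr12 (by rw [degPa, deg12]; norm_num)
  have c23 : IsCoprime (Pb.map (algebraMap ℤ ℚ)) (P12.map (algebraMap ℤ ℚ)) :=
    coprime_of_deg irrPb irr12 (by rw [degPb, deg12]; norm_num)
  have dA := Polynomial.map_dvd (algebraMap ℤ ℚ) d1
  have dB := Polynomial.map_dvd (algebraMap ℤ ℚ) d2
  have dC := Polynomial.map_dvd (algebraMap ℤ ℚ) d3
  have dAB := c12.mul_dvd dA dB
  have dABC := (c13.mul_left c23).mul_dvd dAB dC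
  rw [← Polynomial.map_mul, ← Polynomial.map_mul] at dABC
  have hmon : (Pa * Pb * P12).Monic := (monicPa.mul monicPb).mul monic12
  have hdeg : (Pa * Pb * P12).natDegree = 7 := by
    rw [Monic.natDegree_mul (monicPa.mul monicPb) monic12, Monic.natDegree_mul monicPa monicPb, natDeg12]
    have e1 : Pa.natDegree = 1 := natDegree_X_add_C (1 : ℤ)
    have e2 : Pb.natDegree = 2 := by
      rw [← Pb_eq, natDegree_cyclotomic]
      decide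
    rw [e1, e2]
  have hχ : M.charpoly.natDegree = 7 := by
    rw [Matrix.charpoly_natDegree_eq_dim]
    simp [hl]
  have hmap_eq : M.charpoly.map (algebraMap ℤ ℚ) = (Pa * Pb * P12).map (algebraMap ℤ ℚ) := by
    apply eq_of_monic_of_dvd_of_natDegree_le (hmon.map _) ((Matrix.charpoly_monic M).map _) dABC
    rw [natDegree_map_eq_of_injective (RingHom.injective_int _),
      natDegree_map_eq_of_injective (RingHom.injective_int _), hχ, hdeg]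
  have h := hmap hmap_eq
  rw [h, Pa, Pb]
  ring

end Char

section Sign

variable {l : ℕ} {G M : Matrix (Fin l) (Fin l) ℤ}

/-- The sign in the relation for the third power of `M`, and the values of the form at a vector of
eigenvalue `q`, when `q³ = -1`. -/
theorem sign_lemma {r : Fin l → ℤ} (hiso : IsIso G M)
    (hm3 : M *ᵥ (M *ᵥ (M *ᵥ r)) = r ∨ M *ᵥ (M *ᵥ (M *ᵥ r)) = -r)
    (hstar : ∀ x, x + M ^ 6 *ᵥ x = B G r x • r + B G (M *ᵥ r) x • (M *ᵥ r) +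
      B G (M *ᵥ (M *ᵥ r)) x • (M *ᵥ (M *ᵥ r)))
    {ℓ : ℕ} [hℓ : Fact ℓ.Prime] (hℓ2 : ℓ ≠ 2) {b : Fin l → ℤ} (hb : red ℓ b ≠ 0) {q : ℤ}
    (hq : (q : ZMod ℓ) ^ 3 = -1) (hMb : red ℓ (M *ᵥ b) = (q : ZMod ℓ) • red ℓ b) :
    M *ᵥ (M *ᵥ (M *ᵥ r)) = -r ∧ ∀ j : Fin 3,
      ((B G ((![r, M *ᵥ r, M *ᵥ (M *ᵥ r)] : Fin 3 → (Fin l → ℤ)) j) b : ℤ) : ZMod ℓ) ≠ 0 := by
  have h2 : (2 : ZMod ℓ) ≠ 0 := by
    have h3 : ((2 : ℕ) : ZMod ℓ) ≠ 0 := by
      intro h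
      rw [ZMod.natCast_eq_zero_iff] at h
      exact hℓ2 ((Nat.prime_dvd_prime_iff_eq hℓ.out Nat.prime_two).mp h)
    simpa using h3
  have hq0 : (q : ZMod ℓ) ≠ 0 := by
    intro h0
    rw [h0, zero_pow (by norm_num)] at hq
    have : (1 : ZMod ℓ) = 0 := by linear_combination hq
    exact one_ne_zero this
  have rel : ∀ x, ((B G x b : ℤ) : ZMod ℓ) = (q : ZMod ℓ) * ((B G (M *ᵥ x) b : ℤ) : ZMod ℓ) := by
    intro x
    rw [← hiso x b]
    exact cast_B_congr _ hMb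
  set a₀ := ((B G r b : ℤ) : ZMod ℓ) with ha₀
  set a₁ := ((B G (M *ᵥ r) b : ℤ) : ZMod ℓ) with ha₁
  set a₂ := ((B G (M *ᵥ (M *ᵥ r)) b : ℤ) : ZMod ℓ) with ha₂
  have r0 : a₀ = (q : ZMod ℓ) * a₁ := rel r
  have r1 : a₁ = (q : ZMod ℓ) * a₂ := rel (M *ᵥ r)
  have h6 : red ℓ (M ^ 6 *ᵥ b) = (q : ZMod ℓ) ^ 6 • red ℓ b := by
    have h1 := red_aeval ℓ hMb (Polynomial.X ^ 6)
    simpa using h1
  have hq6 : (q : ZMod ℓ) ^ 6 = 1 := by
    calc (q : ZMod ℓ) ^ 6 = ((q : ZMod ℓ) ^ 3) ^ 2 := by ring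
      _ = 1 := by rw [hq]; ring
  have hnot : ¬ (a₀ = 0 ∧ a₁ = 0 ∧ a₂ = 0) := by
    rintro ⟨e0, e1, e2⟩
    apply hb
    funext i
    have h7 := congrFun (hstar b) i
    have h8 := congrArg (fun z : ℤ => (z : ZMod ℓ)) h7
    have h9 := congrFun h6 i
    simp only [Pi.add_apply, Pi.smul_apply, smul_eq_mul, Int.cast_add, Int.cast_mul, red, hq6, one_mul] at h8 h9
    rw [← ha₀, ← ha₁, ← ha₂, e0, e1, e2, h9] at h8
    simp only [zero_mul, add_zero] at h8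
    have h10 : (2 : ZMod ℓ) * ((b i : ℤ) : ZMod ℓ) = 0 := by
      linear_combination h8
    exact (mul_eq_zero.mp h10).resolve_left h2
  have hne : a₀ ≠ 0 ∧ a₁ ≠ 0 ∧ a₂ ≠ 0 := by
    have e10 : a₀ = 0 ↔ a₁ = 0 := by
      rw [r0]
      simp [hq0]
    have e21 : a₁ = 0 ↔ a₂ = 0 := by
      rw [r1]
      simp [hq0]
    by_cases h0 : a₀ = 0
    · exact absurd ⟨h0, e10.mp h0, e21.mp (e10.mp h0)⟩ hnot
    · exact ⟨h0, fun h => h0 (e10.mpr h), fun h => h0 (e10.mpr (e21.mpr h))⟩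
  refine ⟨?_, ?_⟩
  · rcases hm3 with h | h
    · exfalso
      have e : a₂ = (q : ZMod ℓ) * a₀ := by
        have := rel (M *ᵥ (M *ᵥ r))
        rw [h] at this
        exact this
      have e3 : a₀ = (q : ZMod ℓ) ^ 3 * a₀ := by
        calc a₀ = (q : ZMod ℓ) * ((q : ZMod ℓ) * ((q : ZMod ℓ) * a₀)) := by rw [← e, ← r1, ← r0]
          _ = _ := by ring
      rw [hq] at e3
      have e4 : (2 : ZMod ℓ) * a₀ = 0 := by linear_combination e3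
      exact hne.1 ((mul_eq_zero.mp e4).resolve_left h2)
    · exact h
  · intro j
    fin_cases j
    · exact hne.1
    · exact hne.2.1
    · exact hne.2.2

end Sign

section Weyl

variable {K : Type*} [Field K] [Finite K] {η : ℕ → ℕ → ℤ} (hR : Sys chevE7 K η) (hT : Tbl chevE7)

/-- The Weyl group elements attached to regular elements. -/
theorem weyl7 {ℓ₁ ℓ₂ q : ℕ} [hℓ₁ : Fact ℓ₁.Prime] [hℓ₂ : Fact ℓ₂.Prime] (hℓ₁2 : ℓ₁ ≠ 2) (hℓ₂2 : ℓ₂ ≠ 2)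
    (hℓW : ¬ ℓ₁ ∣ Nat.card (WW (pair hR hT))) (hprim : IsPrimitiveRoot ((q : ℤ) : ZMod ℓ₁) 12)
    (hq3 : ((q : ℤ) : ZMod ℓ₂) ^ 3 = -1)
    (w₀ : WW (pair hR hT)) {b₁ b₂ : Fin chevE7.rank → ℤ} (hb₁ : red ℓ₁ b₁ ≠ 0) (hb₂ : red ℓ₂ b₂ ≠ 0)
    (hM₁ : red ℓ₁ (matW hR hT w₀ *ᵥ b₁) = ((q : ℤ) : ZMod ℓ₁) • red ℓ₁ b₁)
    (hM₂ : red ℓ₂ (matW hR hT w₀ *ᵥ b₂) = ((q : ℤ) : ZMod ℓ₂) • red ℓ₂ b₂) :
    (∃ r, Dat7 (matW hR hT w₀) r ∧ matW hR hT w₀ *ᵥ (matW hR hT w₀ *ᵥ (matW hR hT w₀ *ᵥ r)) = -r) ∧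
      (matW hR hT w₀).charpoly = (Polynomial.X ^ 3 + 1) * P12 ∧
      ∀ u : WW (pair hR hT), red ℓ₁ (matW hR hT u *ᵥ b₁) = red ℓ₁ b₁ →
        red ℓ₂ (matW hR hT u *ᵥ b₂) = red ℓ₂ b₂ → u = 1 := by
  classical
  haveI := finite_WW hR hT
  have hpow : matW hR hT w₀ ^ orderOf w₀ = 1 := by
    have h1 := map_pow (matHom hR hT) w₀ (orderOf w₀)
    rw [pow_orderOf_eq_one, map_one, matHom_apply] at h1
    exact h1.symm
  have hnd : ¬ ℓ₁ ∣ orderOf w₀ := fun h1 => hℓW (h1.trans (orderOf_dvd_natCard w₀))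
  obtain ⟨v, hv0, hv⟩ := exists_vec (orderOf_pos w₀) hpow hnd hprim hb₁ hM₁
  rw [cyclotomic_twelve_eq] at hv
  obtain ⟨ρ, hd⟩ := E7_data hR hT w₀ hv0 hv
  have hiso := isIso hR hT hSL w₀
  obtain ⟨hm3, hne⟩ := sign_lemma hiso hd.m3 hd.star hℓ₂2 hb₂ hq3 hM₂
  have hq6 : (((q : ℤ) : ZMod ℓ₁)) ^ 6 = -1 := by
    have h1 : (((q : ℤ) : ZMod ℓ₁)) ^ 6 ≠ 1 := hprim.pow_ne_one_of_pos_of_lt (by norm_num) (by norm_num)
    have h2 : ((((q : ℤ) : ZMod ℓ₁)) ^ 6 - 1) * (((((q : ℤ) : ZMod ℓ₁)) ^ 6) + 1) = 0 := by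
      have h3 := hprim.pow_eq_one
      linear_combination h3
    rcases mul_eq_zero.mp h2 with h3 | h3
    · exact absurd (sub_eq_zero.mp h3) h1
    · exact eq_neg_of_add_eq_zero_left h3
  refine ⟨⟨_, hd, hm3⟩, charpoly_of rfl hiso hd.norm hd.o1 hd.o2 hm3 hv0 hv, ?_⟩
  intro u hu hu'
  exact stab_two hR hT w₀ hd hℓ₁2 hℓW hb₁ hq6 hM₁ hℓ₂2 hne u hu hu'

end Weyl

section Split

/-- Splitting an equation into its primary parts. -/
theorem split_eq {μ : Type*} [CommGroup μ] {ℓ₁ ℓ₂ : ℕ} (hco : Nat.Coprime ℓ₁ ℓ₂) (hℓ₁ : 1 < ℓ₁) {c₁ c₂ : μ}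
    (h1 : c₁ ^ ℓ₁ = 1) (h2 : c₂ ^ ℓ₂ = 1) (f : μ →* μ) (q : ℕ) (h : f (c₁ * c₂) = (c₁ * c₂) ^ q) :
    f c₁ = c₁ ^ q := by
  obtain ⟨k, -, hk⟩ := Nat.exists_mul_mod_eq_one_of_coprime hco.symm hℓ₁
  have e1 : c₁ ^ (ℓ₂ * k) = c₁ := by
    have h3 : ℓ₂ * k = ℓ₁ * ((ℓ₂ * k) / ℓ₁) + 1 := by
      have := Nat.div_add_mod (ℓ₂ * k) ℓ₁
      rw [hk] at this
      exact this.symm
    rw [h3, pow_succ, pow_mul, h1, one_pow, one_mul]
  have e2 : c₂ ^ (ℓ₂ * k) = 1 := by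
    rw [pow_mul, h2, one_pow]
  have e3 : (c₁ * c₂) ^ (ℓ₂ * k) = c₁ := by
    rw [mul_pow, e1, e2, mul_one]
  rw [← e3, map_pow, h, ← pow_mul, ← pow_mul, Nat.mul_comm q]

end Split

end Cfsg.Agent.Lib.ChevTori.E7P
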