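import Cfsg.Agent.Lib.ChevTori.E7L

/-!
The stabilizer in the Weyl group of `E₇` of an eigenvector modulo a prime for an element with an
eigenvalue of order `12`: it consists of products of reflections in the three coroots.
-/

set_option autoImplicit false
set_option linter.unusedSectionVars false

namespace Cfsg.Agent.Lib.ChevTori.E7S

open Polynomial Matrix
open Cfsg Cfsg.Lie Cfsg.Agent.Lib.ChevBN.Elem Cfsg.Agent.Lib.ChevBN.Entries Cfsg.Agent.Lib.ChevBN.Table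
open Cfsg.Agent.Lib.ChevBN.Collect Cfsg.Agent.Lib.ChevBN.Rel Cfsg.Agent.Lib.ChevBN.Torus
open Cfsg.Agent.Lib.ChevBN.Monomial Cfsg.Agent.Lib.ChevBN.Core Cfsg.Agent.Lib.ChevBN.Pair
open Cfsg.Agent.Lib.ChevBN.Stmts Cfsg.Agent.Lib.ChevBN.BruhatForm Cfsg.Agent.Lib.ChevBN.Opp
open Cfsg.Agent.Lib.ChevTri.Level Cfsg.Agent.Lib.ChevTri.Datum
open Cfsg.Agent.Lib.BNPair.Basic Cfsg.Agent.Lib.BNPair.Parabolic
open Cfsg.Agent.Lib.ChevOrder.BNCount Cfsg.Agent.Lib.ChevOrder.Chev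
open Cfsg.Agent.Lib.ChevOrder.TorusCard Cfsg.Agent.Lib.ChevBN.Levi
open Cfsg.Agent.Lib.BNPair.CoxeterExchange Cfsg.Agent.Lib.StChar.Top
open Cfsg.Agent.Lib.ChevTori.Act Cfsg.Agent.Lib.ChevTori.LinAlg Cfsg.Agent.Lib.ChevTori.Lat
open Cfsg.Agent.Lib.ChevFix Cfsg.Agent.Lib.ChevTori.Core Cfsg.Agent.Lib.ChevTori.Gram
open Cfsg.Agent.Lib.ChevTori.LatX Cfsg.Agent.Lib.ChevTori.Refl Cfsg.Agent.Lib.ChevTori.E7
open Cfsg.Agent.Lib.ChevTori.E7L

section Reduction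

variable {l : ℕ} {G : Matrix (Fin l) (Fin l) ℤ}

/-- The form modulo `ℓ`. -/
theorem cast_B_red (ℓ : ℕ) (y x : Fin l → ℤ) :
    ((B G y x : ℤ) : ZMod ℓ) = red ℓ y ⬝ᵥ (G.map (Int.castRingHom (ZMod ℓ)) *ᵥ red ℓ x) := by
  rw [← red_mulVec]
  simp [B, dotProduct, red]

theorem cast_B_congr {ℓ : ℕ} (y : Fin l → ℤ) {x x' : Fin l → ℤ} {c : ZMod ℓ}
    (h : red ℓ x = c • red ℓ x') :
    ((B G y x : ℤ) : ZMod ℓ) = c * ((B G y x' : ℤ) : ZMod ℓ) := by
  rw [cast_B_red, cast_B_red, h, Matrix.mulVec_smul, dotProduct_smul, smul_eq_mul]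

end Reduction

section Abstract

variable {l : ℕ} {G M : Matrix (Fin l) (Fin l) ℤ}
variable (hL : Lt G) (hiso : IsIso G M)
include hL hiso

/-- A vector of norm two orthogonal to a cyclic subspace for `Φ₁₂`. -/
theorem orth_root (hl : l = 7) (hM12 : M ^ 12 = 1) (hfix : ∀ x, M ^ 6 *ᵥ pv M P12 x = pv M P12 x)
    {y : Fin l → ℤ} (hy0 : y ≠ 0) (hy : pv M P12 y = 0) {s : Fin l → ℤ}
    (hs : ∀ n : ℕ, B G s (M ^ n *ᵥ y) = 0) : M ^ 6 *ᵥ s = s := by
  by_contra hne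
  set s₂ := M ^ 6 *ᵥ s - s with hs₂
  have hs₂0 : s₂ ≠ 0 := fun h0 => hne (sub_eq_zero.mp h0)
  have hs₂12 : pv M P12 s₂ = 0 := by
    rw [hs₂, pv_sub_right, pv_pow, hfix, sub_self]
  have hMy : ∀ n : ℕ, M ^ 6 *ᵥ (M ^ n *ᵥ y) = - (M ^ n *ᵥ y) := by
    intro n
    apply pow6_of_P12
    rw [pv_pow, hy, Matrix.mulVec_zero]
  have h1 : ∀ n : ℕ, B G s₂ (M ^ n *ᵥ y) = 0 := by
    intro n
    have h2 := (hiso.pow 6) s (- (M ^ n *ᵥ y))
    rw [Matrix.mulVec_neg, hMy, neg_neg, B_neg_right, hs n] at h2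
    rw [hs₂, B_sub_left, h2, hs n]
    simp
  have h2 : ∀ a b : ℕ, B G (M ^ a *ᵥ s₂) (M ^ b *ᵥ y) = 0 := by
    intro a b
    have e : M ^ b *ᵥ y = M ^ a *ᵥ (M ^ (11 * a + b) *ᵥ y) := by
      rw [← mv_add, show a + (11 * a + b) = b + 12 * a by ring, mv_add, pow_mul, hM12, one_pow,
        Matrix.one_mulVec]
    rw [e, hiso.pow a]
    exact h1 _
  have h3 := sum_deg_le hL M ![y, s₂] ![P12, P12]
    (by
      intro i
      fin_cases i
      · exact irr12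
      · exact irr12)
    (by
      intro i
      fin_cases i
      · exact hy0
      · exact hs₂0)
    (by
      intro i
      fin_cases i
      · exact hy
      · exact hs₂12)
    (by
      intro i j hij c d
      fin_cases i <;> fin_cases j
      · exact absurd rfl hij
      · show B G (M ^ c *ᵥ y) (M ^ d *ᵥ s₂) = 0
        rw [hL.symm]
        exact h2 d c
      · exact h2 c d
      · exact absurd rfl hij)
  simp only [Fin.sum_univ_two] at h3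
  have h12 : ((![P12, P12] : Fin 2 → ℤ[X]) 0).map (algebraMap ℤ ℚ) = P12.map (algebraMap ℤ ℚ) := rfl
  have h13 : ((![P12, P12] : Fin 2 → ℤ[X]) 1).map (algebraMap ℤ ℚ) = P12.map (algebraMap ℤ ℚ) := rfl
  rw [h12, h13, deg12] at h3
  omega

/-- The vectors of norm two fixed by the sixth power. -/
theorem root_cases {r : Fin l → ℤ}
    (hstar : ∀ x, x + M ^ 6 *ᵥ x = B G r x • r + B G (M *ᵥ r) x • (M *ᵥ r) +
      B G (M *ᵥ (M *ᵥ r)) x • (M *ᵥ (M *ᵥ r))) {s : Fin l → ℤ} (hs : B G s s = 2)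
    (h6 : M ^ 6 *ᵥ s = s) :
    ∃ j : Fin 3, s = (![r, M *ᵥ r, M *ᵥ (M *ᵥ r)] : Fin 3 → (Fin l → ℤ)) j ∨
      s = - (![r, M *ᵥ r, M *ᵥ (M *ᵥ r)] : Fin 3 → (Fin l → ℤ)) j := by
  refine root_of_fix hL hiso (τ := fun x => M ^ 6 *ᵥ x) ?_ h6 hs
  intro x
  rw [hstar x, Fin.sum_univ_three]
  rfl

end Abstract

section Closure

variable {l : ℕ} {G : Matrix (Fin l) (Fin l) ℤ}

/-- The form of the elements of a group generated by reflections in three orthogonal vectors. -/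
theorem closure_form {W : Type*} [Group W] (ρ : W →* Matrix (Fin l) (Fin l) ℤ)
    {rr : Fin 3 → (Fin l → ℤ)} (hB : ∀ i j, B G (rr i) (rr j) = if i = j then 2 else 0)
    {T : Set W} (hT : ∀ g ∈ T, ∃ k, ∀ x, ρ g *ᵥ x = x - B G (rr k) x • rr k)
    {u : W} (hu : u ∈ Subgroup.closure T) :
    (∀ j, ρ u *ᵥ rr j = rr j ∨ ρ u *ᵥ rr j = - rr j) ∧
      ∀ x, (∀ j, B G (rr j) x = 0) → ρ u *ᵥ x = x := by
  have hinv : ∀ g : W, ∀ t, ρ g⁻¹ *ᵥ (ρ g *ᵥ t) = t := by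
    intro g t
    rw [Matrix.mulVec_mulVec, ← map_mul, inv_mul_cancel, map_one, Matrix.one_mulVec]
  induction hu using Subgroup.closure_induction with
  | mem g hg =>
    obtain ⟨k, hk⟩ := hT g hg
    refine ⟨?_, ?_⟩
    · intro j
      rw [hk, hB]
      split_ifs with h
      · right
        rw [h]
        funext a
        simp only [Pi.sub_apply, Pi.smul_apply, smul_eq_mul, Pi.neg_apply]
        ring
      · left
        rw [zero_smul, sub_zero]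
    · intro x hx
      rw [hk, hx, zero_smul, sub_zero]
  | one =>
    simp
  | mul x y _ _ hx hy =>
    refine ⟨?_, ?_⟩
    · intro j
      rw [map_mul, ← Matrix.mulVec_mulVec]
      rcases hy.1 j with h | h
      · rw [h]
        exact hx.1 j
      · rw [h, Matrix.mulVec_neg]
        rcases hx.1 j with h' | h'
        · right
          rw [h']
        · left
          rw [h', neg_neg]
    · intro z hz
      rw [map_mul, ← Matrix.mulVec_mulVec, hy.2 z hz, hx.2 z hz]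
  | inv x _ hx =>
    refine ⟨?_, ?_⟩
    · intro j
      rcases hx.1 j with h | h
      · left
        have := hinv x (rr j)
        rwa [h] at this
      · right
        have := hinv x (rr j)
        rw [h, Matrix.mulVec_neg, neg_eq_iff_eq_neg] at this
        exact this
    · intro z hz
      have := hinv x z
      rwa [hx.2 z hz] at this

/-- An isometry of the form above fixing modulo `ℓ` a vector with nonzero inner products is trivial. -/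
theorem fix_one {U : Matrix (Fin l) (Fin l) ℤ} (hL : Lt G) (hU : IsIso G U)
    {rr : Fin 3 → (Fin l → ℤ)} (hB : ∀ i j, B G (rr i) (rr j) = if i = j then 2 else 0)
    (h1 : ∀ j, U *ᵥ rr j = rr j ∨ U *ᵥ rr j = - rr j)
    (h2 : ∀ x, (∀ j, B G (rr j) x = 0) → U *ᵥ x = x)
    {ℓ : ℕ} [hℓ : Fact ℓ.Prime] (hℓ2 : ℓ ≠ 2) {b : Fin l → ℤ} (hb : red ℓ (U *ᵥ b) = red ℓ b)
    (hne : ∀ j, ((B G (rr j) b : ℤ) : ZMod ℓ) ≠ 0) : U = 1 := by
  have hpos : ∀ j, U *ᵥ rr j = rr j := by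
    intro j
    rcases h1 j with h | h
    · exact h
    · exfalso
      have h3 := hU (rr j) b
      rw [h, B_neg_left] at h3
      have h4 := cast_B_congr (G := G) (c := (1 : ZMod ℓ)) (rr j) (x := U *ᵥ b) (x' := b)
        (by rw [hb, one_smul])
      rw [one_mul] at h4
      have h5 : ((B G (rr j) b : ℤ) : ZMod ℓ) + ((B G (rr j) b : ℤ) : ZMod ℓ) = 0 := by
        have h6 := congrArg (Int.cast : ℤ → ZMod ℓ) h3
        push_cast at h6
        rw [h4] at h6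
        linear_combination (-1 : ZMod ℓ) * h6
      have h7 : (2 : ZMod ℓ) * ((B G (rr j) b : ℤ) : ZMod ℓ) = 0 := by
        rw [two_mul]
        exact h5
      rcases mul_eq_zero.mp h7 with h8 | h8
      · have h9 : ((2 : ℕ) : ZMod ℓ) = 0 := by exact_mod_cast h8
        rw [ZMod.natCast_eq_zero_iff] at h9
        exact hℓ2 ((Nat.prime_dvd_prime_iff_eq hℓ.out Nat.prime_two).mp h9)
      · exact hne j h8
  apply Matrix.ext
  intro a c
  set x : Fin l → ℤ := Pi.single c 1 with hx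
  set x' : Fin l → ℤ := (2 : ℤ) • x - ∑ j, B G (rr j) x • rr j with hx'
  have h3 : ∀ k, B G (rr k) x' = 0 := by
    intro k
    rw [hx', B_sub_right, B_smul_right, B_sum_right, Finset.sum_eq_single k]
    · rw [B_smul_right, hB, if_pos rfl]
      ring
    · intro j _ hj
      rw [B_smul_right, hB, if_neg (Ne.symm hj), mul_zero]
    · simp
  have h4 := h2 x' h3
  have h5 : (2 : ℤ) • (U *ᵥ x) = (2 : ℤ) • x := by
    have h6 : U *ᵥ x' = (2 : ℤ) • (U *ᵥ x) - ∑ j, B G (rr j) x • rr j := by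
      rw [hx', Matrix.mulVec_sub, Matrix.mulVec_smul, Matrix.mulVec_sum]
      congr 1
      apply Finset.sum_congr rfl
      intro j _
      rw [Matrix.mulVec_smul, hpos]
    rw [h6, hx'] at h4
    exact sub_left_inj.mp h4
  have h7 := congrFun h5 a
  simp only [Pi.smul_apply, smul_eq_mul] at h7
  have h8 : (U *ᵥ x) a = x a := by omega
  rw [hx, Matrix.mulVec_single_one, Matrix.col_apply] at h8
  rw [h8, Matrix.one_apply, Pi.single_apply]

/-- The vector in the kernel of `Φ₁₂` fixed by the stabilizer. -/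
theorem exists_y {W : Type*} [Group W] [Finite W] (ρ : W →* Matrix (Fin l) (Fin l) ℤ) (u₀ : W)
    (hfix6 : ∀ x, ρ u₀ ^ 6 *ᵥ pv (ρ u₀) P12 x = pv (ρ u₀) P12 x)
    {ℓ : ℕ} [hℓ : Fact ℓ.Prime] (hℓ2 : ℓ ≠ 2) (hℓW : ¬ ℓ ∣ Nat.card W)
    {b : Fin l → ℤ} (hb : red ℓ b ≠ 0) {q : ℤ} (hq : (q : ZMod ℓ) ^ 6 = -1)
    (hMb : red ℓ (ρ u₀ *ᵥ b) = (q : ZMod ℓ) • red ℓ b) :
    ∃ y : Fin l → ℤ, y ≠ 0 ∧ pv (ρ u₀) P12 y = 0 ∧
      ∀ u : W, red ℓ (ρ u *ᵥ b) = red ℓ b →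
        ∀ n : ℕ, ρ u *ᵥ (ρ u₀ ^ n *ᵥ y) = ρ u₀ ^ n *ᵥ y := by
  classical
  set M := ρ u₀ with hM
  set S := Cfsg.Agent.Lib.ChevTori.Stab.stabS ρ ℓ b with hS'
  haveI : Fintype S := Fintype.ofFinite _
  have hnorm : ∀ a ∈ S, u₀⁻¹ * a * u₀ ∈ S := by
    intro a ha
    rw [hS', Cfsg.Agent.Lib.ChevTori.Stab.mem_stabS] at ha ⊢
    have h1 : (ρ a).map (Int.castRingHom (ZMod ℓ)) *ᵥ ((q : ZMod ℓ) • red ℓ b) = (q : ZMod ℓ) • red ℓ b := by
      rw [Matrix.mulVec_smul, ← red_mulVec, ha]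
    calc red ℓ (ρ (u₀⁻¹ * a * u₀) *ᵥ b) = red ℓ (ρ u₀⁻¹ *ᵥ (ρ a *ᵥ (ρ u₀ *ᵥ b))) := by
          rw [map_mul, map_mul, Matrix.mulVec_mulVec, Matrix.mulVec_mulVec, mul_assoc]
      _ = (ρ u₀⁻¹).map (Int.castRingHom (ZMod ℓ)) *ᵥ
            ((ρ a).map (Int.castRingHom (ZMod ℓ)) *ᵥ red ℓ (ρ u₀ *ᵥ b)) := by
          rw [red_mulVec, red_mulVec]
      _ = (ρ u₀⁻¹).map (Int.castRingHom (ZMod ℓ)) *ᵥ red ℓ (ρ u₀ *ᵥ b) := by
          rw [hMb, h1]
      _ = red ℓ (ρ u₀⁻¹ *ᵥ (ρ u₀ *ᵥ b)) := (red_mulVec _ _ _).symm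
      _ = red ℓ b := by
          rw [Matrix.mulVec_mulVec, ← map_mul, inv_mul_cancel, map_one, Matrix.one_mulVec]
  set v : Fin l → ℤ := ∑ a : S, ρ (a : W) *ᵥ b with hv
  have hfix : ∀ a ∈ S, ρ a *ᵥ v = v := by
    intro a ha
    rw [hv, Matrix.mulVec_sum]
    refine Fintype.sum_equiv (Equiv.mulLeft (⟨a, ha⟩ : S)) _ _ ?_
    intro x
    simp [Matrix.mulVec_mulVec, map_mul]
  have hredv : red ℓ v = (Fintype.card S : ZMod ℓ) • red ℓ b := by
    funext i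
    have h1 : ∀ a : S, ((ρ (a : W) *ᵥ b) i : ZMod ℓ) = (b i : ZMod ℓ) := fun a =>
      congrFun (Cfsg.Agent.Lib.ChevTori.Stab.mem_stabS.mp a.2) i
    simp only [red, hv, Finset.sum_apply, Int.cast_sum, h1, Finset.sum_const, Finset.card_univ,
      nsmul_eq_mul, Pi.smul_apply, smul_eq_mul]
  have hcard : (Fintype.card S : ZMod ℓ) ≠ 0 := by
    rw [Ne, ZMod.natCast_eq_zero_iff]
    intro h
    apply hℓW
    rw [← Nat.card_eq_fintype_card] at h
    exact h.trans (Subgroup.card_subgroup_dvd_card S)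
  have hpow : ∀ n : ℕ, ∀ a ∈ S, ρ a *ᵥ (M ^ n *ᵥ v) = M ^ n *ᵥ v := by
    intro n
    induction n with
    | zero =>
      intro a ha
      simpa using hfix a ha
    | succ n ih =>
      intro a ha
      have h1 := ih _ (hnorm a ha)
      have h2 : ρ a * M = M * ρ (u₀⁻¹ * a * u₀) := by
        rw [hM, ← map_mul, ← map_mul]
        congr 1
        group
      rw [pow_succ', ← Matrix.mulVec_mulVec, Matrix.mulVec_mulVec (M ^ n *ᵥ v), h2,
        ← Matrix.mulVec_mulVec, h1]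
  set y := M ^ 6 *ᵥ v - v with hy
  have hy12 : pv M P12 y = 0 := by
    rw [hy, pv_sub_right, pv_pow, hfix6, sub_self]
  have hredMv : red ℓ (M *ᵥ v) = (q : ZMod ℓ) • red ℓ v := by
    rw [red_mulVec, hredv, Matrix.mulVec_smul, ← red_mulVec]
    rw [hMb, smul_comm]
  have hy0 : y ≠ 0 := by
    intro h0
    have h1 := red_aeval ℓ hredMv (Polynomial.X ^ 6)
    rw [map_pow, aeval_X] at h1
    have h2 : M ^ 6 *ᵥ v = v := sub_eq_zero.mp h0
    rw [h2] at h1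
    simp only [eval_pow, eval_X] at h1
    push_cast at h1
    rw [hq] at h1
    obtain ⟨i, hi⟩ : ∃ i, red ℓ b i ≠ 0 := by
      by_contra hcon
      push Not at hcon
      exact hb (funext hcon)
    have h3 := congrFun h1 i
    rw [hredv] at h3
    simp only [Pi.smul_apply, smul_eq_mul] at h3
    have h4 : (2 : ZMod ℓ) * ((Fintype.card S : ZMod ℓ) * red ℓ b i) = 0 := by
      linear_combination h3
    rcases mul_eq_zero.mp h4 with h8 | h8
    · have h9 : ((2 : ℕ) : ZMod ℓ) = 0 := by exact_mod_cast h8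
      rw [ZMod.natCast_eq_zero_iff] at h9
      exact hℓ2 ((Nat.prime_dvd_prime_iff_eq hℓ.out Nat.prime_two).mp h9)
    · rcases mul_eq_zero.mp h8 with h9 | h9
      · exact hcard h9
      · exact hi h9
  refine ⟨y, hy0, hy12, ?_⟩
  intro u hu n
  have huS : u ∈ S := hu
  rw [hy, Matrix.mulVec_sub, Matrix.mulVec_sub, ← mv_add, hpow _ _ huS, hpow _ _ huS]

theorem rr_B {M : Matrix (Fin l) (Fin l) ℤ} {r : Fin l → ℤ} (hL : Lt G)
    (hiso : IsIso G M) (hn : B G r r = 2) (ho1 : B G r (M *ᵥ r) = 0) (ho2 : B G r (M *ᵥ (M *ᵥ r)) = 0)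
    (i j : Fin 3) :
    B G ((![r, M *ᵥ r, M *ᵥ (M *ᵥ r)] : Fin 3 → (Fin l → ℤ)) i)
      ((![r, M *ᵥ r, M *ᵥ (M *ᵥ r)] : Fin 3 → (Fin l → ℤ)) j) = if i = j then 2 else 0 := by
  have h12 : B G (M *ᵥ r) (M *ᵥ (M *ᵥ r)) = 0 := by
    rw [hiso]
    exact ho1
  fin_cases i <;> fin_cases j
  · exact hn
  · exact ho1
  · exact ho2
  · show B G (M *ᵥ r) r = 0
    rw [hL.symm]
    exact ho1
  · show B G (M *ᵥ r) (M *ᵥ r) = 2
    rw [hiso]
    exact hn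
  · exact h12
  · show B G (M *ᵥ (M *ᵥ r)) r = 0
    rw [hL.symm]
    exact ho2
  · show B G (M *ᵥ (M *ᵥ r)) (M *ᵥ r) = 0
    rw [hL.symm]
    exact h12
  · show B G (M *ᵥ (M *ᵥ r)) (M *ᵥ (M *ᵥ r)) = 2
    rw [hiso, hiso]
    exact hn

end Closure

section Main

variable {K : Type*} [Field K] [Finite K] {η : ℕ → ℕ → ℤ} (hR : Sys chevE7 K η) (hT : Tbl chevE7)

/-- The reflections orthogonal to the orbit are those in the three coroots. -/
theorem rf_form (u₀ : WW (pair hR hT)) {r : Fin chevE7.rank → ℤ} (hd : Dat7 (matW hR hT u₀) r)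
    {y : Fin chevE7.rank → ℤ} (hy0 : y ≠ 0) (hy : pv (matW hR hT u₀) P12 y = 0)
    (w : WW (pair hR hT)) (i : Fin chevE7.rank)
    (hs : ∀ n : ℕ, B (Gram.gram chevE7) (crV chevE7 (rfR hR hT w i)) (matW hR hT u₀ ^ n *ᵥ y) = 0) :
    ∃ k : Fin 3, ∀ x, matW hR hT (rf hR hT w i) *ᵥ x = x -
      B (Gram.gram chevE7) ((![r, matW hR hT u₀ *ᵥ r, matW hR hT u₀ *ᵥ (matW hR hT u₀ *ᵥ r)] :
        Fin 3 → (Fin chevE7.rank → ℤ)) k) x •
        (![r, matW hR hT u₀ *ᵥ r, matW hR hT u₀ *ᵥ (matW hR hT u₀ *ᵥ r)] :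
          Fin 3 → (Fin chevE7.rank → ℤ)) k := by
  have hiso := isIso hR hT hSL u₀
  have h6 := orth_root hLt hiso rfl hd.pow12 hd.fix6 hy0 hy hs
  obtain ⟨k, hk⟩ := root_cases hLt hiso hd.star (crV_norm hR hT hSL hDiag _) h6
  refine ⟨k, fun x => ?_⟩
  rw [matW_rf hR hT hSL]
  rcases hk with hk | hk
  · rw [hk]
  · rw [hk, B_neg_left, smul_neg, neg_smul, neg_neg]

/-- The reflections in `s` when `s` is orthogonal to `b` modulo `ℓ`. -/
theorem root_eq (u₀ : WW (pair hR hT)) {r : Fin chevE7.rank → ℤ} (hd : Dat7 (matW hR hT u₀) r)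
    {ℓ : ℕ} [hℓ : Fact ℓ.Prime] (hℓ2 : ℓ ≠ 2) (hℓW : ¬ ℓ ∣ Nat.card (WW (pair hR hT)))
    {b : Fin chevE7.rank → ℤ} (hb : red ℓ b ≠ 0) {q : ℤ} (hq : (q : ZMod ℓ) ^ 6 = -1)
    (hMb : red ℓ (matW hR hT u₀ *ᵥ b) = (q : ZMod ℓ) • red ℓ b) (s : Fin chevE7.nroots)
    (hs : ((B (Gram.gram chevE7) (crV chevE7 s) b : ℤ) : ZMod ℓ) = 0) :
    ∃ j : Fin 3, crV chevE7 s = (![r, matW hR hT u₀ *ᵥ r, matW hR hT u₀ *ᵥ (matW hR hT u₀ *ᵥ r)] :
        Fin 3 → (Fin chevE7.rank → ℤ)) j ∨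
      crV chevE7 s = - (![r, matW hR hT u₀ *ᵥ r, matW hR hT u₀ *ᵥ (matW hR hT u₀ *ᵥ r)] :
        Fin 3 → (Fin chevE7.rank → ℤ)) j := by
  haveI := finite_WW hR hT
  obtain ⟨y, hy0, hy, hfy⟩ := exists_y (matHom hR hT) u₀ hd.fix6 hℓ2 hℓW hb hq hMb
  obtain ⟨w, i, hwi⟩ := exists_alpha hR hT s
  have hrf : ∀ x, matW hR hT (rf hR hT w i) *ᵥ x = x - B (Gram.gram chevE7) (crV chevE7 s) x • crV chevE7 s := by
    intro x
    rw [matW_rf hR hT hSL]
    have : rfR hR hT w i = s := hwi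
    rw [this]
  have hu : red ℓ (matW hR hT (rf hR hT w i) *ᵥ b) = red ℓ b := by
    rw [hrf]
    funext a
    simp only [red, Pi.sub_apply, Pi.smul_apply, smul_eq_mul]
    push_cast
    rw [hs]
    ring
  have hiso := isIso hR hT hSL u₀
  have hs0 : crV chevE7 s ≠ 0 := by
    intro h0
    have h1 := crV_norm hR hT hSL hDiag s
    rw [h0, B_zero_left] at h1
    omega
  have h6 : ∀ n : ℕ, B (Gram.gram chevE7) (crV chevE7 s) (matW hR hT u₀ ^ n *ᵥ y) = 0 := by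
    intro n
    have h1 := hfy _ hu n
    rw [show matHom hR hT (rf hR hT w i) = matW hR hT (rf hR hT w i) from rfl,
      show matHom hR hT u₀ = matW hR hT u₀ from rfl, hrf] at h1
    have h2 : B (Gram.gram chevE7) (crV chevE7 s) (matW hR hT u₀ ^ n *ᵥ y) • crV chevE7 s = 0 := by
      have := sub_eq_self.mp h1
      exact this
    rcases smul_eq_zero.mp h2 with h3 | h3
    · exact h3
    · exact absurd h3 hs0
  have h7 := orth_root hLt hiso rfl hd.pow12 hd.fix6 hy0 hy h6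
  exact root_cases hLt hiso hd.star (crV_norm hR hT hSL hDiag _) h7

/-- An element of the Weyl group fixing the two eigenvectors is trivial. -/
theorem stab_two (u₀ : WW (pair hR hT)) {r : Fin chevE7.rank → ℤ} (hd : Dat7 (matW hR hT u₀) r)
    {ℓ : ℕ} [hℓ : Fact ℓ.Prime] (hℓ2 : ℓ ≠ 2) (hℓW : ¬ ℓ ∣ Nat.card (WW (pair hR hT)))
    {b : Fin chevE7.rank → ℤ} (hb : red ℓ b ≠ 0) {q : ℤ} (hq : (q : ZMod ℓ) ^ 6 = -1)
    (hMb : red ℓ (matW hR hT u₀ *ᵥ b) = (q : ZMod ℓ) • red ℓ b)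
    {ℓ' : ℕ} [hℓ' : Fact ℓ'.Prime] (hℓ'2 : ℓ' ≠ 2) {b' : Fin chevE7.rank → ℤ}
    (hne : ∀ j : Fin 3, ((B (Gram.gram chevE7) ((![r, matW hR hT u₀ *ᵥ r,
      matW hR hT u₀ *ᵥ (matW hR hT u₀ *ᵥ r)] : Fin 3 → (Fin chevE7.rank → ℤ)) j) b' : ℤ) : ZMod ℓ') ≠ 0)
    (u : WW (pair hR hT)) (hu : red ℓ (matW hR hT u *ᵥ b) = red ℓ b)
    (hu' : red ℓ' (matW hR hT u *ᵥ b') = red ℓ' b') : u = 1 := by
  classical
  haveI := finite_WW hR hT
  obtain ⟨y, hy0, hy, hfy⟩ := exists_y (matHom hR hT) u₀ hd.fix6 hℓ2 hℓW hb hq hMb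
  have hfy' : ∀ n : ℕ, matW hR hT u *ᵥ (matW hR hT u₀ ^ n *ᵥ y) = matW hR hT u₀ ^ n *ᵥ y := hfy u hu
  set M := matW hR hT u₀ with hM
  have hiso := isIso hR hT hSL u₀
  let f : Fin 4 → (Fin chevE7.rank → ℤ) := fun j => M ^ (j : ℕ) *ᵥ y
  let Rts : Finset (Fin chevE7.rank → ℤ) := Finset.univ.image (fun s : Fin chevE7.nroots => crV chevE7 s)
  obtain ⟨a, ha⟩ := exists_generic (G := Gram.gram chevE7) f Rts
  have hfv : matW hR hT u *ᵥ (∑ i, a i • f i) = ∑ i, a i • f i := by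
    rw [Matrix.mulVec_sum]
    apply Finset.sum_congr rfl
    intro i _
    rw [Matrix.mulVec_smul]
    simp only [f]
    rw [hfy']
  have hcl := stab_closure hR hT hSL u _ hfv
  have hB := rr_B hLt hiso hd.norm hd.o1 hd.o2
  have hgen : ∀ g ∈ rfSet hR hT (∑ i, a i • f i), ∃ k, ∀ x, matHom hR hT g *ᵥ x = x -
      B (Gram.gram chevE7) ((![r, M *ᵥ r, M *ᵥ (M *ᵥ r)] : Fin 3 → (Fin chevE7.rank → ℤ)) k) x •
        (![r, M *ᵥ r, M *ᵥ (M *ᵥ r)] : Fin 3 → (Fin chevE7.rank → ℤ)) k := by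
    rintro g ⟨w, i, rfl, hwi⟩
    have h1 := ha _ (Finset.mem_image.mpr ⟨rfR hR hT w i, Finset.mem_univ _, rfl⟩) hwi
    refine rf_form hR hT u₀ hd hy0 hy w i ?_
    have hc0 : ∀ j : ℕ, j < 4 → B (Gram.gram chevE7) (crV chevE7 (rfR hR hT w i)) (M ^ j *ᵥ y) = 0 := by
      intro j hj
      exact h1 ⟨j, hj⟩
    have hall : ∀ j : ℕ, B (Gram.gram chevE7) (crV chevE7 (rfR hR hT w i)) (M ^ j *ᵥ y) = 0 ∧
        B (Gram.gram chevE7) (crV chevE7 (rfR hR hT w i)) (M ^ (j + 1) *ᵥ y) = 0 ∧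
        B (Gram.gram chevE7) (crV chevE7 (rfR hR hT w i)) (M ^ (j + 2) *ᵥ y) = 0 ∧
        B (Gram.gram chevE7) (crV chevE7 (rfR hR hT w i)) (M ^ (j + 3) *ᵥ y) = 0 := by
      intro j
      induction j with
      | zero =>
        exact ⟨hc0 0 (by norm_num), hc0 1 (by norm_num), hc0 2 (by norm_num), hc0 3 (by norm_num)⟩
      | succ j ih =>
        refine ⟨ih.2.1, ih.2.2.1, ih.2.2.2, ?_⟩
        have h2 := pv_pow M P12 j y
        have hy' : pv M P12 y = 0 := hy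
        rw [hy', Matrix.mulVec_zero, pv_P12, ← mv_add, ← mv_add] at h2
        have h3 := congrArg (B (Gram.gram chevE7) (crV chevE7 (rfR hR hT w i))) h2
        rw [B_zero_right, B_add_right, B_sub_right, show 4 + j = j + 1 + 3 by ring,
          show 2 + j = j + 2 by ring, ih.2.2.1, ih.1] at h3
        simpa using h3
    exact fun n => (hall n).1
  obtain ⟨h1, h2⟩ := closure_form (matHom hR hT) hB hgen hcl
  have h3 := fix_one hLt (isIso hR hT hSL u) hB h1 h2 hℓ'2 hu' hne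
  exact eq_one_of_matW hR hT u h3

end Main

end Cfsg.Agent.Lib.ChevTori.E7S
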