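import Cfsg.Agent.Lib.Steinberg.Gen.RepCheck
import Cfsg.Agent.Lib.ChevTori.Main
import Cfsg.Agent.Lib.ChevTori.Gram

/-!
The group presented by Steinberg's relations is functorial in the field; the torus of the presented
group as an image of `(Kˣ)^l` and the action of `N` on it.
-/

set_option autoImplicit false
set_option linter.unusedSectionVars false

namespace Cfsg.Agent.Lib.ChevTori.StLift

open Cfsg Cfsg.Lie Cfsg.Agent.Lib.ChevBN.Elem Cfsg.Agent.Lib.ChevBN.Entries Cfsg.Agent.Lib.ChevBN.Table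
open Cfsg.Agent.Lib.ChevBN.Collect Cfsg.Agent.Lib.ChevBN.Rel Cfsg.Agent.Lib.ChevBN.Torus
open Cfsg.Agent.Lib.ChevBN.Monomial Cfsg.Agent.Lib.ChevBN.Core Cfsg.Agent.Lib.ChevBN.Pair
open Cfsg.Agent.Lib.ChevBN.Stmts Cfsg.Agent.Lib.ChevBN.BruhatForm Cfsg.Agent.Lib.ChevBN.Opp
open Cfsg.Agent.Lib.ChevTri.Level Cfsg.Agent.Lib.ChevTri.Datum
open Cfsg.Agent.Lib.BNPair.Basic Cfsg.Agent.Lib.BNPair.Parabolic
open Cfsg.Agent.Lib.ChevOrder.BNCount Cfsg.Agent.Lib.ChevOrder.Chev
open Cfsg.Agent.Lib.ChevOrder.TorusCard Cfsg.Agent.Lib.ChevBN.Levi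
open Cfsg.Agent.Lib.BNPair.CoxeterExchange Cfsg.Agent.Lib.StChar.Top
open Cfsg.Agent.Lib.ChevTori.Act Cfsg.Agent.Lib.ChevTori.LinAlg
open Cfsg.Agent.Lib.ChevFix Cfsg.Agent.Lib.ChevTori.Core
open Cfsg.Agent.Lib.Steinberg.Gen

section Functor

variable {D : ChevalleyDatum} {K L : Type*} [Field K] [Field L] (i : K →+* L)

/-- The map on the free groups. -/
noncomputable def frMap : FreeGroup (Fin D.nroots × K) →* FreeGroup (Fin D.nroots × L) :=
  FreeGroup.map (fun p => (p.1, i p.2))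

theorem frMap_X (r : ℕ) (t : K) : frMap (D := D) i (D.stX r t) = D.stX r (i t) := by
  unfold ChevalleyDatum.stX
  split_ifs with h
  · simp [frMap]
  · simp

theorem frMap_word (w : List (ℕ × K)) :
    frMap (D := D) i (D.stWord w) = D.stWord (w.map fun p => (p.1, i p.2)) := by
  simp only [ChevalleyDatum.stWord, map_list_prod, List.map_map]
  congr 1
  apply List.map_congr_left
  intro p _
  exact frMap_X i p.1 p.2

theorem commWord_map (r s : ℕ) (t u : K) :
    (D.commWord K r s t u).map (fun p => (p.1, i p.2)) = D.commWord L r s (i t) (i u) := by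
  simp [ChevalleyDatum.commWord, List.map_map, Function.comp_def]

theorem hWord_map (r : ℕ) (t : K) :
    (D.hWord r t).map (fun p => (p.1, i p.2)) = D.hWord r (i t) := by
  simp [ChevalleyDatum.hWord, ChevalleyDatum.nWord]

theorem frMap_rel {g : FreeGroup (Fin D.nroots × K)} (hg : g ∈ D.steinbergRels K) :
    frMap (D := D) i g ∈ D.steinbergRels L := by
  rcases hg with (⟨r, t₁, t₂, hr, rfl⟩ | ⟨r, s, t, u, hr, hs, h1, h2, rfl⟩) |
    ⟨r, t₁, t₂, hr, h1, h2, rfl⟩
  · refine Or.inl (Or.inl ⟨r, i t₁, i t₂, hr, ?_⟩)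
    simp only [map_mul, map_inv, frMap_X, map_add]
  · refine Or.inl (Or.inr ⟨r, s, i t, i u, hr, hs, h1, h2, ?_⟩)
    simp only [map_mul, map_inv, frMap_X, frMap_word, commWord_map]
  · refine Or.inr ⟨r, i t₁, i t₂, hr, (map_ne_zero i).mpr h1, (map_ne_zero i).mpr h2, ?_⟩
    simp only [ChevalleyDatum.stH, map_mul, map_inv, frMap_word, hWord_map]

/-- The homomorphism of the presented groups. -/
noncomputable def stMap : D.SteinbergGroup K →* D.SteinbergGroup L :=
  QuotientGroup.map _ _ (frMap (D := D) i) (by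
    refine Subgroup.normalClosure_le_normal ?_
    intro g hg
    exact Subgroup.subset_normalClosure (frMap_rel i hg))

theorem stMap_mk (g : FreeGroup (Fin D.nroots × K)) :
    stMap (D := D) i (PresentedGroup.mk _ g) = PresentedGroup.mk _ (frMap i g) := rfl

theorem stMap_gen (r : ℕ) (t : K) : stMap (D := D) i (D.stGen K r t) = D.stGen L r (i t) := by
  rw [ChevalleyDatum.stGen, stMap_mk, frMap_X]
  rfl

theorem of_eq_stGen (p : Fin D.nroots × K) :
    PresentedGroup.of (rels := D.steinbergRels K) p = D.stGen K p.1 p.2 := by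
  obtain ⟨⟨r, hr⟩, t⟩ := p
  simp [ChevalleyDatum.stGen, ChevalleyDatum.stX, hr, PresentedGroup.of]

/-- Homomorphisms out of the presented group are determined on the generators. -/
theorem hom_ext {Γ : Type*} [Group Γ] {φ ψ : D.SteinbergGroup K →* Γ}
    (h : ∀ (r : ℕ) (t : K), r < D.nroots → φ (D.stGen K r t) = ψ (D.stGen K r t)) : φ = ψ := by
  apply PresentedGroup.ext
  intro p
  rw [of_eq_stGen]
  exact h _ _ p.1.2

variable {η : ℕ → ℕ → ℤ} (dK : Dat D K η) (dL : Dat D L η)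

theorem θ_stMap (x : D.SteinbergGroup K) :
    dL.stein.θ (stMap i x) = mp i (dK.stein.θ x) := by
  have h : dL.stein.θ.comp (stMap (D := D) i) = (mp i).comp dK.stein.θ := by
    apply hom_ext
    intro r t hr
    simp only [MonoidHom.comp_apply, stMap_gen]
    have h1 : dK.stein.θ (D.stGen K r t) = X dK.hR.toAddRel r t := dK.stein.hθ r hr t
    have h2 : dL.stein.θ (D.stGen L r (i t)) = X dL.hR.toAddRel r (i t) := dL.stein.hθ r hr (i t)
    rw [h1, h2, mp_X i dK.hR.toAddRel dL.hR.toAddRel]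
  exact congrArg (fun f => f x) h

theorem stMap_y (r : ℕ) (t : K) : stMap i (dK.stein.Y.y r t) = dL.stein.Y.y r (i t) :=
  stMap_gen i r t

theorem stMap_wh (j : ℕ) (t : K) : stMap i (dK.stein.Y.wh j t) = dL.stein.Y.wh j (i t) := by
  simp only [YFam.wh, YFam.wr, map_mul, stMap_y i dK dL, map_neg, map_inv₀]

theorem stMap_hh (j : ℕ) (t : K) : stMap i (dK.stein.hh j t) = dL.stein.hh j (i t) := by
  show stMap i (dK.stein.Y.wh j t * dK.stein.Y.wh j (-1)) =
    dL.stein.Y.wh j (i t) * dL.stein.Y.wh j (-1)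
  rw [map_mul, stMap_wh i dK dL, stMap_wh i dK dL, map_neg, map_one]

theorem stMap_hl (l : List ℕ) (c : ℕ → K) :
    stMap i (dK.stein.hl l c) = dL.stein.hl l (fun j => i (c j)) := by
  induction l with
  | nil => simp
  | cons a l ih => simp only [Ctx.hl_cons, map_mul, stMap_hh i dK dL, ih]

theorem stMap_hprod (c : ℕ → K) :
    stMap i (dK.stein.hprod c) = dL.stein.hprod (fun j => i (c j)) :=
  stMap_hl i dK dL _ c

end Functor

section Hp

variable {D : ChevalleyDatum} {K : Type*} [Field K] {η : ℕ → ℕ → ℤ} {Δ : Type*} [Group Δ]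
variable (C : Ctx D K η Δ) (h3 : C.HasR3)

/-- The torus of the presented group as an image of a power of the unit group. -/
noncomputable def hp : (Fin D.rank → Kˣ) →* Δ where
  toFun c := C.hprod (ext c)
  map_one' := by
    rw [ext_one]
    exact Ctx.hprod_one
  map_mul' a b := by
    rw [ext_mul, Ctx.hprod, Ctx.hprod, Ctx.hprod]
    exact (Ctx.hl_mul h3 (fun j hj => List.mem_range.mp hj) (fun j _ => ext_ne a j)
      (fun j _ => ext_ne b j)).symm

theorem hp_apply (c : Fin D.rank → Kˣ) : hp C h3 c = C.hprod (ext c) := rfl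

theorem θ_hp (c : Fin D.rank → Kˣ) : C.θ (hp C h3 c) = (tmap C.hT C.hR c : GL D.Idx K) :=
  Ctx.θ_hprod (ext c)

theorem hp_mem (c : Fin D.rank → Kˣ) : hp C h3 c ∈ C.Hs :=
  Ctx.hl_mem (fun j hj => List.mem_range.mp hj) (fun j _ => ext_ne c j)

theorem mem_Hs_iff_hp {x : Δ} (hx : x ∈ C.Hs) : ∃ c, x = hp C h3 c := by
  obtain ⟨c, hc, rfl⟩ := Ctx.exists_hprod h3 hx
  refine ⟨fun j => Units.mk0 (c j) (hc j j.2), ?_⟩
  apply Ctx.hprod_congr
  intro j hj
  simp [ext, hj]

include h3 in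
theorem Hs_comm {x y : Δ} (hx : x ∈ C.Hs) (hy : y ∈ C.Hs) : x * y = y * x := by
  induction hx using Subgroup.closure_induction with
  | mem x hx =>
    obtain ⟨i, hi, t, ht, rfl⟩ := hx
    exact Ctx.hh_comm_Hs h3 hi ht hy
  | one => simp
  | mul a b _ _ ha hb =>
    rw [mul_assoc, hb, ← mul_assoc, ha, mul_assoc]
  | inv a _ ha =>
    exact (Commute.inv_left (show Commute a y from ha)).eq

include h3 in
/-- Elements mapping into the torus lie in the torus of the presented group. -/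
theorem mem_Hs_of_θ {x : Δ} (hx : C.θ x ∈ D.diagonalSubgroup K) : x ∈ C.Hs := by
  obtain ⟨c, hc⟩ := tmap_surj' C.hR C.hT hx
  have h1 : C.θ (x * (hp C h3 c)⁻¹) = 1 := by
    rw [map_mul, map_inv, θ_hp, hc, mul_inv_cancel]
  have h2 := C.ker_le_Hs h1
  have h4 : x = x * (hp C h3 c)⁻¹ * hp C h3 c := by group
  rw [h4]
  exact Subgroup.mul_mem _ h2 (hp_mem C h3 c)

include h3 in
/-- Conjugation of a product along a list by a generator of `N`. -/
theorem hl_conj {j : ℕ} (hj : j < D.rank) {c : ℕ → K} (hc : ∀ k, c k ≠ 0) (l : List ℕ)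
    (hl : ∀ k ∈ l, k < D.rank) :
    C.Y.wh j 1 * C.hl l c * (C.Y.wh j 1)⁻¹ =
      C.hh j ((l.map fun k => c k ^ (-D.cartan k (D.simple j))).prod) * C.hl l c := by
  induction l with
  | nil =>
    simp [Ctx.hh_one hj]
  | cons a l ih =>
    have ha := hl a (by simp)
    have hl' : ∀ k ∈ l, k < D.rank := fun k hk => hl k (by simp [hk])
    have e : C.Y.wh j 1 * C.hl (a :: l) c * (C.Y.wh j 1)⁻¹ =
        (C.Y.wh j 1 * C.hh a (c a) * (C.Y.wh j 1)⁻¹) * (C.Y.wh j 1 * C.hl l c * (C.Y.wh j 1)⁻¹) := by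
      rw [Ctx.hl_cons]
      group
    rw [e, C.n_conj_hh ha hj (hc a), ih hl', Ctx.hh_inv_eq h3 hj (zpow_ne_zero _ (hc a))]
    have hκ : (l.map fun k => c k ^ (-D.cartan k (D.simple j))).prod ≠ 0 := by
      apply List.prod_ne_zero
      intro h0
      obtain ⟨k, -, hk⟩ := List.mem_map.mp h0
      exact zpow_ne_zero _ (hc k) hk
    have hcomm := Ctx.hh_comm h3 ha hj (hc a) hκ
    rw [Ctx.hl_cons, List.map_cons, List.prod_cons]
    have e3 : (c a ^ D.cartan a (D.simple j))⁻¹ = c a ^ (-D.cartan a (D.simple j)) := by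
      rw [zpow_neg]
    rw [e3]
    have hne : c a ^ (-D.cartan a (D.simple j)) ≠ 0 := zpow_ne_zero _ (hc a)
    rw [← h3 j hj _ _ hne hκ]
    calc C.hh j (c a ^ (-D.cartan a (D.simple j))) * C.hh a (c a) *
          (C.hh j ((l.map fun k => c k ^ (-D.cartan k (D.simple j))).prod) * C.hl l c)
        = C.hh j (c a ^ (-D.cartan a (D.simple j))) *
          (C.hh a (c a) * C.hh j ((l.map fun k => c k ^ (-D.cartan k (D.simple j))).prod)) * C.hl l c := by
          group
      _ = _ := by rw [hcomm]; group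

/-- The entries of the action of a reflection. -/
theorem actM_fW_apply (j : Fin D.rank) (c : Fin D.rank → Kˣ) (m : Fin D.rank) :
    actM (matW C.hR C.hT (fW C.hR C.hT j)) c m =
      c m * (if m = j then ∏ k : Fin D.rank, c k ^ (-D.cartan k (alphaR C.hT j)) else 1) := by
  rw [actM_apply]
  simp_rw [Cfsg.Agent.Lib.ChevTori.Gram.matW_fW_apply, sub_eq_add_neg, _root_.zpow_add]
  rw [Finset.prod_mul_distrib]
  have h3' : (∏ k, c k ^ (if k = m then (1 : ℤ) else 0)) = c m := by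
    rw [Finset.prod_eq_single m]
    · simp
    · intro b _ hb
      rw [if_neg hb, zpow_zero]
    · simp
  rw [h3']
  congr 1
  split_ifs with hm
  · simp
  · simp

/-- Conjugation of the torus by a generator of `N`. -/
theorem hp_conj_wh (j : Fin D.rank) (c : Fin D.rank → Kˣ) :
    C.Y.wh j 1 * hp C h3 c * (C.Y.wh j 1)⁻¹ =
      hp C h3 (actM (matW C.hR C.hT (fW C.hR C.hT j)) c) := by
  have hc : ∀ k, ext c k ≠ 0 := ext_ne c
  rw [hp_apply, hp_apply, Ctx.hprod, hl_conj C h3 j.2 hc _ (fun k hk => List.mem_range.mp hk)]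
  set κ := ((List.range D.rank).map fun k => ext c k ^ (-D.cartan k (D.simple j))).prod with hκ
  have hκe : κ = ((∏ k : Fin D.rank, c k ^ (-D.cartan k (alphaR C.hT j)) : Kˣ) : K) := by
    rw [hκ, prod_range_eq, Finset.prod_range, Units.coe_prod]
    apply Finset.prod_congr rfl
    intro k _
    simp [ext, alphaR]
  have hκ0 : κ ≠ 0 := by
    rw [hκe]
    exact Units.ne_zero _
  have hs : ∀ k < D.rank, (fun k => if k = (j : ℕ) then κ else 1) k ≠ 0 := by
    intro k _
    by_cases h : k = j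
    · simp [h, hκ0]
    · simp [h]
  rw [← Ctx.hprod_single (C := C) j.2 κ]
  rw [Ctx.hprod, Ctx.hl_mul h3 (fun k hk => List.mem_range.mp hk) hs (fun k _ => hc k)]
  show C.hprod _ = C.hprod _
  apply Ctx.hprod_congr
  intro m hm
  simp only [Pi.mul_apply]
  have e1 : ext (actM (matW C.hR C.hT (fW C.hR C.hT j)) c) m =
      ((actM (matW C.hR C.hT (fW C.hR C.hT j)) c ⟨m, hm⟩ : Kˣ) : K) := by
    simp [ext, hm]
  have e2 : ext c m = (c ⟨m, hm⟩ : K) := by
    simp [ext, hm]
  rw [e1, e2, actM_fW_apply C j c ⟨m, hm⟩, Units.val_mul, mul_comm]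
  congr 1
  by_cases h : m = j
  · have : (⟨m, hm⟩ : Fin D.rank) = j := Fin.ext h
    rw [if_pos h, if_pos this, hκe]
  · have : (⟨m, hm⟩ : Fin D.rank) ≠ j := fun e => h (congrArg Fin.val e)
    rw [if_neg h, if_neg this]
    rfl

/-- The lift of a list of generators. -/
theorem hp_conj_wl (l : List (Fin D.rank)) (c : Fin D.rank → Kˣ) :
    C.wl (l.map Fin.val) * hp C h3 c * (C.wl (l.map Fin.val))⁻¹ =
      hp C h3 (actM (matW C.hR C.hT (pr (fW C.hR C.hT) l)) c) := by
  induction l generalizing c with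
  | nil =>
    simp [matW_one, actM_one]
  | cons i l ih =>
    rw [pr_cons, matW_mul, actM_mul, ← hp_conj_wh, ← ih, List.map_cons, Ctx.wl_cons]
    group

/-- The generators of `N` in the pair. -/
noncomputable def nOf (j : Fin D.rank) : ↥(pair C.hR C.hT).N :=
  ⟨ee C.hR C.hT j, (pair C.hR C.hT).subset (ee_mem C.hR C.hT j)⟩

/-- Products of the generators of `N` in the pair. -/
noncomputable def nList (l : List (Fin D.rank)) : ↥(pair C.hR C.hT).N :=
  (l.map (nOf C)).prod

theorem mk_nList (l : List (Fin D.rank)) :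
    (QuotientGroup.mk (nList C l) : WW (pair C.hR C.hT)) = pr (fW C.hR C.hT) l := by
  induction l with
  | nil => rfl
  | cons i l ih =>
    rw [pr_cons, ← ih, nList, List.map_cons, List.prod_cons]
    rfl

theorem coe_nList (l : List (Fin D.rank)) :
    ((nList C l : ↥(D.group K)) : GL D.Idx K) = C.θ (C.wl (l.map Fin.val)) := by
  induction l with
  | nil => simp [nList]
  | cons i l ih =>
    rw [List.map_cons, Ctx.wl_cons, map_mul, ← ih, C.θ_wh i.2, nList, List.map_cons, List.prod_cons]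
    rfl

/-- Elements of `N` in the group with image in the torus are trivial in the Weyl group. -/
theorem mk_eq_one (k : ↥(pair C.hR C.hT).N)
    (h : ((k : ↥(D.group K)) : GL D.Idx K) ∈ D.diagonalSubgroup K) :
    (QuotientGroup.mk k : WW (pair C.hR C.hT)) = 1 := by
  rw [QuotientGroup.eq_one_iff]
  apply Subgroup.mem_subgroupOf.2
  exact ⟨(mem_PB C.hR C.hT).2 (H_le_B C.hR C.hT h), k.2⟩

theorem exists_fin_list {n : ℕ} (l₀ : List ℕ) (h : ∀ j ∈ l₀, j < n) :
    ∃ l : List (Fin n), l.map Fin.val = l₀ := by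
  induction l₀ with
  | nil => exact ⟨[], rfl⟩
  | cons a l₀ ih =>
    obtain ⟨l, hl⟩ := ih fun j hj => h j (by simp [hj])
    exact ⟨⟨a, h a (by simp)⟩ :: l, by simp [hl]⟩

/-- Conjugation of the torus by elements of `N`. -/
theorem hp_conj_N {n : Δ} (hn : n ∈ C.N) (n' : ↥(pair C.hR C.hT).N)
    (he : ((n' : ↥(D.group K)) : GL D.Idx K) = C.θ n) (c : Fin D.rank → Kˣ) :
    n * hp C h3 c * n⁻¹ = hp C h3 (actM (matW C.hR C.hT (QuotientGroup.mk n')) c) := by
  obtain ⟨x, hx, l₀, hl₀, rfl⟩ := C.exists_wl hn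
  obtain ⟨l, rfl⟩ := exists_fin_list l₀ hl₀
  have hmk : (QuotientGroup.mk n' : WW (pair C.hR C.hT)) = pr (fW C.hR C.hT) l := by
    rw [← mk_nList C l]
    have h1 : n' = (n' * (nList C l)⁻¹) * nList C l := by group
    rw [h1, QuotientGroup.mk_mul, mk_eq_one C (n' * (nList C l)⁻¹), one_mul]
    show (n' : GL D.Idx K) * ((nList C l : ↥(D.group K)) : GL D.Idx K)⁻¹ ∈ D.diagonalSubgroup K
    rw [he, coe_nList, map_mul, mul_inv_cancel_right]
    exact C.θ_Hs hx
  rw [hmk]
  have h5 := hp_conj_wl C h3 l c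
  calc x * C.wl (l.map Fin.val) * hp C h3 c * (x * C.wl (l.map Fin.val))⁻¹
      = x * (C.wl (l.map Fin.val) * hp C h3 c * (C.wl (l.map Fin.val))⁻¹) * x⁻¹ := by group
    _ = x * hp C h3 (actM (matW C.hR C.hT (pr (fW C.hR C.hT) l)) c) * x⁻¹ := by rw [h5]
    _ = _ := by
      rw [Hs_comm C h3 hx (hp_mem C h3 _)]
      group

/-- Lifts of elements of the monomial subgroup. -/
theorem exists_lift_N {n₀ : GL D.Idx K} (hn₀ : n₀ ∈ D.monomialSubgroup K) :
    ∃ n ∈ C.N, C.θ n = n₀ := by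
  rw [monomial_eq C.hR C.hT] at hn₀
  have hle : D.diagonalSubgroup K ⊔ NJ C.hR Set.univ ≤ C.N.map C.θ := by
    apply sup_le
    · intro t ht
      obtain ⟨c, hc⟩ := diagonal_eq C.hR C.hT ▸ ht
      obtain ⟨rfl⟩ := hc.2
      refine ⟨C.hprod c, ?_, Ctx.θ_hprod c⟩
      have hle' : C.Hs ≤ C.N := by
        rw [Ctx.Hs, Subgroup.closure_le]
        rintro _ ⟨i, hi, t, ht, rfl⟩
        exact Subgroup.mul_mem _ (Subgroup.subset_closure ⟨i, hi, t, ht, rfl⟩)
          (Subgroup.subset_closure ⟨i, hi, -1, neg_ne_zero.mpr one_ne_zero, rfl⟩)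
      exact hle' (Ctx.hl_mem (fun j hj => List.mem_range.mp hj) hc.1)
    · rw [NJ, Subgroup.closure_le]
      rintro _ ⟨q, -, hq, rfl⟩
      exact ⟨C.Y.wh q 1, Subgroup.subset_closure ⟨q, hq, 1, one_ne_zero, rfl⟩, C.θ_wh hq 1⟩
  obtain ⟨n, hn, e⟩ := hle hn₀
  exact ⟨n, hn, e⟩

end Hp

end Cfsg.Agent.Lib.ChevTori.StLift
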