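import Cfsg.Agent.Lib.ChevTori.StLift

/-!
Fixed points of the Frobenius map in the presented group map into the Chevalley group over the
small field; the twisted tori.
-/

set_option autoImplicit false
set_option linter.unusedSectionVars false

namespace Cfsg.Agent.Lib.ChevTori.Twist

open Cfsg Cfsg.Lie Cfsg.Agent.Lib.ChevBN.Elem Cfsg.Agent.Lib.ChevBN.Entries Cfsg.Agent.Lib.ChevBN.Table
open Cfsg.Agent.Lib.ChevBN.Collect Cfsg.Agent.Lib.ChevBN.Rel Cfsg.Agent.Lib.ChevBN.Torus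
open Cfsg.Agent.Lib.ChevBN.Monomial Cfsg.Agent.Lib.ChevBN.Core Cfsg.Agent.Lib.ChevBN.Pair
open Cfsg.Agent.Lib.ChevBN.Stmts Cfsg.Agent.Lib.ChevBN.BruhatForm Cfsg.Agent.Lib.ChevBN.Opp
open Cfsg.Agent.Lib.ChevTri.Level Cfsg.Agent.Lib.ChevTri.Datum
open Cfsg.Agent.Lib.BNPair.Basic Cfsg.Agent.Lib.BNPair.Parabolic
open Cfsg.Agent.Lib.ChevOrder.BNCount Cfsg.Agent.Lib.ChevOrder.Chev
open Cfsg.Agent.Lib.ChevOrder.TorusCard Cfsg.Agent.Lib.ChevBN.Levi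
open Cfsg.Agent.Lib.BNPair.CoxeterExchange Cfsg.Agent.Lib.StChar.Top
open Cfsg.Agent.Lib.ChevTori.Act Cfsg.Agent.Lib.ChevTori.LinAlg
open Cfsg.Agent.Lib.ChevFix Cfsg.Agent.Lib.ChevTori.Core
open Cfsg.Agent.Lib.Steinberg.Gen Cfsg.Agent.Lib.ChevTori.StLift

section Fix

variable {D : ChevalleyDatum} {K : Type*} [Field K] {η : ℕ → ℕ → ℤ} (hR : Sys D K η) (hT : Tbl D)
variable {F : Type*} [Field F] (hF : AddRel D F) (ι : F →+* K) (σ : K →+* K)
  (hrange : ∀ t, σ t = t → ∃ s, ι s = t)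

include hR hT hF hrange in
/-- The normal form of a fixed element. -/
theorem fixed_form {g : GL D.Idx K} (hg : g ∈ D.group K) (hf : mp σ g = g) :
    ∃ u₁ ∈ G0 (D := D) ι, ∃ k₁ ∈ D.diagonalSubgroup K, mp σ k₁ = k₁ ∧ ∃ m ∈ G0 (D := D) ι,
      ∃ u ∈ G0 (D := D) ι, g = u₁ * k₁ * m * u := by
  obtain ⟨b, hb, m, hm, u, hu, rfl⟩ := exists_form hR hT hg
  have hmN : m ∈ D.monomialSubgroup K := by
    rw [monomial_eq hR hT]
    exact Subgroup.mem_sup_right hm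
  have e : b * m * u = mp σ b * m * mp σ u := by
    have := hf
    rw [map_mul, map_mul, NJ_fixed hR σ hm] at this
    exact this.symm
  have h1 := (normal_form_unique hR hT hb (mp_B σ hR.toAddRel hR.toAddRel hb) hmN hmN hu
    (mp_Un σ hu) e).2 rfl
  obtain ⟨u₁, hu₁, k₁, hk₁, rfl⟩ := (mem_B_iff hR hT).mp hb
  have h2 : mp σ u₁ * mp σ k₁ = u₁ * k₁ := by
    rw [← map_mul]
    exact h1.1.symm
  have hu₁' := mp_U σ hR.toAddRel hR.toAddRel hu₁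
  have hk₁' := mp_H σ hR.toAddRel hR.toAddRel hk₁
  have h3 : (mp σ u₁)⁻¹ * u₁ ∈ D.posUnipotent K ⊓ D.diagonalSubgroup K := by
    refine ⟨Subgroup.mul_mem _ (Subgroup.inv_mem _ hu₁') hu₁, ?_⟩
    have e5 : (mp σ u₁)⁻¹ * u₁ = mp σ k₁ * k₁⁻¹ := by
      rw [eq_mul_inv_iff_mul_eq, mul_assoc, ← h2, inv_mul_cancel_left]
    rw [e5]
    exact Subgroup.mul_mem _ hk₁' (Subgroup.inv_mem _ hk₁)
  rw [U_inf_H hR hT, Subgroup.mem_bot] at h3
  have h4 : mp σ u₁ = u₁ := inv_mul_eq_one.mp h3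
  have h5 : mp σ k₁ = k₁ := by
    rw [h4] at h2
    exact mul_left_cancel h2
  have hun : u ∈ D.posUnipotent K := Un_le_U hR hT m hu
  exact ⟨u₁, U_fix hR hT hF ι σ hrange hu₁ h4, k₁, hk₁, h5, m, NJ_le hR hT hF ι σ hrange hm, u,
    U_fix hR hT hF ι σ hrange hun h1.2.symm, rfl⟩

end Fix

section Main

variable {D : ChevalleyDatum} {F K : Type*} [Field F] [Field K] {η : ℕ → ℕ → ℤ}
variable (dF : Dat D F η) (dK : Dat D K η) (ι : F →+* K) (σ : K →+* K) {q : ℕ}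
  (hσ : ∀ a, σ a = a ^ q) (hfix : ∀ a, σ (ι a) = ι a) (hrange : ∀ t, σ t = t → ∃ s, ι s = t)

include hfix in
theorem stMap_fix (x : D.SteinbergGroup F) : stMap σ (stMap ι x) = stMap ι x := by
  have h : (stMap (D := D) σ).comp (stMap ι) = stMap ι := by
    apply hom_ext
    intro r t _
    simp only [MonoidHom.comp_apply, stMap_gen, hfix]
  exact congrArg (fun f => f x) h

include dF hfix in
theorem lift_G0 {e : GL D.Idx K} (he : e ∈ G0 (D := D) ι) :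
    ∃ x : D.SteinbergGroup K, dK.stein.θ x = e ∧ stMap σ x = x := by
  obtain ⟨g, hg, rfl⟩ := he
  have hg' : g ∈ dF.stein.θ.range := by
    rw [dF.stein.range_eq]
    exact hg
  obtain ⟨x, rfl⟩ := hg'
  exact ⟨stMap ι x, θ_stMap ι dF dK x, stMap_fix ι σ hfix x⟩

include hσ in
theorem stMap_hp (c : Fin D.rank → Kˣ) :
    stMap σ (hp dK.stein dK.stein_hasR3 c) = hp dK.stein dK.stein_hasR3 (c ^ q) := by
  rw [hp_apply, hp_apply, stMap_hprod σ dK dK]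
  apply Ctx.hprod_congr
  intro j hj
  simp [ext, hj, hσ]

variable (hinj : Function.Injective (hp dK.stein dK.stein_hasR3))

include dF hσ hfix hrange hinj in
/-- Fixed points in the presented group map into the group over the small field. -/
theorem fixed_mem' {δ : D.SteinbergGroup K} (hδ : stMap σ δ = δ) :
    dK.stein.θ δ ∈ G0 (D := D) ι := by
  set C := dK.stein with hC
  have h3 : C.HasR3 := dK.stein_hasR3
  have hf : mp σ (C.θ δ) = C.θ δ := by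
    rw [← θ_stMap σ dK dK, hδ]
  obtain ⟨u₁, hu₁, k₁, hk₁, hk₁f, m, hm, u, hu, e⟩ :=
    fixed_form dK.hR dK.hT dF.hR.toAddRel ι σ hrange (C.θ_mem δ) hf
  obtain ⟨x₁, hx₁, fx₁⟩ := lift_G0 dF dK ι σ hfix hu₁
  obtain ⟨x₂, hx₂, fx₂⟩ := lift_G0 dF dK ι σ hfix hm
  obtain ⟨x₃, hx₃, fx₃⟩ := lift_G0 dF dK ι σ hfix hu
  set δ₀ := x₁⁻¹ * δ * x₃⁻¹ * x₂⁻¹ with hδ₀
  have hθ₀ : C.θ δ₀ = k₁ := by
    rw [hδ₀, map_mul, map_mul, map_mul, map_inv, map_inv, map_inv, hx₁, hx₂, hx₃, e]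
    group
  have hfδ₀ : stMap σ δ₀ = δ₀ := by
    rw [hδ₀, map_mul, map_mul, map_mul, map_inv, map_inv, map_inv, fx₁, fx₂, fx₃, hδ]
  have hmem : δ₀ ∈ C.Hs := mem_Hs_of_θ C h3 (by rw [hθ₀]; exact hk₁)
  obtain ⟨a, ha⟩ := mem_Hs_iff_hp C h3 hmem
  have haq : a ^ q = a := by
    apply hinj
    rw [← stMap_hp dK σ hσ]
    show stMap σ (hp C h3 a) = hp C h3 a
    rw [← ha]
    exact hfδ₀
  have hk₁m : k₁ ∈ G0 (D := D) ι := by
    rw [← hθ₀, ha, θ_hp]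
    show hP C.hR (ext a) ∈ G0 (D := D) ι
    rw [hP]
    apply Subgroup.list_prod_mem
    intro x hx
    obtain ⟨j, hj, rfl⟩ := List.mem_map.mp hx
    have hj' := List.mem_range.mp hj
    refine hG_mem C.hR C.hT dF.hR.toAddRel ι σ hrange (C.hT.simple_lt hj') ?_
    have h1 := congrFun haq ⟨j, hj'⟩
    rw [Pi.pow_apply] at h1
    simp only [ext, hj', dif_pos]
    rw [hσ, ← Units.val_pow_eq_pow_val, h1]
  rw [e]
  exact Subgroup.mul_mem _ (Subgroup.mul_mem _ (Subgroup.mul_mem _ hu₁ hk₁m) hm) hu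

include dF hσ hfix hrange hinj in
/-- The twisted torus. -/
theorem twist {g y n₀ : GL D.Idx K} (hg : g ∈ D.group K) (hy : y = g⁻¹ * mp σ g)
    (hn₀ : n₀ ∈ D.monomialSubgroup K) (hyn : y * n₀ ∈ D.diagonalSubgroup K)
    (n' : ↥(pair dK.hR dK.hT).N) (hn' : ((n' : ↥(D.group K)) : GL D.Idx K) = n₀) :
    (∀ a : Fin D.rank → Kˣ, actM (matW dK.hR dK.hT (QuotientGroup.mk n')) a = a ^ q →
      g * (tmap dK.hT dK.hR a : GL D.Idx K) * g⁻¹ ∈ G0 (D := D) ι) ∧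
    (∀ e ∈ G0 (D := D) ι, ∀ t ∈ D.diagonalSubgroup K, e = g * t * g⁻¹ →
      ∃ a : Fin D.rank → Kˣ, actM (matW dK.hR dK.hT (QuotientGroup.mk n')) a = a ^ q ∧
        (tmap dK.hT dK.hR a : GL D.Idx K) = t) := by
  set C := dK.stein with hC
  have h3 : C.HasR3 := dK.stein_hasR3
  have hg' : g ∈ C.θ.range := by
    rw [C.range_eq]
    exact hg
  obtain ⟨g₁, rfl⟩ := hg'
  obtain ⟨n₁, hn₁, rfl⟩ := exists_lift_N C hn₀
  set y₁ := g₁⁻¹ * stMap σ g₁ with hy₁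
  have hθy : C.θ y₁ = y := by
    rw [hy₁, map_mul, map_inv, θ_stMap σ dK dK, hy]
  have hs : y₁ * n₁ ∈ C.Hs := by
    apply mem_Hs_of_θ C h3
    rw [map_mul, hθy]
    exact hyn
  have hkey : ∀ a, y₁⁻¹ * hp C h3 a * y₁ =
      hp C h3 (actM (matW dK.hR dK.hT (QuotientGroup.mk n')) a) := by
    intro a
    rw [← hp_conj_N C h3 hn₁ n' hn']
    have h1 := Hs_comm C h3 hs (hp_mem C h3 a)
    have e1 : y₁ = (y₁ * n₁) * n₁⁻¹ := by group
    calc y₁⁻¹ * hp C h3 a * y₁ = n₁ * ((y₁ * n₁)⁻¹ * (hp C h3 a * (y₁ * n₁))) * n₁⁻¹ := by group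
      _ = n₁ * ((y₁ * n₁)⁻¹ * ((y₁ * n₁) * hp C h3 a)) * n₁⁻¹ := by rw [← h1]
      _ = _ := by group
  have hσg : stMap σ g₁ = g₁ * y₁ := by
    rw [hy₁]
    group
  have hσe : ∀ a, stMap σ (g₁ * hp C h3 a * g₁⁻¹) =
      g₁ * (y₁ * hp C h3 (a ^ q) * y₁⁻¹) * g₁⁻¹ := by
    intro a
    have hq : stMap σ (hp C h3 a) = hp C h3 (a ^ q) := stMap_hp dK σ hσ a
    rw [map_mul, map_mul, map_inv, hσg, hq]
    generalize hp C h3 (a ^ q) = A
    group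
  refine ⟨?_, ?_⟩
  · intro a ha
    have h1 : stMap σ (g₁ * hp C h3 a * g₁⁻¹) = g₁ * hp C h3 a * g₁⁻¹ := by
      rw [hσe, ← ha, ← hkey]
      generalize hp C h3 a = A
      group
    have h2 := fixed_mem' dF dK ι σ hσ hfix hrange hinj h1
    rw [map_mul, map_mul, map_inv, θ_hp] at h2
    exact h2
  · intro e he t ht het
    obtain ⟨x, hx, hfx⟩ := lift_G0 dF dK ι σ hfix he
    have hm : g₁⁻¹ * x * g₁ ∈ C.Hs := by
      apply mem_Hs_of_θ C h3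
      rw [map_mul, map_mul, map_inv, hx, het]
      have e1 : (C.θ g₁)⁻¹ * (C.θ g₁ * t * (C.θ g₁)⁻¹) * C.θ g₁ = t := by group
      rw [e1]
      exact ht
    obtain ⟨a, ha⟩ := mem_Hs_iff_hp C h3 hm
    have hxa : x = g₁ * hp C h3 a * g₁⁻¹ := by
      rw [← ha]
      group
    refine ⟨a, hinj ?_, ?_⟩
    · show hp C h3 _ = hp C h3 (a ^ q)
      rw [← hkey]
      have h1 := hσe a
      rw [← hxa, hfx, hxa] at h1
      have h2 : hp C h3 a = y₁ * hp C h3 (a ^ q) * y₁⁻¹ := by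
        generalize hp C h3 (a ^ q) = A at h1 ⊢
        generalize hp C h3 a = A' at h1 ⊢
        have e2 : A' = g₁⁻¹ * (g₁ * A' * g₁⁻¹) * g₁ := by group
        rw [e2, h1]
        group
      rw [h2]
      generalize hp C h3 (a ^ q) = A
      group
    · have h1 : C.θ (hp C h3 a) = t := by
        rw [← ha, map_mul, map_mul, map_inv, hx, het]
        group
      rw [← θ_hp C h3 a]
      exact h1

end Main

end Cfsg.Agent.Lib.ChevTori.Twist
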